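import Cfsg.Agent.H13.TenBridge
import Cfsg.Agent.H12.Rho
import Cfsg.Agent.H12.NonMax

/-!
# Tensor decompositions of forms: bridge to the Prelude
-/

set_option autoImplicit false
set_option maxHeartbeats 400000

namespace H13.KL

open Module H12 TensorProduct Matrix Cfsg.Geo QuadraticMap
open scoped Kronecker

variable {F : Type*} [Field F] {ι : Type} [Fintype ι] [DecidableEq ι] {n₁ n₂ : ℕ}
  {T : FormType F} {V : Type*} [AddCommGroup V] [Module F V]

theorem isom_eq_trE (C : CForm T (ι → F)) (θ : V ≃ₗ[F] (ι → F)) :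
    C.isom.comap (glHom ι F) = (C.comap (θ : V →ₗ[F] _)).isom.comap (trE θ : GL ι F →* _) := by
  ext g
  exact (H11.linEquivConj_mem_isom (C := C) (C' := C.comap (θ : V →ₗ[F] _)) θ.symm
    ⟨fun x y => by simp, fun x => by simp⟩ _).symm

theorem comap_nondeg {V' : Type*} [AddCommGroup V'] [Module F V'] {C : CForm T V'} (hC : C.Nondeg)
    (θ : V ≃ₗ[F] V') : (C.comap (θ : V →ₗ[F] V')).Nondeg := fun x hx =>
  θ.injective (by
    rw [map_zero]
    exact hC _ fun y => by simpa using hx (θ.symm y))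

theorem polar_comp' {V' : Type*} [AddCommGroup V'] [Module F V'] (Q : QuadraticForm F V')
    (θ : V →ₗ[F] V') (x y : V) : polar (Q.comp θ) x y = polar Q (θ x) (θ y) := by
  simp [polar]

theorem qnondeg_comp {V' : Type*} [AddCommGroup V'] [Module F V'] {Q : QuadraticForm F V'}
    (hQ : QNondeg Q) (θ : V ≃ₗ[F] V') : QNondeg (Q.comp (θ : V →ₗ[F] V')) := fun x hx =>
  comap_nondeg hQ θ x fun y => by
    have := hx y
    rwa [CForm.ofQuad_B, polar_comp'] at this

theorem omegaGL_eq_trE (Q : QuadraticForm F (ι → F)) (θ : V ≃ₗ[F] (ι → F)) :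
    omegaGL ⇑Q = (OmegaV (Q.comp (θ : V →ₗ[F] _))).comap (trE θ : GL ι F →* _) := by
  have h : (orth Q).map (H11.linEquivConj θ.symm : _ →* _) = orth (Q.comp (θ : V →ₗ[F] _)) := by
    ext g
    obtain ⟨g, rfl⟩ := (H11.linEquivConj θ.symm).surjective g
    rw [H11.linEquivConj_mem_isom (C := CForm.ofQuad Q) θ.symm
      ⟨fun x y => by simp [CForm.ofQuad_B, polar_comp'], fun x => by simp [CForm.ofQuad_N]⟩]
    exact Subgroup.mem_map_iff_mem (H11.linEquivConj θ.symm).injective
  rw [H12.omegaGL_eq, OmegaV, OmegaV, Subgroup.map_subtype_commutator,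
    Subgroup.map_subtype_commutator, ← h, ← Subgroup.map_commutator]
  ext g
  rw [Subgroup.mem_comap, Subgroup.mem_comap]
  exact ⟨fun h => ⟨_, h, rfl⟩, fun ⟨_, h, e⟩ => (H11.linEquivConj θ.symm).injective e ▸ h⟩

theorem spGL_eq_trE {m : ℕ} (θ : V ≃ₗ[F] (Fin m ⊕ Fin m → F)) :
    Cfsg.spGL m F = ((H11.spForm (Fin m) F).comap θ.toLinearMap).isom.comap
      (trE θ : GL (Fin m ⊕ Fin m) F →* _) := by
  rw [spGL_eq, isom_eq_trE _ θ]

theorem SU_eq_trE [Fintype F] {q n : ℕ} (hF : Fintype.card F = q ^ 2) (θ : V ≃ₗ[F] (Fin n → F)) :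
    Cfsg.GU n F q ⊓ specialLinear (Fin n) F =
      (((H11.hermC (Fin n) hF).comap θ.toLinearMap).isom ⊓ SLV F V).comap
        (trE θ : GL (Fin n) F →* _) := by
  rw [GU_eq hF, isom_eq_trE _ θ, specialLinear_eq_trE θ, Subgroup.comap_inf]

/-- The tensor product subgroup with the factors interchanged. -/
theorem tensorProductSubgroup_eq' (e : ι ≃ Fin n₁ × Fin n₂) (P : GL ι F) :
    tensorProductSubgroup n₁ n₂ e P = (tenStab F (Fin n₂ → F) (Fin n₁ → F)).comap
      (trE ((TensorProduct.comm F _ _).trans (tenIso e P)) : GL ι F →* _) := by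
  rw [tensorProductSubgroup_eq]
  ext g
  have key : ∀ x, trE ((TensorProduct.comm F _ _).trans (tenIso e P)) g x =
      TensorProduct.comm F _ _ (trE (tenIso e P) g (TensorProduct.comm F _ _ x)) := fun x =>
    ((TensorProduct.comm F _ _).trans (tenIso e P)).injective (by
      rw [trE_apply]; simp [trE_apply])
  simp only [Subgroup.mem_comap, MonoidHom.coe_coe, mem_tenStab, key, comm_tmul]
  constructor
  · rintro ⟨a, b, h⟩
    exact ⟨b, a, fun w u => by rw [h, comm_tmul]⟩
  · rintro ⟨a, b, h⟩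
    exact ⟨b, a, fun u w => (TensorProduct.comm F _ _).injective (by rw [h, comm_tmul])⟩

omit [DecidableEq ι] in
theorem formOfGram_kronecker {σ : F → F} (hσ : ∀ a b, σ (a * b) = σ a * σ b)
    (A : Matrix (Fin n₁) (Fin n₁) F) (B : Matrix (Fin n₂) (Fin n₂) F) (u u' : Fin n₁ → F)
    (w w' : Fin n₂ → F) : formOfGram σ (A ⊗ₖ B) (pure u w) (pure u' w') =
      formOfGram σ A u u' * formOfGram σ B w w' := by
  simp only [formOfGram, pure, Fintype.sum_prod_type, kroneckerMap_apply, Finset.sum_mul_sum, hσ]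
  exact Finset.sum_congr rfl fun _ _ => Finset.sum_congr rfl fun _ _ =>
    Finset.sum_congr rfl fun _ _ => Finset.sum_congr rfl fun _ _ => by ring

theorem formOfGram_gram {σ : F → F} {f : (ι → F) → (ι → F) → F}
    (h1 : ∀ x y v, f (x + y) v = f x v + f y v) (h2 : ∀ (c : F) x v, f (c • x) v = c * f x v)
    (h3 : ∀ v x y, f v (x + y) = f v x + f v y) (h4 : ∀ (c : F) v x, f v (c • x) = σ c * f v x)
    (x y : ι → F) : formOfGram σ (gramMatrix f) x y = f x y := by
  let L (v : ι → F) : (ι → F) →+ F := AddMonoidHom.mk' (fun x => f x v) fun x y => h1 x y v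
  let R (v : ι → F) : (ι → F) →+ F := AddMonoidHom.mk' (f v) (h3 v)
  have e : ∀ x : ι → F, x = ∑ a, x a • (Pi.single a 1 : ι → F) := fun x => by
    simp [← Pi.single_smul, Finset.univ_sum_single]
  symm
  calc f x y = L y (∑ a, x a • (Pi.single a 1 : ι → F)) := congrArg (L y) (e x)
    _ = _ := by
      rw [map_sum]
      refine Finset.sum_congr rfl fun a _ => ?_
      change f _ _ = _
      rw [h2, show f (Pi.single a 1) y = R _ (∑ a, y a • (Pi.single a 1 : ι → F)) from
        congrArg (R _) (e y), map_sum, Finset.mul_sum]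
      refine Finset.sum_congr rfl fun b _ => ?_
      change _ * f _ _ = _
      rw [h4, gramMatrix]; ring

theorem formOfGram_bilin {f : (ι → F) → (ι → F) → F} (h : IsBilinearForm f) (x y : ι → F) :
    formOfGram id (gramMatrix f) x y = f x y :=
  formOfGram_gram h.add_left h.smul_left h.add_right h.smul_right x y

theorem formOfGram_herm [Fintype F] {q : ℕ} (hF : Fintype.card F = q ^ 2)
    {f : (ι → F) → (ι → F) → F} (h : IsUnitaryFormPow q f) (x y : ι → F) :
    formOfGram (fun x => x ^ q) (gramMatrix f) x y = f x y :=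
  formOfGram_gram h.add_left h.smul_left (fun v x y => by
    rw [h.herm, h.add_left, ← H11.frob_apply hF, map_add, h.herm v, h.herm v]; rfl)
    (fun c v x => by rw [h.herm, h.smul_left, mul_pow, h.herm v]) x y

theorem tf_bridge {σ : F → F} (hσ : ∀ a b, σ (a * b) = σ a * σ b) {f : (ι → F) → (ι → F) → F}
    {f₁ : (Fin n₁ → F) → (Fin n₁ → F) → F} {f₂ : (Fin n₂ → F) → (Fin n₂ → F) → F}
    (h₁ : ∀ x y, formOfGram σ (gramMatrix f₁) x y = f₁ x y)
    (h₂ : ∀ x y, formOfGram σ (gramMatrix f₂) x y = f₂ x y) {e : ι ≃ Fin n₁ × Fin n₂} {P : GL ι F}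
    (h : IsTensorFormStructure σ f f₁ f₂ e P) : ∃ c : F, c ≠ 0 ∧ ∀ u w u' w',
      f (tenIso e P (u ⊗ₜ w)) (tenIso e P (u' ⊗ₜ w')) = c * (f₁ u u' * f₂ w w') :=
  let ⟨c, hc, h⟩ := h
  ⟨c, hc, fun u w u' w' => by rw [tenIso_tmul, tenIso_tmul, h, formOfGram_kronecker hσ, h₁, h₂]⟩

omit [DecidableEq ι] in
theorem card_eq_mul (e : ι ≃ Fin n₁ × Fin n₂) : Fintype.card ι = n₁ * n₂ := by
  simpa using Fintype.card_congr e

end H13.KL
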