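import Cfsg.Agent.H13.Root4
import Cfsg.Agent.H13.Fam

/-!
Rank one pairs in degenerate classes of root subgroups are special.
-/

set_option autoImplicit false

namespace H13.Root

open Cfsg Relation
open scoped MatrixGroups

variable {G : Type*} [Group G] {A B C D : Subgroup G}

theorem special_of_cj (h : IsRankOnePair A B)
    (h1 : ∀ a ∈ A, a ≠ 1 → ∀ y ∈ B, conjBy A y = conjBy B a⁻¹ → conjBy A y⁻¹ = conjBy B a) :
    IsSpecialRankOnePair A B := by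
  refine ⟨h, fun a ha ha1 b hb _ e => ?_⟩
  have e' := h1 a ha ha1 _ (inv_mem hb) e
  have hb := inv_mem hb
  rw [← inv_inv b]
  generalize b⁻¹ = y at *
  have e1 : conjBy B (y * a * y) = A := by rw [cj_mul_of_mem hb, ← cj_cj, ← e', cj_cj_inv]
  have e2 : conjBy A (y * a * y) = B := by rw [← cj_cj, e, cj_cj, mul_inv_cancel_right, cj_of_mem hb]
  have e3 : (y * a * y)⁻¹ * y * (y * a * y) = a := by
    refine cj_inj_left h ?_ ha ?_
    · rwa [← e2, mem_cj] at hb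
    · rw [← cj_cj, e1, ← e', show (y * a * y)⁻¹ * y = y⁻¹ * a⁻¹ by group, cj_mul_of_mem (inv_mem ha)]
  rw [inv_inv, eq_comm, mul_assoc, inv_mul_eq_iff_eq_mul]
  calc _ = y⁻¹ * (y * a * y) * ((y * a * y)⁻¹ * y * (y * a * y)) * y⁻¹ := by group
    _ = _ := by rw [e3]; group

theorem mem_U_of_sup {P Q : Subgroup G} (h : IsRankOnePair P Q) (e : P ⊔ Q = A ⊔ B) {R : Subgroup G}
    (h1 : R ∈ unipotentSubgroups P Q) (h2 : R ∈ unipotentSubgroups A B) : P ∈ unipotentSubgroups A B := by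
  obtain ⟨x, hx, rfl⟩ := h1
  have := cj_mem_U h2 (inv_mem (e ▸ hx))
  rwa [cj_inv_cj] at this

theorem tri_special (h1 : IsRankOnePair A D) (h2 : IsRankOnePair C D) (h3 : ⁅A, C⁆ = ⊥) (hne : A ≠ C) :
    IsSpecialRankOnePair A D := by
  refine special_of_cj h1 fun a ha ha1 d hd e => ?_
  by_contra h4
  have hd1 : d ≠ 1 := fun e' => cj_ne h1 (inv_mem ha) (by rw [← e, e', cj_one])
  obtain ⟨c, hc, -, e'⟩ := cond (symm h2) hd hd1
  have hac := comm_bot_iff.1 h3 a ha c hc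
  have h5 : ⁅D, conjBy D (a * c)⁆ = ⊥ := by
    have := comm_bot_cj h3 (a * d)
    rwa [← cj_cj, e, ← cj_cj C, ← e', cj_cj_inv, cj_cj] at this
  have h6 : IsRankOnePair C (conjBy D (a * c)) := by
    have := conj h2 (a * c)
    rwa [cj_mul_of_mem hc, cj_eq_of_comm_bot (comm_bot_symm h3) ha] at this
  have h7 : IsRankOnePair A (conjBy D (a * c)) := by
    have := conj h1 (c * a)
    rwa [cj_mul_of_mem ha, cj_eq_of_comm_bot h3 hc, ← hac] at this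
  have h8 := conj h7 d⁻¹
  rw [cj_eq_of_comm_bot (comm_bot_symm h5) (inv_mem hd)] at h8
  have h9 : C ∈ unipotentSubgroups (conjBy A d⁻¹) (conjBy D (a * c)) := by
    obtain ⟨x, hx, e1⟩ := cj_mem_U (right_mem_U h7) (Subgroup.mem_sup_left (inv_mem ha))
    refine ⟨d⁻¹ * x * d⁻¹⁻¹, ?_, ?_⟩
    · rw [← cj_eq_of_comm_bot (comm_bot_symm h5) (inv_mem hd), ← cj_sup]; exact conj_mem_cj hx _
    · rw [cj_cj, inv_mul_cancel_right, ← cj_cj, ← e1, cj_cj D, inv_mul_cancel_left, e', cj_inv_cj]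
  have h10 := sup_of_mem_U h8 h9 (right_mem_U h8) h6.ne
  have h11 := mem_U_of_sup h8 h10.symm h9 left_mem_U
  have h12 : conjBy D a ∈ unipotentSubgroups C (conjBy D (a * c)) := by
    simpa [cj_cj, hac] using cj_mem_U (right_mem_U h6) (Subgroup.mem_sup_left (inv_mem hc))
  have h13 : conjBy A d⁻¹ ∈ unipotentSubgroups A D := cj_mem_U left_mem_U (Subgroup.mem_sup_right (inv_mem hd))
  exact comm_ne_bot (pair_of_mem_U h1 left_mem_U (mem_U_of_sup h6 ((sup_of_mem_U h6 h11 h12 h4).symm.trans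
    (sup_of_mem_U h1 h13 (cj_mem_U (right_mem_U h1) (Subgroup.mem_sup_left ha)) h4)) h11 h13) hne) h3

theorem braid_cube {a e c : G} (h1 : a * e * a = e * a * e) (h2 : c * e * c = e * c * e) (h3 : a * c = c * a)
    (h4 : Commute e (a * c⁻¹ * e * (a * c⁻¹)⁻¹)) (h5 : Commute e ((a * c⁻¹) ^ 2 * e * ((a * c⁻¹) ^ 2)⁻¹)) :
    e ^ 3 = (a * c⁻¹)⁻¹ * e * (a * c⁻¹)⁻¹⁻¹ * (a * c⁻¹ * e * (a * c⁻¹)⁻¹) ^ 3 *
      ((a * c⁻¹) ^ 2 * e * ((a * c⁻¹) ^ 2)⁻¹)⁻¹ := by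
  have k1 : a⁻¹ * e⁻¹ * a = e * a⁻¹ * e⁻¹ := by
    calc _ = (a⁻¹ * (e * a * e) * e⁻¹)⁻¹ := by group
      _ = _ := by rw [← h1]; group
  have k2 : c⁻¹ * e * c = e * c * e⁻¹ := by
    calc _ = c⁻¹ * (e * c * e) * e⁻¹ := by group
      _ = _ := by rw [← h2]; group
  have k3 : Commute a (a * c⁻¹) := (Commute.refl a).mul_right (Commute.inv_right h3)
  obtain ⟨n, hn⟩ : ∃ n, n = a * c⁻¹ := ⟨_, rfl⟩
  obtain ⟨m, hm⟩ : ∃ m, m = e⁻¹ * (n * e * n⁻¹) := ⟨_, rfl⟩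
  obtain ⟨z, hz⟩ : ∃ z, z = m⁻¹ * (n * m * n⁻¹) := ⟨_, rfl⟩
  rw [← hn] at h4 h5 k3 ⊢
  have k4 : Commute e m := hm ▸ (Commute.refl e).inv_right.mul_right h4
  have k5 : n * e * n⁻¹ = e * m := by rw [hm]; group
  have k6 : n * m * n⁻¹ = m * z := by rw [hz]; group
  have k7 : n ^ 2 * e * (n ^ 2)⁻¹ = e * m * (m * z) := by
    calc _ = n * (n * e * n⁻¹) * n⁻¹ := by rw [pow_two]; group
      _ = n * e * n⁻¹ * (n * m * n⁻¹) := by nth_rw 1 [k5]; group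
      _ = _ := by rw [k5, k6]
  have k8 : Commute e z := by
    have := (k4.inv_right.mul_right ((Commute.refl e).mul_right k4).inv_right).mul_right (k7 ▸ h5)
    simpa [mul_assoc] using this
  have k9 : e * n⁻¹ * e⁻¹ = n⁻¹ * m := by rw [hm, h4.inv_left.eq]; group
  have k10 : Commute m z := by
    have : e * z * e⁻¹ = m⁻¹ * z * m := by
      calc _ = (e * m * e⁻¹)⁻¹ * ((e * n⁻¹ * e⁻¹)⁻¹ * (e * m * e⁻¹) * (e * n⁻¹ * e⁻¹)) := by rw [hz]; group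
        _ = _ := by rw [k9, k4.eq, hz]; group
    rw [k8.eq, mul_inv_cancel_right, mul_assoc, eq_inv_mul_iff_mul_eq] at this
    exact this
  have k11 : a⁻¹ * m * a = n⁻¹ * m := by
    rw [← k9, hm, hn]
    calc _ = a⁻¹ * e⁻¹ * a * (c⁻¹ * e * c) := by group
      _ = e * (a⁻¹ * c) * e⁻¹ := by rw [k1, k2]; group
      _ = _ := by rw [(Commute.inv_left h3).eq]; group
  have k12 : a⁻¹ * z * a = z := by
    calc _ = (a⁻¹ * m * a)⁻¹ * (a⁻¹ * (n * a) * (a⁻¹ * m * a) * (a⁻¹ * (n * a))⁻¹) := by rw [hz]; group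
      _ = _ := by rw [k11, ← k3.eq, hz]; group
  have k13 : Commute n z := by
    have : Commute (n⁻¹ * m) z := by rw [← k11, ← k12]; simpa using k10.conj a⁻¹
    simpa using (this.mul_left k10.inv_left).inv_left
  have k14 : n⁻¹ * e * n⁻¹⁻¹ = e * m⁻¹ * z := by
    have : n * (e * m⁻¹ * z) * n⁻¹ = e := by
      calc _ = n * e * n⁻¹ * (n * m * n⁻¹)⁻¹ * (n * z) * n⁻¹ := by group
        _ = e * m * (z * m)⁻¹ * z := by rw [k5, k6, k13.eq, k10.eq]; group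
        _ = _ := by group
    conv_lhs => rw [← this]
    group
  rw [k14, k5, k7, k4.mul_pow, mul_assoc _ z, ← ((k8.pow_left 3).mul_left (k10.pow_left 3)).eq, mul_assoc e,
    ← mul_assoc m⁻¹, ← mul_assoc m⁻¹, ← (k4.inv_right.pow_left 3).eq, eq_mul_inv_iff_mul_eq]
  simp [pow_succ, mul_assoc]

variable {S : Set (Subgroup G)}

/-- the other members commuting with `P` -/
def Gam (S : Set (Subgroup G)) (P : Subgroup G) : Set (Subgroup G) := {C | C ∈ S ∧ C ≠ P ∧ ⁅P, C⁆ = ⊥}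

variable (hS : IsRootSubgroupSet S)
include hS

theorem Gam_cj {P Q : Subgroup G} (h : Q ∈ Gam S P) (g : G) : conjBy Q g ∈ Gam S (conjBy P g) :=
  ⟨hS.conj_mem _ h.1 g, fun e => h.2.1 (cj_inj.1 e), comm_bot_cj h.2.2 g⟩

theorem Gam_congr {P Q : Subgroup G} (h : Gam S P = Gam S Q) (g : G) : Gam S (conjBy P g) = Gam S (conjBy Q g) := by
  have k : ∀ {P Q : Subgroup G}, Gam S P = Gam S Q → Gam S (conjBy P g) ⊆ Gam S (conjBy Q g) := fun h C hC => by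
    have := Gam_cj hS hC g⁻¹
    rw [cj_inv_cj, h] at this
    simpa only [cj_cj_inv] using Gam_cj hS this g
  exact (k h).antisymm (k h.symm)

theorem exists_opp_both (hd : IsDegenerateRootSet S) (hA : A ∈ S) (hni : NI S A) (h : ReflTransGen (FAdj S) A C) :
    ∃ D ∈ S, IsRankOnePair A D ∧ IsRankOnePair C D := by
  induction h with
  | refl => exact let ⟨D, hD, h⟩ := hni; ⟨D, hD, h, h⟩
  | @tail P Q _ h ih =>
    obtain ⟨D, hD, h1, h2⟩ := ih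
    rcases hS.pair Q h.2.1 D hD with e | e | e
    · rcases hS.pair A hA P h.1 with e' | e' | e'
      · obtain ⟨c, hc, hc1⟩ := exists_ne_one (left_ne_bot h2)
        obtain ⟨d, hd, -, e1⟩ := cond h2 hc hc1
        exact ⟨_, hS.conj_mem D hD c, by simpa only [cj_eq_of_comm_bot e' hc] using conj h1 c,
          by simpa only [cj_eq_of_comm_bot e hd, e1] using conj (symm h.2.2) d⟩
      · exact ⟨P, h.1, e', symm h.2.2⟩
      · exact (hd _ hA _ h.1 e').elim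
    · exact ⟨D, hD, h1, e⟩
    · exact (hd _ h.2.1 _ hD e).elim

theorem pow_three (hA : A ∈ S) (hC : C ∈ Gam S A) (hD : D ∈ S) (h1 : IsRankOnePair A D) (h2 : IsRankOnePair C D)
    {D' : Subgroup G} (h3 : IsRankOnePair D D') (h4 : ∀ E ∈ Gam S D, ⁅E, D'⁆ = ⊥) {a : G} (ha : a ∈ A)
    (ha2 : a ^ 2 ≠ 1) : a ^ 3 = 1 := by
  have s1 := tri_special h1 h2 hC.2.2 hC.2.1.symm
  have s2 := tri_special h2 h1 (comm_bot_symm hC.2.2) hC.2.1
  have ha1 : a ≠ 1 := fun e => ha2 (by simp [e])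
  obtain ⟨c, hc, hc1, e⟩ := Y_surj h2 (Y_spec h1 ha ha1).1 (Y_ne_one h1 ha ha1)
  have he2 : Y A D a ^ 2 ≠ 1 := mt (Y_pow_eq_one_iff s1 ha ha1 2).1 ha2
  have hc2 : c ^ 2 ≠ 1 := mt (Y_pow_eq_one_iff s2 hc hc1 2).2 (e ▸ he2)
  have k : ∀ {x : G}, x ^ 2 ≠ 1 → ∀ j, 1 ≤ j → j ≤ 1 + 1 → x ^ j ≠ 1 := fun {x} h j h1 h2 e => by
    interval_cases j <;> simp_all
  have e1 := Y_pow s1 (self_comm hS hA) ha 1 (k ha2)
  have e2 := Y_pow s2 (self_comm hS hC.1) hc 1 (k hc2)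
  have y1 := Y_spec h1 (pow_mem ha 2) ha2
  have y2 := Y_spec h2 (pow_mem hc 2) hc2
  have e3 : Y C D (c ^ 2) = Y A D (a ^ 2) := by
    by_contra hne
    have h5 := mul_mem y2.1 (inv_mem y1.1)
    have h6 : (Y C D (c ^ 2) * (Y A D (a ^ 2))⁻¹) ^ 2 = 1 := by
      rw [Commute.mul_pow (mul_comm_of_mem hS hD y2.1 (inv_mem y1.1)), inv_pow, e1, e2, e, mul_inv_cancel]
    have := pow_eq_one_of_prime (special_symm s1) (self_comm hS hD) h5 (mul_inv_eq_one.not.2 hne)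
      (isOfFinOrder_iff_pow_eq_one.2 ⟨2, two_pos, h6⟩) (Y_spec h1 ha ha1).1
    exact he2 (orderOf_eq_prime h6 (mul_inv_eq_one.not.2 hne) ▸ this)
  have hac : Commute a c := comm_bot_iff.1 hC.2.2 a ha c hc
  have g : ∀ {a c f : G}, conjBy A f = conjBy D a⁻¹ → conjBy C f = conjBy D c⁻¹ → conjBy D (a * c⁻¹) ∈ Gam S D := by
    intro a c f e1 e2
    have := Gam_cj hS hC (a * f)
    rwa [← cj_cj, ← cj_cj, e1, e2, cj_cj_inv, cj_cj] at this
  have g1 := g (Y_spec h1 ha ha1).2 (e ▸ (Y_spec h2 hc hc1).2)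
  have g2 := g y1.2 (e3 ▸ y2.2)
  rw [← inv_pow, ← hac.inv_right.mul_pow] at g2
  have g3 : conjBy D (a * c⁻¹)⁻¹ ∈ Gam S D := by
    have := Gam_cj hS (show D ∈ Gam S (conjBy D (a * c⁻¹)) from ⟨hD, g1.2.1.symm, comm_bot_symm g1.2.2⟩) (a * c⁻¹)⁻¹
    rwa [cj_inv_cj] at this
  have he := (Y_spec h1 ha ha1).1
  rw [← Y_pow_eq_one_iff s1 ha ha1]
  refine eq_one_of_commute h3 (pow_mem he 3) fun b hb => ?_
  have c1 : ∀ {x}, conjBy D x ∈ Gam S D → Commute (x * Y A D a * x⁻¹) b := fun h =>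
    comm_bot_iff.1 (h4 _ h) _ (conj_mem_cj he _) b hb
  rw [braid_cube (braid s1 ha ha1) (e ▸ braid s2 hc hc1) hac (comm_bot_iff.1 g1.2.2 _ he _ (conj_mem_cj he _))
    (comm_bot_iff.1 g2.2.2 _ he _ (conj_mem_cj he _))]
  exact ((c1 g3).mul_left ((c1 g1).pow_left 3)).mul_left (c1 g2).inv_left

theorem eq_one_of_Gam (hC : C ∈ Gam S A) (hG : Gam S A = Gam S B) (h1 : IsRankOnePair A D) (h2 : IsRankOnePair C D)
    (h3 : IsRankOnePair B D) {x : G} (hx : x ∈ A) (hA : A ∈ S) (hx' : x ∈ ⁅A ⊔ B, A ⊔ B⁆) : x = 1 := by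
  have k0 : ∀ {A B : Subgroup G}, Gam S A = Gam S B → IsRankOnePair A D → IsRankOnePair B D → ∀ a ∈ A, ∃ b ∈ B,
      Gam S (conjBy D a) = Gam S (conjBy D b) := fun {A B} hG h1 h3 a ha => by
    by_cases ha1 : a = 1
    · exact ⟨1, one_mem _, by rw [ha1]⟩
    obtain ⟨d, hd, hd1, e⟩ := cond h1 ha ha1
    obtain ⟨b, hb, -, e'⟩ := cond (symm h3) hd hd1
    exact ⟨b, hb, by rw [← e, e', Gam_congr hS hG]⟩
  have k1 : ∀ a ∈ A, a ≠ 1 → ∃ c ∈ C, c ≠ 1 ∧ conjBy D c ∈ Gam S (conjBy D a) := fun a ha ha1 => by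
    obtain ⟨d, hd, hd1, e⟩ := cond h1 ha ha1
    obtain ⟨c, hc, hc1, e'⟩ := cond (symm h2) hd hd1
    exact ⟨c, hc, hc1, by rw [← e, e']; exact Gam_cj hS hC d⟩
  have k2 : ∀ {g g'} (x), Gam S (conjBy D g) = Gam S (conjBy D g') →
      Gam S (conjBy D (x * g)) = Gam S (conjBy D (x * g')) := fun x h => by simpa only [cj_cj] using Gam_congr hS h x
  have hAc := @mul_comm_of_mem _ _ _ hS _ hA
  let M : Subgroup G :=
    { carrier := {x | ∃ a ∈ A, ∀ a' ∈ A, Gam S (conjBy D (x * a')) = Gam S (conjBy D (a * a'))}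
      one_mem' := ⟨1, one_mem _, fun _ _ => rfl⟩
      mul_mem' := fun {x y} ⟨a, ha, e⟩ ⟨b, hb, e'⟩ => ⟨a * b, mul_mem ha hb, fun a' ha' => by
        rw [mul_assoc, k2 x (e' a' ha'), e _ (mul_mem hb ha'), mul_assoc]⟩
      inv_mem' := fun {x} ⟨a, ha, e⟩ => ⟨a⁻¹, inv_mem ha, fun a' ha' => by
        simpa using (k2 x⁻¹ (e _ (mul_mem (inv_mem ha) ha'))).symm⟩ }
  have hM : A ⊔ B ≤ M := sup_le (fun a ha => ⟨a, ha, fun _ _ => rfl⟩) fun b hb => by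
    obtain ⟨a, ha, e⟩ := k0 hG.symm h3 h1 b hb
    refine ⟨a, ha, fun a' ha' => ?_⟩
    by_cases ha1 : a' = 1
    · simpa [ha1] using e
    obtain ⟨b', hb', e1⟩ := k0 hG h1 h3 a' ha'
    obtain ⟨a'', ha'', e2⟩ := k0 hG.symm h3 h1 _ (mul_mem hb hb')
    have e3 := (k2 b e1).trans e2
    rw [e3]
    by_contra hne
    obtain ⟨c, hc, hc1, h4⟩ := k1 a' ha' ha1
    have h5 := Gam_cj hS h4 a
    have h6 := Gam_cj hS h4 b
    rw [cj_cj, cj_cj] at h5 h6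
    have e4 : Gam S (conjBy D (b * c)) = Gam S (conjBy D (a * c)) := by
      rw [comm_bot_iff.1 (hG ▸ hC).2.2 b hb c hc, comm_bot_iff.1 hC.2.2 a ha c hc, k2 c e]
    have h7 : conjBy D (b * a') ∈ Gam S (conjBy D (a * c)) := e4 ▸
      ⟨hS.conj_mem _ (by simpa using (Gam_cj hS h4 c⁻¹).1) _, h6.2.1.symm, comm_bot_symm h6.2.2⟩
    have h8 : conjBy D (a * c) ∈ Gam S (conjBy D a'') := e3 ▸ ⟨h5.1, h7.2.1.symm, comm_bot_symm h7.2.2⟩
    have h9 := comm_bot_sup_left h8.2.2 h5.2.2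
    rw [sup_of_mem_U h1 (cj_mem_U (right_mem_U h1) (Subgroup.mem_sup_left ha''))
      (cj_mem_U (right_mem_U h1) (Subgroup.mem_sup_left (mul_mem ha ha'))) fun e => hne (by rw [e])] at h9
    have h10 := comm_bot_cj h9 a⁻¹
    rw [cj_of_mem (Subgroup.mem_sup_left (inv_mem ha)), cj_cj, inv_mul_cancel_left] at h10
    exact comm_ne_bot (pair_cj h2 hc hc1) (comm_bot_mono h10 le_sup_right le_rfl)
  let K : Subgroup G :=
    { carrier := {x | ∀ a' ∈ A, Gam S (conjBy D (x * a')) = Gam S (conjBy D a')}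
      one_mem' := fun _ _ => by rw [one_mul]
      mul_mem' := fun {x y} e e' a' ha' => by rw [mul_assoc, k2 x (e' a' ha'), e _ ha']
      inv_mem' := fun {x} e a' ha' => by simpa using (k2 x⁻¹ (e _ ha')).symm }
  have hK : ⁅M, M⁆ ≤ K := Subgroup.commutator_le.2 fun x ⟨a, ha, e⟩ y ⟨b, hb, e'⟩ a' ha' => by
    obtain ⟨c, hc, e1⟩ := mul_mem (inv_mem (show x ∈ M from ⟨a, ha, e⟩)) (inv_mem (show y ∈ M from ⟨b, hb, e'⟩))
    have e2 := k2 (y * x) (e1 a' ha')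
    have e3 := k2 (x * y) (e1 a' ha')
    have h4 := mul_mem hc ha'
    rw [mul_assoc x y (c * a'), k2 x (e' _ h4), e _ (mul_mem hb h4), ← mul_assoc a, hAc ha hb, mul_assoc b,
      ← e' _ (mul_mem ha h4), ← k2 y (e _ h4), ← mul_assoc y, ← e2] at e3
    simpa [commutatorElement_def, mul_assoc] using e3
  by_contra hx1
  obtain ⟨c, hc, hc1, h4⟩ := k1 x hx hx1
  have := hK (Subgroup.commutator_mono hM hM hx') 1 (one_mem _)
  rw [mul_one, cj_one] at this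
  exact comm_ne_bot (pair_cj h2 hc hc1) (this ▸ h4).2.2

end H13.Root
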