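import Cfsg.Agent.H13.Fam
import Cfsg.Agent.H13.RI1
import Cfsg.Agent.H11.SL
import Cfsg.Agent.H12.Witt

/-!
Transvection subgroups of `SL_n` and root involutions coming from one parameter families.
-/

set_option autoImplicit false

namespace H13

open Cfsg H13.Root H13.QP Relation Matrix
open scoped MatrixGroups

theorem SL2.odd_xy {F : Type*} [Field F] [Finite F] [CharP F 2] {s t : F} (hs : s ≠ 0) (ht : t ≠ 0) :
    Odd (orderOf (SL2.x s * SL2.y t)) := by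
  rw [← Nat.not_even_iff_odd]
  rintro ⟨k, hk⟩
  have h0 := orderOf_pos (SL2.x s * SL2.y t)
  have a2 : SL2.x s * SL2.x s = 1 := by rw [← SL2.x_add, CharTwo.add_self_eq_zero, SL2.x_eq_one]
  have b2 : SL2.y t * SL2.y t = 1 := by rw [← SL2.y_add, CharTwo.add_self_eq_zero, SL2.y_eq_one]
  have h1 := RInv.conj_pow (RInv.inverts a2 b2) k
  have h2 : (SL2.x s * SL2.y t) ^ k * (SL2.x s * SL2.y t) ^ k = 1 := by rw [← pow_add, ← hk, pow_orderOf_eq_one]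
  have h3 : (SL2.x s * SL2.y t) ^ k ≠ 1 := pow_ne_one_of_lt_orderOf (by omega) (by omega)
  have h4 := (Commute.refl (SL2.x s * SL2.y t)).pow_right k
  rw [_root_.zpow_neg, zpow_natCast, RInv.inv_eq h2] at h1
  generalize (SL2.x s * SL2.y t) ^ k = z at *
  have h5 : SL2.y t * z = z * SL2.y t := by
    refine mul_left_cancel (a := SL2.x s) ?_
    rw [← mul_assoc, h4.eq, ← mul_assoc, ← mul_assoc, h1]
  have e1 := congrArg (fun g : SL(2, F) => g 0 0) h1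
  have e2 := congrArg (fun g : SL(2, F) => g 0 1) h1
  have e3 := congrArg (fun g : SL(2, F) => g 0 0) h5
  have e4 := congrArg (fun g : SL(2, F) => g 0 0) h2
  simp [SL2.mul_apply', hs, ht] at e1 e2 e3 e4
  have e5 : z 0 0 = 1 := by
    have : (z 0 0 + 1) ^ 2 = 0 := by
      rw [CharTwo.add_sq, pow_two, show z 0 0 * z 0 0 = 1 by simpa [e1, e3] using e4, one_pow, CharTwo.add_self_eq_zero]
    rw [← sub_eq_zero, CharTwo.sub_eq_add]; exact pow_eq_zero_iff two_ne_zero |>.1 this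
  refine h3 (SL2.ext' (by simp [e5]) (by simp [e3]) (by simp [e1]) ?_)
  have := SL2.det' z
  simpa [e5, e3] using this

theorem odd_of_psl2 {F G : Type*} [Field F] [Finite F] [CharP F 2] [Group G] {A B : Subgroup G}
    (h : IsPSL2PairOver F A B) {a b : G} (ha : a ∈ A) (hb : b ∈ B) (ha1 : a ≠ 1) (hb1 : b ≠ 1) :
    Odd (orderOf (a * b)) ∧ (Nat.card F = 2 → (a * b) ^ 3 = 1) := by
  obtain ⟨φ, -, -, rfl, rfl⟩ := h
  obtain ⟨a, ha, rfl⟩ := ha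
  obtain ⟨b, hb, rfl⟩ := hb
  obtain ⟨s, rfl⟩ := SL2.mem_upper.1 ha
  obtain ⟨t, rfl⟩ := SL2.mem_lower.1 hb
  have hs : s ≠ 0 := fun e => ha1 (by rw [SL2.x_eq_one.2 e, map_one])
  have ht : t ≠ 0 := fun e => hb1 (by rw [SL2.y_eq_one.2 e, map_one])
  rw [← map_mul]
  refine ⟨(SL2.odd_xy hs ht).of_dvd_nat (orderOf_map_dvd _ _), fun h => ?_⟩
  obtain ⟨u, -, hu⟩ := (Nat.card_eq_two_iff' (0 : F)).1 h
  rw [hu s hs, hu t ht, ← hu 1 one_ne_zero, ← map_pow, ← map_one φ]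
  congr 1
  have h2 : (1 + 1 : F) = 0 := CharTwo.add_self_eq_zero 1
  refine SL2.ext' ?_ ?_ ?_ ?_ <;> simp [pow_succ, SL2.mul_apply', h2]

namespace Fam

variable {k : Type*} [Field k] {G : Type*} [Group G] {R : Type*} [Ring R] [Algebra k R] {ρ : G →* Rˣ} {X : Set R}
  (h : Fam k ρ X)
include h

theorem ne_one {g : G} {x : R} (hx : x ∈ X) (e : (ρ g : R) = 1 + x) : g ≠ 1 := fun e' =>
  h.ne x hx (by simpa [e'] using e)

theorem mem_T' {g : G} {x : R} (e : (ρ g : R) = 1 + x) : g ∈ T k ρ x := Subgroup.subset_closure ⟨1, by simp [e]⟩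

theorem rootInv [Finite k] [CharP k 2] (hs : ∀ x ∈ X, ∀ c : k, c ≠ 0 → c • x ∈ X) (hgen : (⨆ A ∈ S k ρ X, A) = ⊤) :
    IsRootInvolutionSet {g | ∃ x ∈ X, (ρ g : R) = 1 + x} ∧
      (Nat.card k = 2 → IsThreeFourPlusTranspositionSet {g | ∃ x ∈ X, (ρ g : R) = 1 + x}) := by
  have h2 : ∀ x : R, x + x = 0 := fun x => by rw [← one_smul k x, ← add_smul, CharTwo.add_self_eq_zero, zero_smul]
  have h1 : ∀ {g : G} {x : R}, x ∈ X → (ρ g : R) = 1 + x → g * g = 1 := fun {g x} hx e =>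
    h.inj (Units.ext (by simp [e, mul_add, add_mul, h.sq x hx, add_assoc, h2]))
  have key : ∀ a ∈ {g | ∃ x ∈ X, (ρ g : R) = 1 + x}, ∀ b ∈ {g | ∃ x ∈ X, (ρ g : R) = 1 + x}, a * b = b * a ∨
      (Odd (orderOf (a * b)) ∧ (Nat.card k = 2 → (a * b) ^ 3 = 1)) ∨
      (orderOf (a * b) = 4 ∧ (a * b) ^ 2 ∈ {g | ∃ x ∈ X, (ρ g : R) = 1 + x}) := by
    rintro a ⟨x, hx, ea⟩ b ⟨y, hy, eb⟩
    rcases h.tri x hx y hy with e | ⟨c, hc, e1, e2⟩ | ⟨e1, e2, e3⟩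
    · exact Or.inl (comm_bot_iff.1 (h.comm_of hx hy e) a (h.mem_T' ea) b (h.mem_T' eb))
    · exact Or.inr (Or.inl (odd_of_psl2 (h.psl2 hx hy hc e1 e2) (h.mem_T' ea) (h.mem_T' eb) (h.ne_one hx ea)
        (h.ne_one hy eb)))
    have e4 : (ρ ((a * b) ^ 2) : R) = 1 + (x * y - y * x) := by
      rw [← comm_coe (h.sq x hx) (h.sq y hy) e1 e2, pow_two, sub_eq_add_neg 1 x, sub_eq_add_neg 1 y,
        neg_eq_of_add_eq_zero_left (h2 x), neg_eq_of_add_eq_zero_left (h2 y)]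
      simp [ea, eb, mul_assoc]
    refine Or.inr (Or.inr ⟨?_, _, e3, e4⟩)
    exact orderOf_eq_prime_pow (p := 2) (n := 1) (by simpa using h.ne_one e3 e4) (by
      rw [show 2 ^ (1 + 1) = 2 + 2 from rfl, pow_add, h1 e3 e4])
  have : IsRootInvolutionSet {g | ∃ x ∈ X, (ρ g : R) = 1 + x} := by
    refine ⟨fun g ⟨x, hx, e⟩ => orderOf_eq_prime (by rw [pow_two, h1 hx e]) (h.ne_one hx e), ?_,
      fun d ⟨x, hx, e⟩ g => ⟨_, h.conj x hx g, by simp [e, mul_add, add_mul]⟩,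
      fun a ha b hb => (key a ha b hb).imp_right (Or.imp_left And.left)⟩
    rw [eq_top_iff, ← hgen]
    refine iSup₂_le ?_
    rintro _ ⟨x, hx, rfl⟩
    refine (Subgroup.closure_le _).2 fun g ⟨c, e⟩ => ?_
    by_cases hc : c = 0
    · rw [h.inj (Units.ext (by simp [e, hc]) : ρ g = ρ 1)]; exact one_mem _
    · exact Subgroup.subset_closure ⟨_, hs x hx c hc, e⟩
  refine ⟨this, fun hk => ⟨this, fun a ha b hb ho => ?_⟩⟩
  rcases key a ha b hb with e | ⟨-, e⟩ | ⟨e, -⟩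
  · refine Or.inl (orderOf_eq_one_iff.2 (RInv.eq_one_of_odd ho (n := 1) ?_))
    obtain ⟨x, hx, ea⟩ := ha
    obtain ⟨y, hy, eb⟩ := hb
    rw [Commute.mul_pow e]; simp [pow_two, h1 hx ea, h1 hy eb]
  · exact (Nat.dvd_prime Nat.prime_three).1 (orderOf_dvd_of_pow_eq_one (e hk))
  · rw [e] at ho; exact absurd ho (by decide)

end Fam

/-- rank one square zero matrices -/
def slX (ι F : Type*) [Fintype ι] [Field F] : Set (Matrix ι ι F) :=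
  {x | ∃ v φ : ι → F, v ≠ 0 ∧ φ ≠ 0 ∧ φ ⬝ᵥ v = 0 ∧ x = vecMulVec v φ}

variable {ι F : Type*} [Fintype ι] [DecidableEq ι] [Field F]

theorem vmv_mul (v φ w ψ : ι → F) : vecMulVec v φ * vecMulVec w ψ = (φ ⬝ᵥ w) • vecMulVec v ψ := by
  rw [vecMulVec_mul_vecMulVec, vecMulVec_smul]

theorem det_one_add_vmv {v φ : ι → F} (h : φ ⬝ᵥ v = 0) : det (1 + vecMulVec v φ) = 1 := by
  rw [vecMulVec_eq Unit, det_one_add_replicateCol_mul_replicateRow, h, add_zero]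

omit [DecidableEq ι] in
theorem slX_smul {x : Matrix ι ι F} (hx : x ∈ slX ι F) {c : F} (hc : c ≠ 0) : c • x ∈ slX ι F := by
  obtain ⟨v, φ, hv, hφ, e, rfl⟩ := hx
  exact ⟨c • v, φ, smul_ne_zero hc hv, hφ, by simp [e], by simp⟩

theorem slFam : Fam F (SpecialLinearGroup.toGL (n := ι) (R := F)) (slX ι F) where
  inj := SpecialLinearGroup.toGL_injective
  sq := by rintro _ ⟨v, φ, -, -, e, rfl⟩; simp [vmv_mul, e]
  ne := by rintro _ ⟨v, φ, hv, hφ, -, rfl⟩; simp [vecMulVec_eq_zero, hv, hφ]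
  mem := by
    rintro _ ⟨v, φ, -, -, e, rfl⟩ c
    exact ⟨⟨_, det_one_add_vmv (v := c • v) (φ := φ) (by simp [e])⟩, congrArg (1 + ·) (by simp)⟩
  conj := by
    rintro _ ⟨v, φ, hv, hφ, e, rfl⟩ g
    generalize SpecialLinearGroup.toGL g = g
    refine ⟨g.1 *ᵥ v, φ ᵥ* (g⁻¹).1, fun e => hv ?_, fun e => hφ ?_, ?_, by rw [mul_vecMulVec, vecMulVec_mul]⟩
    · simpa [mulVec_mulVec] using congrArg ((g⁻¹).1 *ᵥ ·) e
    · simpa [vecMul_vecMul] using congrArg (· ᵥ* g.1) e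
    · rw [← dotProduct_mulVec, mulVec_mulVec]; simp [e]
  tri := by
    rintro _ ⟨v, φ, hv, hφ, e, rfl⟩ _ ⟨w, ψ, hw, hψ, e', rfl⟩
    by_cases h1 : φ ⬝ᵥ w = 0 <;> by_cases h2 : ψ ⬝ᵥ v = 0
    · simp [vmv_mul, h1, h2]
    · exact Or.inr (Or.inr ⟨by simp [vmv_mul, h1], by simp [vmv_mul, h1], by
        simpa [vmv_mul, h1] using slX_smul ⟨w, φ, hw, hφ, h1, rfl⟩ (neg_ne_zero.2 h2)⟩)
    · exact Or.inr (Or.inr ⟨by simp [vmv_mul, h2], by simp [vmv_mul, h2], by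
        simpa [vmv_mul, h2] using slX_smul ⟨v, ψ, hv, hψ, h2, rfl⟩ h1⟩)
    · exact Or.inr (Or.inl ⟨_, mul_ne_zero h1 h2, by simp [vmv_mul, smul_smul], by simp [vmv_mul, smul_smul, mul_comm]⟩)

theorem single_eq_vmv (i j : ι) : single i j (1 : F) = vecMulVec (Pi.single i 1) (Pi.single j 1) := by
  rw [single_eq_single_vecMulVec_single]

theorem single_mem_slX {i j : ι} (h : i ≠ j) : single i j (1 : F) ∈ slX ι F :=
  ⟨_, _, by simp, by simp, by simp [h], single_eq_vmv i j⟩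

theorem sl_gen : (⨆ A ∈ Fam.S F (SpecialLinearGroup.toGL (n := ι) (R := F)) (slX ι F), A) = ⊤ :=
  H11.sl_subgroup_eq_top _ fun i j h a => le_iSup_mem (A := Fam.T F _ (single i j (1 : F)))
    (by exact ⟨_, single_mem_slX h, rfl⟩) (Subgroup.subset_closure ⟨a, by simp [SpecialLinearGroup.transvection_coe]⟩)

omit [DecidableEq ι] in
theorem exists_dot_ne {φ ψ : ι → F} (hφ : φ ≠ 0) (hψ : ψ ≠ 0) : ∃ a, φ ⬝ᵥ a ≠ 0 ∧ ψ ⬝ᵥ a ≠ 0 := by
  classical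
  obtain ⟨a, ha⟩ : ∃ a, φ ⬝ᵥ a ≠ 0 := by by_contra! h; exact hφ (dotProduct_eq_zero _ h)
  obtain ⟨b, hb⟩ : ∃ a, ψ ⬝ᵥ a ≠ 0 := by by_contra! h; exact hψ (dotProduct_eq_zero _ h)
  by_cases h1 : ψ ⬝ᵥ a = 0
  · by_cases h2 : φ ⬝ᵥ b = 0
    · exact ⟨a + b, by simpa [h2], by simpa [h1]⟩
    · exact ⟨b, h2, hb⟩
  · exact ⟨a, ha, h1⟩

theorem sl_opp {x y : Matrix ι ι F} (hx : x ∈ slX ι F) (hy : y ∈ slX ι F) : ∃ z ∈ slX ι F,
    (∃ c : F, c ≠ 0 ∧ x * z * x = c • x ∧ z * x * z = c • z) ∧ ∃ c : F, c ≠ 0 ∧ z * y * z = c • z ∧ y * z * y = c • y := by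
  obtain ⟨v, φ, hv, hφ, e, rfl⟩ := hx
  obtain ⟨w, ψ, hw, hψ, e', rfl⟩ := hy
  obtain ⟨a, h1, h2⟩ := exists_dot_ne hφ hψ
  have k : ∀ {v φ : ι → F}, v ≠ 0 → φ ⬝ᵥ v = 0 → φ ⬝ᵥ a ≠ 0 → v ∉ Submodule.span F {a} := fun {v φ} hv e h hm => by
    obtain ⟨c, rfl⟩ := Submodule.mem_span_singleton.1 hm
    simp_all
  obtain ⟨χ, h3, h4, h5⟩ := H12.exists_dual_one_ne (k hv e h1) (k hw e' h2)
  have h6 : ∀ u, (fun i => χ (Pi.single i 1)) ⬝ᵥ u = χ u := fun u => by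
    rw [LinearMap.pi_apply_eq_sum_univ χ u, dotProduct]
    exact Finset.sum_congr rfl fun i _ => by rw [smul_eq_mul, mul_comm]; congr 2; ext j; simp [Pi.single_apply, eq_comm]
  generalize (fun i => χ (Pi.single i 1)) = η at h6
  refine ⟨_, ⟨a, η, fun e => h1 (by simp [e]), fun e => by simpa [e, h4] using h6 v,
    by rw [h6, h3 _ (Submodule.mem_span_singleton_self a)], rfl⟩, ⟨φ ⬝ᵥ a, h1, by simp [vmv_mul, h6, h4],
    by simp [vmv_mul, h6, h4]⟩, _, mul_ne_zero h5 h2, by simp [vmv_mul, h6, smul_smul], by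
    simp [vmv_mul, h6, smul_smul, mul_comm]⟩

theorem sl_conn : IsConnectedFamily (FAdj (Fam.S F (SpecialLinearGroup.toGL (n := ι) (R := F)) (slX ι F)))
    (Fam.S F (SpecialLinearGroup.toGL (n := ι) (R := F)) (slX ι F)) := by
  rintro _ ⟨x, hx, rfl⟩ _ ⟨y, hy, rfl⟩
  obtain ⟨z, hz, ⟨c, hc, e1, e2⟩, d, hd, e3, e4⟩ := sl_opp hx hy
  exact .tail (.single (slFam.fadj hx hz hc e1 e2)) (slFam.fadj hz hy hd e3 e4)

theorem sl_conj [Finite F] [CharP F 2] {a b : SpecialLinearGroup ι F} (ha : ∃ x ∈ slX ι F, a.1 = 1 + x)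
    (hb : ∃ x ∈ slX ι F, b.1 = 1 + x) : ∃ g, b = g * a * g⁻¹ := by
  have h := RInv.RI.of (slFam.rootInv (fun _ hx _ hc => slX_smul hx hc) (sl_gen (ι := ι) (F := F))).1
  have k : ∀ {a b : SpecialLinearGroup ι F} {x y}, x ∈ slX ι F → y ∈ slX ι F → a.1 = 1 + x → b.1 = 1 + y →
      (∃ c : F, c ≠ 0 ∧ x * y * x = c • x ∧ y * x * y = c • y) → IsConj a b := by
    rintro a b x y hx hy ea eb ⟨c, hc, e1, e2⟩
    by_cases e : a = b
    · rw [e]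
    obtain ⟨w, hw, -, e⟩ := h.exists_swap ⟨x, hx, ea⟩ ⟨y, hy, eb⟩ ⟨e, (odd_of_psl2 (slFam.psl2 hx hy hc e1 e2)
      (slFam.mem_T' ea) (slFam.mem_T' eb) (slFam.ne_one hx ea) (slFam.ne_one hy eb)).1⟩
    exact isConj_iff.2 ⟨w, by rw [RInv.inv_eq (h.sq w hw), e]⟩
  obtain ⟨x, hx, ea⟩ := ha
  obtain ⟨y, hy, eb⟩ := hb
  obtain ⟨z, hz, h1, h2⟩ := sl_opp hx hy
  obtain ⟨u, hu⟩ := slFam.mem z hz 1
  rw [one_smul] at hu
  obtain ⟨g, e⟩ := isConj_iff.1 ((k hx hz ea hu h1).trans (k hz hy hu eb h2))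
  exact ⟨g, e.symm⟩

end H13
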