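import Cfsg.Agent.H13.Fam2
import Cfsg.Agent.H12.TvBridge

/-!
Symplectic and unitary transvection subgroups.
-/

set_option autoImplicit false

namespace H13

open Cfsg H13.Root H13.QP Relation Matrix H11

section Sp

variable {ι F : Type*} [Fintype ι] [DecidableEq ι] [Field F]

theorem J_skew (p r : ι ⊕ ι → F) : J ι F *ᵥ p ⬝ᵥ r = -(J ι F *ᵥ r ⬝ᵥ p) := by
  rw [dotProduct_comm, dotProduct_mulVec, ← mulVec_transpose, J_transpose, neg_mulVec, neg_dotProduct]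

theorem J_alt (p : ι ⊕ ι → F) : J ι F *ᵥ p ⬝ᵥ p = 0 := by
  simp [J, fromBlocks_mulVec, dotProduct, neg_mulVec, mul_comm]

theorem J_ne {p : ι ⊕ ι → F} (hp : p ≠ 0) : J ι F *ᵥ p ≠ 0 := fun e => hp (by
  simpa [mulVec_mulVec, J_squared, neg_mulVec] using congrArg (J ι F *ᵥ ·) e)

/-- symplectic transvection directions -/
def spX (ι F : Type*) [Fintype ι] [DecidableEq ι] [Field F] : Set (Matrix (ι ⊕ ι) (ι ⊕ ι) F) :=
  {x | ∃ p, p ≠ 0 ∧ x = vecMulVec p (J ι F *ᵥ p)}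

theorem sp_tri : ∀ x ∈ spX ι F, ∀ y ∈ spX ι F, x * y = y * x ∨ ∃ c : F, c ≠ 0 ∧ x * y * x = c • x ∧ y * x * y = c • y := by
  rintro _ ⟨p, -, rfl⟩ _ ⟨r, -, rfl⟩
  by_cases h : J ι F *ᵥ r ⬝ᵥ p = 0
  · simp [vmv_mul, J_skew p r, h]
  · exact Or.inr ⟨_, mul_ne_zero (neg_ne_zero.2 h) h, by simp [vmv_mul, smul_smul, J_skew p r],
      by simp [vmv_mul, smul_smul, J_skew p r]⟩

theorem spFam (m : ℕ) : Fam F (symplecticGroup (Fin m) F).subtype.toHomUnits (spX (Fin m) F) where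
  inj := fun a b e => Subtype.ext (congrArg Units.val e)
  sq := by rintro _ ⟨p, -, rfl⟩; simp [vmv_mul, J_alt]
  ne := by rintro _ ⟨p, hp, rfl⟩; simp [vecMulVec_eq_zero, hp, J_ne hp]
  mem := by
    rintro _ ⟨p, -, rfl⟩ c
    exact ⟨_, (H12.coe_eq_sympTransvection_iff m _ p c).2 (MulEquiv.apply_symm_apply _ _)⟩
  conj := by
    rintro _ ⟨p, hp, rfl⟩ g
    refine ⟨g.1 *ᵥ p, fun e => hp ?_, ?_⟩
    · simpa [mulVec_mulVec, ← Submonoid.coe_mul] using congrArg ((g⁻¹).1 *ᵥ ·) e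
    rw [← map_inv, mul_vecMulVec, vecMulVec_mul, mulVec_mulVec, ← mulVec_transpose, mulVec_mulVec]
    congr 2
    change (g⁻¹).1ᵀ * _ = _
    rw [SymplecticGroup.coe_inv]
    simp [J_transpose, mul_assoc, J_squared]
  tri x hx y hy := (sp_tri x hx y hy).imp_right Or.inl

theorem sp_gen (m : ℕ) : (⨆ A ∈ Fam.S F (symplecticGroup (Fin m) F).subtype.toHomUnits (spX (Fin m) F), A) = ⊤ := by
  rw [eq_top_iff, ← H12.closure_sympTransvection m, Subgroup.closure_le]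
  rintro g ⟨p, c, e⟩
  by_cases hp : p = 0
  · rw [show g = 1 from Subtype.ext (by simp [e, hp, sympTransvection])]; exact one_mem _
  · exact le_iSup_mem (A := Fam.T F _ _) (by exact ⟨_, ⟨p, hp, rfl⟩, rfl⟩) (Subgroup.subset_closure ⟨c, e⟩)

theorem sp_conn (m : ℕ) : IsConnectedFamily (FAdj (Fam.S F (symplecticGroup (Fin m) F).subtype.toHomUnits
    (spX (Fin m) F))) (Fam.S F (symplecticGroup (Fin m) F).subtype.toHomUnits (spX (Fin m) F)) := by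
  rintro _ ⟨_, ⟨p, hp, rfl⟩, rfl⟩ _ ⟨_, ⟨r, hr, rfl⟩, rfl⟩
  obtain ⟨a, h1, h2⟩ := exists_dot_ne (J_ne hp) (J_ne hr)
  have ha : a ≠ 0 := fun e => h1 (by simp [e])
  exact .tail (.single ((spFam m).fadj ⟨p, hp, rfl⟩ ⟨a, ha, rfl⟩ (mul_ne_zero (neg_ne_zero.2 h1) h1)
    (by simp [vmv_mul, smul_smul, J_skew a p]) (by simp [vmv_mul, smul_smul, J_skew a p])))
    ((spFam m).fadj ⟨a, ha, rfl⟩ ⟨r, hr, rfl⟩ (mul_ne_zero (neg_ne_zero.2 h2) h2)
    (by simp [vmv_mul, smul_smul, J_skew a r]) (by simp [vmv_mul, smul_smul, J_skew a r]))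

end Sp

section SU

variable {F : Type*} [Field F] [Fintype F] {q n : ℕ} (hF : Fintype.card F = q ^ 2)

theorem herm_eq (u v : Fin n → F) : hermForm n F q u v = frob hF ∘ v ⬝ᵥ u := by
  simp [hermForm, dotProduct, mul_comm]

theorem frob_dot (u v : Fin n → F) : frob hF (frob hF ∘ v ⬝ᵥ u) = frob hF ∘ u ⬝ᵥ v := by
  simp only [dotProduct, map_sum, map_mul, Function.comp, frob_frob, mul_comm]

theorem dot_ne_symm {u v : Fin n → F} (h : frob hF ∘ v ⬝ᵥ u ≠ 0) : frob hF ∘ u ⬝ᵥ v ≠ 0 := by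
  rwa [← frob_dot, map_ne_zero]

theorem bar_add_smul (u v : Fin n → F) (c : F) : frob hF ∘ (u + c • v) = frob hF ∘ u + frob hF c • frob hF ∘ v := by
  ext i; simp only [Function.comp, Pi.add_apply, Pi.smul_apply, smul_eq_mul, map_add, map_mul]

theorem bar_ne {p : Fin n → F} (hp : p ≠ 0) : frob hF ∘ p ≠ 0 := fun e =>
  hp (funext fun i => (map_eq_zero (frob hF)).1 (congrFun e i))

/-- unitary transvection directions -/
def suX (n : ℕ) (ε : F) : Set (Matrix (Fin n) (Fin n) F) :=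
  {x | ∃ p, p ≠ 0 ∧ frob hF ∘ p ⬝ᵥ p = 0 ∧ x = ε • vecMulVec p (frob hF ∘ p)}

variable {L : Type*} [Field L] [Algebra L F] (hL : ∀ a, frob hF a = a ↔ ∃ c : L, algebraMap L F c = a) {ε : F}
  (h0 : ε ≠ 0) (hε : frob hF ε = -ε)
include hL h0 hε

theorem su_adj {p r : Fin n → F} (h : frob hF ∘ p ⬝ᵥ r ≠ 0) : ∃ c : L, c ≠ 0 ∧
    (ε • vecMulVec p (frob hF ∘ p)) * (ε • vecMulVec r (frob hF ∘ r)) * (ε • vecMulVec p (frob hF ∘ p)) =
      c • ε • vecMulVec p (frob hF ∘ p) ∧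
    (ε • vecMulVec r (frob hF ∘ r)) * (ε • vecMulVec p (frob hF ∘ p)) * (ε • vecMulVec r (frob hF ∘ r)) =
      c • ε • vecMulVec r (frob hF ∘ r) := by
  obtain ⟨c, hc⟩ := (hL (ε * ε * (frob hF ∘ p ⬝ᵥ r) * (frob hF ∘ r ⬝ᵥ p))).1 (by
    simp only [map_mul, hε, frob_dot]; ring)
  refine ⟨c, fun e => ?_, ?_, ?_⟩
  · rw [e, map_zero, ← frob_dot hF r p] at hc
    simp [h0, h] at hc
  all_goals
    rw [← algebraMap_smul F c, hc]
    simp only [mul_smul_comm, vmv_mul, smul_smul, smul_mul_assoc]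
    congr 1; ring

theorem su_tri : ∀ x ∈ suX hF n ε, ∀ y ∈ suX hF n ε,
    x * y = y * x ∨ ∃ c : L, c ≠ 0 ∧ x * y * x = c • x ∧ y * x * y = c • y := by
  rintro _ ⟨p, -, -, rfl⟩ _ ⟨r, -, -, rfl⟩
  by_cases h : frob hF ∘ p ⬝ᵥ r = 0
  · simp [vmv_mul, ← frob_dot hF r p, h, -frob_apply]
  · exact Or.inr (su_adj hF hL h0 hε h)

theorem suFam : Fam L ((SpecialLinearGroup.toGL (n := Fin n) (R := F)).comp (SU n F q).subtype) (suX hF n ε) where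
  inj := SpecialLinearGroup.toGL_injective.comp (Subgroup.subtype_injective _)
  sq := by rintro _ ⟨p, -, e, rfl⟩; simp [vmv_mul, e]
  ne := by rintro _ ⟨p, hp, -, rfl⟩; simp [vecMulVec_eq_zero, hp, bar_ne hF hp, h0]
  mem := by
    rintro _ ⟨p, -, e, rfl⟩ c
    refine ⟨⟨⟨_, det_one_add_vmv (v := (algebraMap L F c * ε) • p) (φ := frob hF ∘ p) (by simp [e])⟩, fun u v => ?_⟩,
      congrArg (1 + ·) (by simp [← smul_smul])⟩
    change hermForm n F q ((1 + _) *ᵥ u) ((1 + _) *ᵥ v) = _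
    simp only [herm_eq hF, add_mulVec, one_mulVec, vecMulVec_mulVec, op_smul_eq_smul, smul_smul, bar_add_smul,
      add_dotProduct, dotProduct_add, smul_dotProduct, dotProduct_smul, e, map_mul, hε, frob_dot,
      (hL _).2 ⟨c, rfl⟩, smul_eq_mul]
    ring
  conj := by
    rintro _ ⟨p, hp, e, rfl⟩ g
    have h1 : ∀ u v, hermForm n F q ((SpecialLinearGroup.toGL g.1).1 *ᵥ u) ((SpecialLinearGroup.toGL g.1).1 *ᵥ v) = _ :=
      g.2
    change (SpecialLinearGroup.toGL g.1).1 * _ * (SpecialLinearGroup.toGL g.1)⁻¹.1 ∈ _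
    generalize SpecialLinearGroup.toGL g.1 = g at h1
    refine ⟨g.1 *ᵥ p, fun e => hp ?_, by rw [← herm_eq] at e ⊢; exact (h1 p p).trans e, ?_⟩
    · simpa [mulVec_mulVec] using congrArg ((g⁻¹).1 *ᵥ ·) e
    rw [mul_smul_comm, smul_mul_assoc, mul_vecMulVec, vecMulVec_mul]
    congr 2
    refine dotProduct_eq _ _ fun v => ?_
    rw [← dotProduct_mulVec, ← herm_eq, ← herm_eq, ← h1, mulVec_mulVec, Units.mul_inv, one_mulVec]
  tri x hx y hy := (su_tri hF hL h0 hε x hx y hy).imp_right Or.inl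

theorem su_conn {G : Type*} [Group G] {ρ : G →* (Matrix (Fin n) (Fin n) F)ˣ} (h : Fam L ρ (suX hF n ε)) :
    IsConnectedFamily (FAdj (Fam.S L ρ (suX hF n ε))) (Fam.S L ρ (suX hF n ε)) := by
  have k : ∀ {p r : Fin n → F}, frob hF ∘ p ⬝ᵥ p = 0 → frob hF ∘ r ⬝ᵥ r = 0 → frob hF ∘ p ⬝ᵥ r ≠ 0 →
      FAdj (Fam.S L ρ (suX hF n ε)) (Fam.T L ρ (ε • vecMulVec p (frob hF ∘ p)))
        (Fam.T L ρ (ε • vecMulVec r (frob hF ∘ r))) := fun {p r} hp hr e => by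
    obtain ⟨c, hc, e1, e2⟩ := su_adj hF hL h0 hε e
    exact h.fadj ⟨p, fun e' => dot_ne_symm hF e (by simp [e']), hp, rfl⟩
      ⟨r, fun e' => e (by simp [e']), hr, rfl⟩ hc e1 e2
  rintro _ ⟨_, ⟨p, hp, ep, rfl⟩, rfl⟩ _ ⟨_, ⟨r, hr, er, rfl⟩, rfl⟩
  by_cases e : frob hF ∘ r ⬝ᵥ p = 0
  swap
  · exact .single (k ep er (dot_ne_symm hF e))
  obtain ⟨a, h1, h2⟩ := exists_dot_ne (bar_ne hF hp) (bar_ne hF hr)
  obtain ⟨u, hu⟩ := H12.exists_trace_eq (frob_ne_id hF) (frob_frob hF) (b := -(frob hF ∘ a ⬝ᵥ a)) (by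
    rw [map_neg, frob_dot])
  have h3 := dot_ne_symm hF h1
  have h4 : frob hF ∘ (a + (u / (frob hF ∘ a ⬝ᵥ p)) • p) ⬝ᵥ (a + (u / (frob hF ∘ a ⬝ᵥ p)) • p) = 0 := by
    simp only [bar_add_smul, add_dotProduct, dotProduct_add, smul_dotProduct, dotProduct_smul, ep, map_div₀, frob_dot,
      smul_eq_mul]
    rw [mul_zero, add_zero, div_mul_cancel₀ _ h3, div_mul_cancel₀ _ h1]
    linear_combination hu
  exact .tail (.single (k ep h4 (by simpa [ep]))) (k h4 er (dot_ne_symm hF (by simpa [e])))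

omit h0 in
theorem su_T (h0 : ε ≠ 0) {p : Fin n → F} (hp : p ≠ 0) (e : frob hF ∘ p ⬝ᵥ p = 0) (g : SU n F q) :
    ((∀ v, ∃ c : F, g.1.1 *ᵥ v = v + c • p) ∧ ∀ v, hermForm n F q v p = 0 → g.1.1 *ᵥ v = v) ↔
      ∃ c : L, g.1.1 = 1 + c • ε • vecMulVec p (frob hF ∘ p) := by
  refine ⟨fun ⟨h1, h2⟩ => ?_, fun ⟨c, h⟩ => ?_⟩
  · obtain ⟨a, ha, -⟩ := exists_dot_ne (bar_ne hF hp) (bar_ne hF hp)
    obtain ⟨a, ha⟩ : ∃ a, frob hF ∘ p ⬝ᵥ a = 1 := ⟨(frob hF ∘ p ⬝ᵥ a)⁻¹ • a, by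
      rw [dotProduct_smul, smul_eq_mul, inv_mul_cancel₀ ha]⟩
    obtain ⟨d, hd⟩ := h1 a
    have h3 := g.2 a a
    change hermForm n F q (g.1.1 *ᵥ a) (g.1.1 *ᵥ a) = _ at h3
    simp only [herm_eq hF, hd, bar_add_smul, add_dotProduct, dotProduct_add, smul_dotProduct, dotProduct_smul, e, ha,
      ← frob_dot hF a p, map_one, smul_eq_mul] at h3
    obtain ⟨c, hc⟩ := (hL (d / ε)).1 (by rw [map_div₀, hε]; field_simp; linear_combination -h3)
    refine ⟨c, H12.matrix_ext_mulVec fun v => ?_⟩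
    have := h2 (v - (frob hF ∘ p ⬝ᵥ v) • a) (by simp [herm_eq hF, ha])
    rw [mulVec_sub, mulVec_smul, hd, sub_eq_iff_eq_add] at this
    rw [this, ← algebraMap_smul F c, hc]
    simp only [add_mulVec, one_mulVec, smul_mulVec, vecMulVec_mulVec, op_smul_eq_smul, smul_smul, div_mul_cancel₀ _ h0]
    module
  · simp only [h, add_mulVec, one_mulVec, ← algebraMap_smul F c, smul_mulVec, vecMulVec_mulVec, op_smul_eq_smul,
      smul_smul, herm_eq hF]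
    exact ⟨fun v => ⟨_, rfl⟩, fun v hv => by simp [hv]⟩

end SU

end H13
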