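import Cfsg.Agent.H13.Fam2

/-!
Siegel transvection subgroups of hyperbolic orthogonal groups.
-/

set_option autoImplicit false

namespace H13.Siegel

open Cfsg H13.Root H13.QP Relation Matrix

variable {m : ℕ} {F : Type*} [Field F]

/-- swap the two halves -/
def sw : (Fin m ⊕ Fin m → F) →ₗ[F] (Fin m ⊕ Fin m → F) := LinearMap.funLeft F F Sum.swap

theorem symm (u v : Fin m ⊕ Fin m → F) : sw u ⬝ᵥ v = sw v ⬝ᵥ u := by
  simp [sw, dotProduct, mul_comm, add_comm]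

theorem Q_add (u v : Fin m ⊕ Fin m → F) :
    quadFormPlus m F (u + v) = quadFormPlus m F u + quadFormPlus m F v + sw u ⬝ᵥ v := by
  simp only [quadFormPlus, sw, dotProduct, Fintype.sum_sum_type, ← Finset.sum_add_distrib]
  exact Finset.sum_congr rfl fun i _ => by simp; ring

theorem Q_smul (c : F) (u : Fin m ⊕ Fin m → F) : quadFormPlus m F (c • u) = c * c * quadFormPlus m F u := by
  simp only [quadFormPlus, Finset.mul_sum]
  exact Finset.sum_congr rfl fun i _ => by simp; ring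

theorem self {u : Fin m ⊕ Fin m → F} (h : quadFormPlus m F u = 0) : sw u ⬝ᵥ u = 0 := by
  have := Q_add u u
  rw [← two_smul F u, Q_smul, h] at this
  simpa using this.symm

theorem eq_of {u v : Fin m ⊕ Fin m → F} (h : ∀ a, sw u ⬝ᵥ a = sw v ⬝ᵥ a) : u = v :=
  funext fun i => by simpa [sw] using congrFun (dotProduct_eq _ _ h) i.swap

/-- the Siegel direction -/
def X (p r : Fin m ⊕ Fin m → F) : Matrix (Fin m ⊕ Fin m) (Fin m ⊕ Fin m) F := vecMulVec r (sw p) - vecMulVec p (sw r)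

theorem X_mulVec (p r v : Fin m ⊕ Fin m → F) : X p r *ᵥ v = (sw p ⬝ᵥ v) • r - (sw r ⬝ᵥ v) • p := by
  simp [X, sub_mulVec, vecMulVec_mulVec]

theorem X_swap (p r : Fin m ⊕ Fin m → F) : X r p = (-1 : F) • X p r := by simp [X]

theorem XXX (p r s t : Fin m ⊕ Fin m → F) :
    X p r * X s t * X p r = (sw p ⬝ᵥ t * sw r ⬝ᵥ s - sw p ⬝ᵥ s * sw r ⬝ᵥ t) • X p r := by
  simp only [X, mul_sub, sub_mul, vmv_mul, smul_mul_assoc, symm s, symm t]
  module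

theorem dual {p r : Fin m ⊕ Fin m → F} (h : X p r ≠ 0) : ∃ a, sw p ⬝ᵥ a = 1 ∧ sw r ⬝ᵥ a = 0 := by
  obtain ⟨i, j, e⟩ : ∃ i j, X p r i j ≠ 0 := by by_contra! e; exact h (Matrix.ext e)
  refine ⟨(X p r i j)⁻¹ • (r i • Pi.single j 1 - sw r j • Pi.single i.swap 1), ?_, ?_⟩
  · rw [dotProduct_smul, smul_eq_mul, inv_mul_eq_one₀ e]
    simp [X, sw, vecMulVec_apply, mul_comm]
  · simp [sw, mul_comm]

theorem ne_of {p r a : Fin m ⊕ Fin m → F} (h1 : sw p ⬝ᵥ a ≠ 0) (h2 : sw r ⬝ᵥ a = 0) (hr : r ≠ 0) : X p r ≠ 0 :=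
  fun e => by simpa [e, h1, h2, hr] using (X_mulVec p r a).symm

theorem ne_swap {p r : Fin m ⊕ Fin m → F} (h : X p r ≠ 0) : X r p ≠ 0 := by rwa [X_swap, neg_one_smul, neg_ne_zero]

theorem li_iff {p r : Fin m ⊕ Fin m → F} : LinearIndependent F ![p, r] ↔ X p r ≠ 0 := by
  rw [LinearIndependent.pair_iff]
  refine ⟨fun h e => ?_, fun h s t e => ?_⟩
  · have : p = 0 := eq_of fun a => by
      simpa using (h (-(sw r ⬝ᵥ a)) (sw p ⬝ᵥ a) (by rw [neg_smul, neg_add_eq_sub, ← X_mulVec, e, zero_mulVec])).2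
    simpa using (h 1 0 (by simp [this])).1
  · obtain ⟨a, h1, h2⟩ := dual h
    obtain ⟨b, h3, h4⟩ := dual (ne_swap h)
    exact ⟨by simpa [h1, h2] using congrArg (fun v => sw v ⬝ᵥ a) e, by simpa [h3, h4] using congrArg (fun v => sw v ⬝ᵥ b) e⟩

/-- singular lines -/
structure P (p r : Fin m ⊕ Fin m → F) : Prop where
  ne : X p r ≠ 0
  p0 : quadFormPlus m F p = 0
  r0 : quadFormPlus m F r = 0
  pr : sw p ⬝ᵥ r = 0

theorem P.swap {p r : Fin m ⊕ Fin m → F} (h : P p r) : P r p := ⟨ne_swap h.ne, h.r0, h.p0, (symm _ _).trans h.pr⟩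

/-- all Siegel directions -/
def XS (m : ℕ) (F : Type*) [Field F] : Set (Matrix (Fin m ⊕ Fin m) (Fin m ⊕ Fin m) F) := {x | ∃ p r, P p r ∧ x = X p r}

theorem rank_one {a b c d : F} (h : b * c - a * d = 0) :
    ∃ α β γ ε : F, a = α * γ ∧ b = α * ε ∧ c = β * γ ∧ d = β * ε := by
  by_cases ha : a = 0
  · by_cases hb : b = 0
    · exact ⟨0, 1, c, d, by simp [ha], by simp [hb], by simp, by simp⟩
    · exact ⟨b, d, 0, 1, by simp [ha], by simp, by simpa [ha, hb] using h, by simp⟩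
  · exact ⟨a, c, 1, b / a, by simp, by field_simp, by simp, by field_simp; linear_combination -h⟩

theorem pres {g : isometryGroup F (quadFormPlus m F)} (u v : Fin m ⊕ Fin m → F) :
    quadFormPlus m F (g.1.1 *ᵥ u) = quadFormPlus m F u ∧ sw (g.1.1 *ᵥ u) ⬝ᵥ (g.1.1 *ᵥ v) = sw u ⬝ᵥ v := by
  have h : ∀ u, quadFormPlus m F (g.1.1 *ᵥ u) = quadFormPlus m F u := fun u => g.2 u u
  have := h (u + v)
  rw [mulVec_add, Q_add, Q_add, h, h] at this
  exact ⟨h u, add_left_cancel this⟩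

theorem fam : Fam F (isometryGroup F (quadFormPlus m F)).subtype (XS m F) := by
  have sq : ∀ x ∈ XS m F, x * x = 0 := by
    rintro _ ⟨p, r, h, rfl⟩
    simp [X, mul_sub, sub_mul, vmv_mul, self h.p0, self h.r0, h.pr, h.swap.pr]
  refine ⟨Subgroup.subtype_injective _, sq, by rintro _ ⟨p, r, h, rfl⟩; exact h.ne, ?_, ?_, ?_⟩
  · rintro _ ⟨p, r, h, rfl⟩ c
    refine ⟨⟨un _ (smul_sq (sq _ ⟨p, r, h, rfl⟩) c), fun u _ => ?_⟩, rfl⟩
    change quadFormPlus m F ((1 + c • X p r) *ᵥ u) = _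
    simp only [add_mulVec, one_mulVec, smul_mulVec, X_mulVec, sub_eq_add_neg, ← neg_smul, Q_add, Q_smul, h.p0, h.r0,
      map_smul, smul_dotProduct, dotProduct_smul, dotProduct_add, h.swap.pr, symm u p, symm u r, smul_eq_mul]
    ring
  · rintro _ ⟨p, r, h, rfl⟩ g
    have k : ∀ u, sw u ᵥ* (g.1⁻¹).1 = sw (g.1.1 *ᵥ u) := fun u => dotProduct_eq _ _ fun v => by
      rw [← dotProduct_mulVec, ← (pres (g := g) _ _).2, mulVec_mulVec, Units.mul_inv, one_mulVec]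
    have e : g.1.1 * X p r * (g.1⁻¹).1 = X (g.1.1 *ᵥ p) (g.1.1 *ᵥ r) := by
      simp only [X, mul_sub, sub_mul, mul_vecMulVec, vecMulVec_mul, k]
    refine ⟨_, _, ⟨fun e' => h.ne ?_, (pres p p).1.trans h.p0, (pres r r).1.trans h.r0, (pres p r).2.trans h.pr⟩, e⟩
    simpa [-Matrix.coe_units_inv] using e.trans e'
  · rintro _ ⟨p, r, h, rfl⟩ _ ⟨s, t, h', rfl⟩
    by_cases e : sw p ⬝ᵥ t * sw r ⬝ᵥ s - sw p ⬝ᵥ s * sw r ⬝ᵥ t = 0
    swap
    · exact Or.inr (Or.inl ⟨_, e, XXX .., by rw [XXX, symm s, symm s, symm t, symm t, mul_comm]⟩)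
    obtain ⟨α, β, γ, ε, e1, e2, e3, e4⟩ := rank_one e
    have e5 : X p r * X s t - X s t * X p r = X (ε • s + -γ • t) (α • r + -β • p) := by
      simp only [X, mul_sub, sub_mul, vmv_mul, symm s, symm t, e1, e2, e3, e4, map_add, map_smul, vecMulVec_add,
        add_vecMulVec, vecMulVec_smul, smul_vecMulVec]
      module
    by_cases e6 : X (ε • s + -γ • t) (α • r + -β • p) = 0
    · exact Or.inl (sub_eq_zero.1 (e5.trans e6))
    refine Or.inr (Or.inr ⟨by rw [XXX, e, zero_smul], by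
      rw [XXX, symm s, symm s, symm t, symm t, mul_comm, e, zero_smul], _, _, ⟨e6, ?_, ?_, ?_⟩, e5⟩)
    · simp [Q_add, Q_smul, -neg_smul, h'.p0, h'.r0, h'.pr]
    · simp [Q_add, Q_smul, -neg_smul, h.p0, h.r0, h.swap.pr]
    · simp only [map_add, map_smul, add_dotProduct, dotProduct_add, smul_dotProduct, dotProduct_smul, symm s, symm t,
        e1, e2, e3, e4, smul_eq_mul]
      ring

theorem fix_iff {p r : Fin m ⊕ Fin m → F} (h : P p r) (g : isometryGroup F (quadFormPlus m F)) :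
    (∀ v, sw p ⬝ᵥ v = 0 → sw r ⬝ᵥ v = 0 → g.1.1 *ᵥ v = v) ↔ ∃ c : F, g.1.1 = 1 + c • X p r := by
  refine ⟨fun hg => ?_, fun ⟨c, e⟩ v h1 h2 => by simp [e, add_mulVec, smul_mulVec, X_mulVec, h1, h2]⟩
  obtain ⟨a, h1, h2⟩ := dual h.ne
  obtain ⟨b, h3, h4⟩ := dual h.swap.ne
  have k0 : ∀ v, g.1.1 *ᵥ v = v + (sw p ⬝ᵥ v) • (g.1.1 *ᵥ a - a) + (sw r ⬝ᵥ v) • (g.1.1 *ᵥ b - b) := fun v => by
    have := hg (v - (sw p ⬝ᵥ v) • a - (sw r ⬝ᵥ v) • b) (by simp [h1, h4]) (by simp [h2, h3])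
    rw [mulVec_sub, mulVec_sub, mulVec_smul, mulVec_smul, sub_eq_iff_eq_add, sub_eq_iff_eq_add] at this
    rw [this]; module
  have k1 : ∀ v, ∃ c d : F, g.1.1 *ᵥ v = v + c • p + d • r := fun v => by
    refine ⟨sw (g.1.1 *ᵥ v - v) ⬝ᵥ a, sw (g.1.1 *ᵥ v - v) ⬝ᵥ b, eq_of fun w => ?_⟩
    have := (pres (g := g) v (w - (sw p ⬝ᵥ w) • a - (sw r ⬝ᵥ w) • b)).2
    rw [hg (w - _ - _) (by simp [h1, h4]) (by simp [h2, h3])] at this
    simp only [map_add, map_sub, map_smul, add_dotProduct, sub_dotProduct, dotProduct_sub, smul_dotProduct,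
      dotProduct_smul, smul_eq_mul] at this ⊢
    linear_combination this
  obtain ⟨c, d, ea⟩ := k1 a
  obtain ⟨c', d', eb⟩ := k1 b
  have e1 := (pres (g := g) a b).1
  have e2 := (pres (g := g) b a).1
  have e3 := (pres (g := g) a b).2
  simp [ea, eb, Q_add, Q_smul, h.p0, h.r0, h.pr, h.swap.pr, self h.p0, self h.r0, symm a, symm b p, symm b r, h1, h2,
    h3, h4] at e1 e2 e3
  refine ⟨d, ext_iff_mulVec.2 fun v => ?_⟩
  rw [k0 v, ea, eb, e1, e2, show c' = -d by linear_combination e3, add_mulVec, one_mulVec, smul_mulVec, X_mulVec]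
  module

/-- connectedness of Siegel groups -/
def C (p r s t : Fin m ⊕ Fin m → F) : Prop := ReflTransGen (FAdj (Fam.S F (isometryGroup F (quadFormPlus m F)).subtype
  (XS m F))) (Fam.T F (isometryGroup F (quadFormPlus m F)).subtype (X p r))
    (Fam.T F (isometryGroup F (quadFormPlus m F)).subtype (X s t))

theorem C.swap {p r s t : Fin m ⊕ Fin m → F} (h : C p r s t) : C r p t s := by
  rwa [C, X_swap, X_swap s, Fam.T_smul _ (by simp), Fam.T_smul _ (by simp)]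

theorem C.swap' {p r s t : Fin m ⊕ Fin m → F} (h : C p r s t) : C p r t s := by
  rwa [C, X_swap s, Fam.T_smul _ (by simp)]

theorem C.step {p r t : Fin m ⊕ Fin m → F} (h : P p r) (h' : P p t) (e : sw r ⬝ᵥ t = 0) : C p r p t := by
  obtain ⟨b, h1, h2, h3⟩ : ∃ b, sw p ⬝ᵥ b = 0 ∧ sw r ⬝ᵥ b ≠ 0 ∧ sw t ⬝ᵥ b ≠ 0 := by
    obtain ⟨a, h1, h2⟩ := dual h.swap.ne
    obtain ⟨b, h3, h4⟩ := dual h'.swap.ne
    by_cases e1 : sw t ⬝ᵥ a = 0
    · by_cases e2 : sw r ⬝ᵥ b = 0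
      · exact ⟨a + b, by simp [h2, h4], by simp [h1, e2], by simp [h3, e1]⟩
      · exact ⟨b, h4, e2, by simp [h3]⟩
    · exact ⟨a, h2, by simp [h1], e1⟩
  obtain ⟨b, h1, h2, h3, h4⟩ : ∃ b, sw p ⬝ᵥ b = 0 ∧ sw r ⬝ᵥ b ≠ 0 ∧ sw t ⬝ᵥ b ≠ 0 ∧ quadFormPlus m F b = 0 :=
    ⟨b + -(quadFormPlus m F b / (sw r ⬝ᵥ b)) • r, by simp [h1, h.pr], by simpa [self h.r0], by simpa [symm t r, e],
      by simp [Q_add, Q_smul, -neg_smul, h.r0, symm b, h2]⟩
  obtain ⟨a, h5, h6⟩ := dual (ne_swap (ne_of (p := b) (r := p) (a := r) (symm r b ▸ h2) h.pr fun e => h.ne (by simp [e, X])))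
  obtain ⟨a, h5, h6, h7⟩ : ∃ a, sw p ⬝ᵥ a = 1 ∧ sw b ⬝ᵥ a = 0 ∧ quadFormPlus m F a = 0 :=
    ⟨a + -quadFormPlus m F a • p, by simp [h5, self h.p0], by simp [h6, symm b p, h1],
      by simp [Q_add, Q_smul, -neg_smul, h.p0, symm a, h5]⟩
  have h8 : P a b := ⟨ne_of (a := p) (by simp [symm a, h5]) (by rw [symm, h1]) fun e => h2 (by simp [e]), h7, h4,
    (symm _ _).trans h6⟩
  exact .tail (.single (fam.fadj ⟨p, r, h, rfl⟩ ⟨a, b, h8, rfl⟩ (neg_ne_zero.2 h2) (by simp [XXX, h1, h5])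
    (by simp [XXX, h1, h5, symm a, symm b]))) (fam.fadj ⟨a, b, h8, rfl⟩ ⟨p, t, h', rfl⟩ (neg_ne_zero.2 h3)
    (by simp [XXX, h1, h5, symm a, symm b]) (by simp [XXX, h1, h5]))

theorem C.step' {p r z : Fin m ⊕ Fin m → F} (h : P p r) (hz : z ≠ 0) (h0 : quadFormPlus m F z = 0)
    (h1 : sw p ⬝ᵥ z = 0) (h2 : sw r ⬝ᵥ z = 0) : ∃ u, (u = p ∨ u = r) ∧ P z u ∧ C p r z u ∧ C z u p r := by
  by_cases e : X p z = 0
  · by_cases e' : X r z = 0
    · obtain ⟨a, ha⟩ : ∃ a, sw z ⬝ᵥ a ≠ 0 := by by_contra! e; exact hz (eq_of fun a => by simp [e])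
      obtain ⟨b, h3, h4⟩ := dual h.ne
      obtain ⟨c, h5, h6⟩ := dual h.swap.ne
      have e1 := congrArg (sw · ⬝ᵥ b) (X_mulVec r z a)
      have e2 := congrArg (sw · ⬝ᵥ c) (X_mulVec r z b)
      have e3 := congrArg (sw · ⬝ᵥ b) (X_mulVec p z a)
      simp_all
    · have : P r z := ⟨e', h.r0, h0, h2⟩
      exact ⟨r, Or.inr rfl, this.swap, (C.step h.swap this h1).swap, (C.step this h.swap ((symm _ _).trans h1)).swap⟩
  · have : P p z := ⟨e, h.p0, h0, h1⟩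
    exact ⟨p, Or.inl rfl, this.swap, (C.step h this h2).swap', (C.step this h ((symm _ _).trans h2)).swap.swap'⟩

theorem exists_std (hm : 3 ≤ m) (φ ψ : Fin m ⊕ Fin m → F) :
    ∃ z : Fin m → F, Sum.elim z (0 : Fin m → F) ≠ 0 ∧ φ ⬝ᵥ Sum.elim z 0 = 0 ∧ ψ ⬝ᵥ Sum.elim z 0 = 0 := by
  obtain ⟨z, h, hz⟩ := (Submodule.ne_bot_iff _).1 (LinearMap.ker_ne_bot_of_finrank_lt
    (f := Matrix.mulVecLin (of ![φ ∘ Sum.inl, ψ ∘ Sum.inl])) (by simp; omega))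
  exact ⟨z, fun e => hz (funext fun i => congrFun e (.inl i)), by simpa [dotProduct, mulVec] using congrFun h 0,
    by simpa [dotProduct, mulVec] using congrFun h 1⟩

theorem std_Q (z : Fin m → F) : quadFormPlus m F (Sum.elim z 0) = 0 := by simp [quadFormPlus]

theorem std_B (z y : Fin m → F) : sw (Sum.elim z 0) ⬝ᵥ Sum.elim y 0 = 0 := by simp [sw, dotProduct]

theorem C.std (hm : 3 ≤ m) {p r : Fin m ⊕ Fin m → F} (h : P p r) : ∃ z y : Fin m → F, P (Sum.elim z 0) (Sum.elim y 0) ∧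
    C p r (Sum.elim z 0) (Sum.elim y 0) ∧ C (Sum.elim z 0) (Sum.elim y 0) p r := by
  obtain ⟨z, hz, h1, h2⟩ := exists_std hm (sw p) (sw r)
  obtain ⟨u, -, h3, h4, h5⟩ := C.step' h hz (std_Q z) h1 h2
  obtain ⟨a, ha⟩ : ∃ a, sw (Sum.elim z 0) ⬝ᵥ a ≠ 0 := by by_contra! e; exact hz (eq_of fun a => by simp [e])
  obtain ⟨y, hy, h6, h7⟩ := exists_std hm (sw u) (sw a)
  have h8 : P (Sum.elim z 0) (Sum.elim y 0) := ⟨ne_of ha ((symm _ _).trans h7) hy, std_Q z, std_Q y, std_B z y⟩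
  exact ⟨z, y, h8, h4.trans (C.step h3 h8 h6), (C.step h8 h3 ((symm _ _).trans h6)).trans h5⟩

theorem conn (hm : 3 ≤ m) : IsConnectedFamily (FAdj (Fam.S F (isometryGroup F (quadFormPlus m F)).subtype (XS m F)))
    (Fam.S F (isometryGroup F (quadFormPlus m F)).subtype (XS m F)) := by
  rintro _ ⟨_, ⟨p, r, h, rfl⟩, rfl⟩ _ ⟨_, ⟨s, t, h', rfl⟩, rfl⟩
  obtain ⟨z, y, h1, h2, -⟩ := C.std hm h
  obtain ⟨z', y', h3, -, h4⟩ := C.std hm h'
  obtain ⟨u, hu, h5, h6, -⟩ := C.step' h1 (fun e => h3.ne (by simp [X, e])) (std_Q z') (std_B _ _) (std_B _ _)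
  exact ((h2.trans h6).trans (C.step h5 h3 (by rcases hu with rfl | rfl <;> exact std_B _ _))).trans h4

end H13.Siegel
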