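import Cfsg.Agent.H13.Root3

/-!
Sets of abstract root subgroups: lines.
-/

set_option autoImplicit false

namespace H13.Root

open Cfsg Relation
open scoped commutatorElement

variable {G : Type*} [Group G] {S : Set (Subgroup G)}

/-- an abelian subgroup partitioned by the members of `S` it contains -/
def IsLn (S : Set (Subgroup G)) (N : Subgroup G) : Prop :=
  ⁅N, N⁆ = ⊥ ∧ IsSubgroupPartition N (membersIn S N)

theorem IsLn.comm {N : Subgroup G} (l : IsLn S N) {x y : G} (hx : x ∈ N) (hy : y ∈ N) : x * y = y * x :=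
  comm_bot_iff.1 l.1 x hx y hy

theorem IsLn.inf {N A B : Subgroup G} (l : IsLn S N) (hA : A ∈ membersIn S N) (hB : B ∈ membersIn S N)
    (hne : A ≠ B) {x : G} (ha : x ∈ A) (hb : x ∈ B) : x = 1 :=
  (l.2.2.2 A hA B hB hne ▸ ⟨ha, hb⟩ : x ∈ (⊥ : Subgroup G))

theorem IsLn.exists_mul {N A B : Subgroup G} (l : IsLn S N) (hA : A ∈ membersIn S N) (hB : B ∈ membersIn S N)
    (hne : A ≠ B) {a b : G} (ha : a ∈ A) (hb : b ∈ B) (hb1 : b ≠ 1) :
    ∃ M ∈ membersIn S N, M ≠ A ∧ a * b ∈ M := by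
  obtain ⟨M, hM, e⟩ := l.2.2.1 (a * b) (mul_mem (hA.2 ha) (hB.2 hb))
    (fun e => hb1 (l.inf hA hB hne (by rw [eq_inv_of_mul_eq_one_right e]; exact inv_mem ha) hb))
  refine ⟨M, hM, ?_, e⟩
  rintro rfl
  exact hb1 (l.inf hA hB hne (by simpa using mul_mem (inv_mem ha) e) hb)

section Set

variable (hS : IsRootSubgroupSet S)
include hS

theorem isLn_of_line {A B : Subgroup G} (hA : A ∈ S) (hB : B ∈ linePartners S A) : IsLn S (A ⊔ B) :=
  ⟨comm_bot_sup_left (comm_bot_sup_right (self_comm hS hA) hB.1.2.2)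
    (comm_bot_sup_right (comm_bot_symm hB.1.2.2) (self_comm hS hB.1.1)), hB.2⟩

omit hS in
theorem IsLn.line {N A B : Subgroup G} (l : IsLn S N) (hB : B ∈ S) (hne : B ≠ A) (e : A ⊔ B = N) :
    B ∈ linePartners S A :=
  ⟨⟨hB, hne, comm_bot_mono l.1 (e ▸ le_sup_left) (e ▸ le_sup_right)⟩, e ▸ l.2⟩

theorem cj_mem_members {N A : Subgroup G} (hA : A ∈ membersIn S N) {g : G} (hg : conjBy N g = N) :
    conjBy A g ∈ membersIn S N := ⟨hS.conj_mem A hA.1 g, hg ▸ cj_mono hA.2 g⟩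

theorem IsLn.cj {N : Subgroup G} (l : IsLn S N) (g : G) : IsLn S (conjBy N g) := by
  have key : ∀ {C : Subgroup G}, C ∈ membersIn S (conjBy N g) → conjBy C g⁻¹ ∈ membersIn S N :=
    fun hC => ⟨hS.conj_mem _ hC.1 _, by simpa using cj_mono hC.2 g⁻¹⟩
  refine ⟨comm_bot_cj l.1 g, fun C hC => hC.2, fun x hx hx1 => ?_, fun C hC D hD hne => ?_⟩
  · obtain ⟨y, hy, rfl⟩ := exists_of_mem_cj hx
    obtain ⟨M, hM, e⟩ := l.2.2.1 y hy (by rintro rfl; simp at hx1)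
    exact ⟨_, ⟨hS.conj_mem _ hM.1 g, cj_mono hM.2 g⟩, conj_mem_cj e g⟩
  · have := l.2.2.2 _ (key hC) _ (key hD) (fun e => hne (cj_inj.1 e))
    rwa [← cj_inf, cj_eq_bot_iff] at this

theorem line_cj {A B : Subgroup G} (hA : A ∈ S) (hB : B ∈ linePartners S A) (g : G) :
    conjBy B g ∈ linePartners S (conjBy A g) :=
  ((isLn_of_line hS hA hB).cj hS g).line (hS.conj_mem _ hB.1.1 g) (fun e => hB.1.2.1 (cj_inj.1 e))
    (cj_sup _ _ _).symm

theorem rcc_isLn {A B : Subgroup G} (r : RootCommutatorCase S A B) (hA : A ∈ S) (hni : NI S A) :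
    IsLn S (A ⊔ ⁅A, B⁆) := by
  rw [sup_comm]; exact isLn_of_line hS r.1 (rcc_line hS r hA hni)

theorem rcc_line_cj {A B : Subgroup G} (r : RootCommutatorCase S A B) (hA : A ∈ S) (hni : NI S A) {b : G}
    (hb : b ∈ B) (hb1 : b ≠ 1) : conjBy A b ∈ linePartners S A :=
  (rcc_isLn hS r hA hni).line (hS.conj_mem A hA b) (rcc_cj_ne hS r hb hb1) (rcc_sup_cj r hb hb1)

section Ln

variable {N A D : Subgroup G} (l : IsLn S N) (hA : A ∈ membersIn S N) (hD : D ∈ S) (h : IsRankOnePair A D)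
include l hA hD h

theorem IsLn.eq_one {M : Subgroup G} (hM : M ∈ membersIn S N) (hne : M ≠ A) {m : G} (hm : m ∈ M)
    (hc : ∀ d ∈ D, m * d = d * m) : m = 1 := by
  by_contra hm1
  obtain ⟨a, ha, ha1⟩ := exists_ne_one (left_ne_bot h)
  obtain ⟨P, hP, -, e⟩ := l.exists_mul hA hM hne.symm ha hm hm1
  exact hm1 (eq_one_of_central_mul hS hA.1 hD h
    (commute_sup (fun a ha => l.comm (hM.2 hm) (hA.2 ha)) hc) ha ha1 hP.1
    (by rwa [l.comm (hM.2 hm) (hA.2 ha)]))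

theorem IsLn.rcc {M : Subgroup G} (hM : M ∈ membersIn S N) (hne : M ≠ A) (h' : ¬ IsRankOnePair M D) :
    RootCommutatorCase S M D := by
  obtain ⟨m, hm, hm1⟩ := exists_ne_one (hS.ne_bot _ hM.1)
  exact rcc_of_not hS hM.1 hD (fun hc => hm1 (l.eq_one hS hA hD h hM hne hm (comm_bot_iff.1 hc m hm))) h'

theorem IsLn.rcc_comm {M : Subgroup G} (hM : M ∈ membersIn S N) (hne : M ≠ A) (h' : ¬ IsRankOnePair M D)
    (hni : NI S M) : RootCommutatorCase S A ⁅M, D⁆ ∧ ⁅A, ⁅M, D⁆⁆ = M := by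
  have r := l.rcc hS hA hD h hM hne h'
  obtain ⟨m, hm, hm1⟩ := exists_ne_one (hS.ne_bot _ hM.1)
  have r' : RootCommutatorCase S A ⁅M, D⁆ := by
    refine rcc_of_not hS hA.1 r.1 (fun hc => ?_) (fun hp => ?_)
    · obtain ⟨f, hf, hf1⟩ := exists_ne_one (hS.ne_bot _ r.1)
      refine hf1 (rcc_not_commute hS (rcc_symm r) hD hA.1 (symm h) (by rwa [Subgroup.commutator_comm]) ?_)
      exact fun a ha => (comm_bot_iff.1 hc a ha f hf).symm
    · exact hm1 (l.eq_one hS hA r.1 hp hM hne hm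
        fun f hf => (comm_bot_iff.1 (rcc_comm_left r) f hf m hm).symm)
  refine ⟨r', ?_⟩
  obtain ⟨a, ha, ha1⟩ := exists_ne_one (left_ne_bot h)
  obtain ⟨d, hd, hd1, e⟩ := cond h ha ha1
  have hma : ∀ a ∈ A, m * a = a * m := fun a ha => l.comm (hM.2 hm) (hA.2 ha)
  -- `f = d m d⁻¹ m⁻¹`, `e' = a⁻¹ f a f⁻¹`
  have hf : d * m * d⁻¹ * m⁻¹ ∈ ⁅M, D⁆ := by rw [Subgroup.commutator_comm]; exact comm_mem hd hm
  set f := d * m * d⁻¹ * m⁻¹ with hfd
  have he : a⁻¹ * f * a⁻¹⁻¹ * f⁻¹ ∈ ⁅A, ⁅M, D⁆⁆ := comm_mem (inv_mem ha) hf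
  set e' := a⁻¹ * f * a⁻¹⁻¹ * f⁻¹ with he'
  have hfm : f * m = m * f := r.2.1 f hf m (Subgroup.mem_sup_left hm)
  have h1 : ∀ x ∈ D, (a⁻¹ * (f * m) * a) * x = x * (a⁻¹ * (f * m) * a) := by
    intro x hx
    have h2 : a * x * a⁻¹ ∈ conjBy A d := e ▸ conj_mem_cj hx a
    obtain ⟨y, hy, e2⟩ := exists_of_mem_cj h2
    have e3 : x = a⁻¹ * (d * y * d⁻¹) * a := by rw [← e2]; group
    rw [e3, hfd]
    calc _ = a⁻¹ * d * (m * y) * d⁻¹ * a := by group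
      _ = _ := by rw [hma y hy]; group
  have e4 : a⁻¹ * (f * m) * a = e' * m * f := by
    rw [he', mul_assoc _ m f, ← hfm, mul_assoc a⁻¹ (f * m), mul_assoc f m a, hma a ha]; group
  have hz : ∀ x ∈ A ⊔ D, e' * m * x = x * (e' * m) := by
    refine commute_sup (fun x hx => ?_) (fun x hx => ?_)
    · rw [mul_assoc, hma x hx, ← mul_assoc, r'.2.1 e' he x (Subgroup.mem_sup_left hx), mul_assoc]
    · have h3 := h1 x hx
      rw [e4, mul_assoc, r.2.1 f hf x (Subgroup.mem_sup_right hx), ← mul_assoc (e' * m), ← mul_assoc x] at h3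
      exact mul_right_cancel h3
  obtain ⟨f', hf', e5⟩ := rcc_mul_mem_cj r' ha ha1 he
  obtain ⟨P, hP, -, hP'⟩ := l.exists_mul hA hM hne.symm ha hm hm1
  have hz1 := eq_one_of_central_mul hS hA.1 hD h hz ha ha1 (hS.conj_mem P hP.1 f') (by
    have := conj_mem_cj hP' f'
    have e6 : f' * m = m * f' := r.2.1 f' hf' m (Subgroup.mem_sup_left hm)
    have e7 : f' * (a * m) * f'⁻¹ = e' * m * a := by
      calc _ = f' * a * (m * f'⁻¹) := by group
        _ = f' * a * (f'⁻¹ * m) := by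
          congr 1
          rw [mul_inv_eq_iff_eq_mul, mul_assoc, ← e6, inv_mul_cancel_left]
        _ = a * e' * m := by rw [e5]; group
        _ = _ := by rw [mul_assoc, hz a (Subgroup.mem_sup_left ha)]
    exact e7 ▸ this)
  exact hni.eq hS r'.1 hm (by rw [eq_inv_of_mul_eq_one_right hz1]; exact inv_mem he) hm1

theorem IsLn.exists_not_pair (hni : ∀ A ∈ S, NI S A) {B : Subgroup G} (hB : B ∈ membersIn S N) (hne : B ≠ A) :
    ∃ M ∈ membersIn S N, M ≠ A ∧ ¬ IsRankOnePair M D ∧ B ≤ A ⊔ M := by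
  by_cases hp : IsRankOnePair B D
  swap
  · exact ⟨B, hB, hne, hp, le_sup_right⟩
  obtain ⟨d, hd, hd1⟩ := exists_ne_one (right_ne_bot h)
  obtain ⟨a, ha, ha1, e1⟩ := cond (symm h) hd hd1
  obtain ⟨b, hb, hb1, e2⟩ := cond (symm hp) hd hd1
  obtain ⟨M, hM, hMA, e⟩ := l.exists_mul hA hB hne.symm (inv_mem ha) hb hb1
  have hM1 : a⁻¹ * b ≠ 1 := fun e' =>
    hb1 (l.inf hA hB hne.symm (by rw [eq_inv_of_mul_eq_one_right e']; simpa using ha) hb)
  have hnp : ¬ IsRankOnePair M D := by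
    intro hp'
    refine not_comm_cj hp' e hM1 ?_
    have := comm_bot_cj (comm_bot_cj (comm_bot_mono l.1 hB.2 hA.2) d) a⁻¹
    rwa [← e1, ← e2, cj_inv_cj, cj_cj] at this
  refine ⟨M, hM, hMA, hnp, ?_⟩
  obtain ⟨r, e3⟩ := l.rcc_comm hS hA hD h hM hMA hnp (hni M hM.1)
  obtain ⟨f, hf, e4⟩ := rcc_mul_mem_cj r ha ha1 (e3.symm ▸ e)
  rw [mul_inv_cancel_left] at e4
  have := (hni B hB.1).eq hS (hS.conj_mem A hA.1 f) hb (e4 ▸ conj_mem_cj ha f) hb1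
  rw [← this]
  have h5 := cj_le_sup_comm (A := A) hf
  rwa [e3] at h5

end Ln

/-- The structure of a line relative to an opposite of one of its points. -/
theorem line_struct (hni : ∀ A ∈ S, NI S A) {A B D : Subgroup G} (hA : A ∈ S) (hB : B ∈ linePartners S A)
    (hD : D ∈ S) (h : IsRankOnePair A D) :
    ∃ M ∈ linePartners S A, A ⊔ M = A ⊔ B ∧ ¬ IsRankOnePair M D ∧ RootCommutatorCase S M D ∧
      RootCommutatorCase S A ⁅M, D⁆ ∧ ⁅A, ⁅M, D⁆⁆ = M := by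
  have l := isLn_of_line hS hA hB
  have hA' : A ∈ membersIn S (A ⊔ B) := ⟨hA, le_sup_left⟩
  obtain ⟨M, hM, hne, hnp, hle⟩ := l.exists_not_pair hS hA' hD h hni ⟨hB.1.1, le_sup_right⟩ hB.1.2.1
  have e : A ⊔ M = A ⊔ B := le_antisymm (sup_le le_sup_left hM.2) (sup_le le_sup_left hle)
  obtain ⟨r, e3⟩ := l.rcc_comm hS hA' hD h hM hne hnp (hni M hM.1)
  exact ⟨M, l.line hM.1 hne e, e, hnp, l.rcc hS hA' hD h hM hne hnp, r, e3⟩

omit hS in
theorem rcc_normalizes {A F : Subgroup G} : F ≤ Subgroup.normalizer ((A ⊔ ⁅A, F⁆ : Subgroup G) : Set G) :=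
  le_normalizer_iff_cj.2 fun _ hf => cj_sup_comm A hf

theorem line_two_trans (hni : ∀ A ∈ S, NI S A) {A B : Subgroup G} (hA : A ∈ S) (hB : B ∈ linePartners S A) :
    ∀ C₁ ∈ membersIn S (A ⊔ B), ∀ C₂ ∈ membersIn S (A ⊔ B), ∀ D₁ ∈ membersIn S (A ⊔ B),
      ∀ D₂ ∈ membersIn S (A ⊔ B), C₁ ≠ C₂ → D₁ ≠ D₂ →
        ∃ x ∈ ⨆ E ∈ normalizingMembers S (A ⊔ B), E, conjBy C₁ x = D₁ ∧ conjBy C₂ x = D₂ := by
  obtain ⟨D, hD, h⟩ := hni A hA
  obtain ⟨M, hM, e, -, r0, r, e1⟩ := line_struct hS hni hA hB hD h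
  obtain ⟨D', hD', h'⟩ := hni M hM.1.1
  obtain ⟨M', hM', e', -, r0', r', e1'⟩ := line_struct hS hni hM.1.1 (line_symm hA hM) hD' h'
  set N := A ⊔ B with hN
  set Y := ⨆ E ∈ normalizingMembers S N, E with hY
  have hYN : ∀ y ∈ Y, conjBy N y = N :=
    le_normalizer_iff_cj.1 (iSup₂_le fun E hE => hE.2)
  have hF : ⁅M, D⁆ ≤ Y := le_iSup₂_of_le (f := fun E (_ : E ∈ normalizingMembers S N) => E) _
    ⟨r0.1, by have := rcc_normalizes (A := A) (F := ⁅M, D⁆); rwa [e1, e] at this⟩ le_rfl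
  have hF' : ⁅M', D'⁆ ≤ Y := le_iSup₂_of_le (f := fun E (_ : E ∈ normalizingMembers S N) => E) _
    ⟨r0'.1, by have := rcc_normalizes (A := M) (F := ⁅M', D'⁆); rwa [e1', e', sup_comm, e] at this⟩ le_rfl
  have hMN : M ∈ membersIn S N := ⟨hM.1.1, e ▸ le_sup_right⟩
  have k1 : ∀ C ∈ membersIn S N, C ≠ M → ∃ y ∈ Y, conjBy M y = M ∧ conjBy A y = C := by
    intro C hC hne
    rcases rcc_members hS r hA (hni A hA) hC.1 (by rw [e1, e]; exact hC.2) with h1 | ⟨f, hf, h1⟩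
    · exact (hne (h1.trans e1)).elim
    · exact ⟨f, hF hf, cj_eq_of_comm_bot (comm_bot_symm (rcc_comm_left r0)) hf, h1.symm⟩
  have k2 : ∃ y ∈ Y, conjBy M y = A := by
    obtain ⟨f, hf, hf1⟩ := exists_ne_one (hS.ne_bot _ r0'.1)
    obtain ⟨y, hy, -, e2⟩ := k1 _ (cj_mem_members hS hMN (hYN f (hF' hf))) (rcc_cj_ne hS r' hf hf1)
    exact ⟨y⁻¹ * f, mul_mem (inv_mem hy) (hF' hf), by rw [← cj_cj, ← e2, cj_inv_cj]⟩
  have k3 : ∀ C ∈ membersIn S N, ∃ y ∈ Y, conjBy M y = C := by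
    intro C hC
    by_cases hne : C = M
    · exact ⟨1, one_mem _, by simp [hne]⟩
    · obtain ⟨y, hy, -, e2⟩ := k1 C hC hne
      obtain ⟨y', hy', e3⟩ := k2
      exact ⟨y * y', mul_mem hy hy', by rw [← cj_cj, e3, e2]⟩
  have k4 : ∀ C₁ ∈ membersIn S N, ∀ C₂ ∈ membersIn S N, C₁ ≠ C₂ →
      ∃ y ∈ Y, conjBy M y = C₁ ∧ conjBy A y = C₂ := by
    intro C₁ h1 C₂ h2 hne
    obtain ⟨y, hy, rfl⟩ := k3 C₁ h1
    obtain ⟨y', hy', e2, e3⟩ := k1 _ (cj_mem_members hS h2 (hYN _ (inv_mem hy)))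
      (fun e => hne (by rw [← e, cj_cj_inv]))
    exact ⟨y * y', mul_mem hy hy', by rw [← cj_cj, e2], by rw [← cj_cj, e3, cj_cj_inv]⟩
  intro C₁ h1 C₂ h2 D₁ h3 D₂ h4 hC hD
  obtain ⟨x, hx, rfl, rfl⟩ := k4 _ h1 _ h2 hC
  obtain ⟨y, hy, rfl, rfl⟩ := k4 _ h3 _ h4 hD
  exact ⟨y * x⁻¹, mul_mem hy (inv_mem hx), by simp [cj_cj], by simp [cj_cj]⟩

theorem line_opp_not (hni : ∀ A ∈ S, NI S A) {A B : Subgroup G} (hA : A ∈ S) (hB : B ∈ linePartners S A) :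
    ∃ D ∈ S, IsRankOnePair A D ∧ ¬ IsRankOnePair B D := by
  obtain ⟨D, hD, h⟩ := hni A hA
  obtain ⟨M, hM, e, hnp, -⟩ := line_struct hS hni hA hB hD h
  obtain ⟨x, -, e1, e2⟩ := line_two_trans hS hni hA hB A ⟨hA, le_sup_left⟩ M ⟨hM.1.1, e ▸ le_sup_right⟩
    A ⟨hA, le_sup_left⟩ B ⟨hB.1.1, le_sup_right⟩ hM.1.2.1.symm hB.1.2.1.symm
  refine ⟨_, hS.conj_mem D hD x, by simpa [e1] using conj h x, fun hp => hnp ?_⟩
  rw [← e2] at hp
  simpa using conj hp x⁻¹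

theorem line_opp_both (hni : ∀ A ∈ S, NI S A) {A B : Subgroup G} (hA : A ∈ S) (hB : B ∈ linePartners S A) :
    ∃ D ∈ S, IsRankOnePair A D ∧ IsRankOnePair B D := by
  obtain ⟨D, hD, h⟩ := hni A hA
  obtain ⟨M, hM, e, hnp, r0, r, e1⟩ := line_struct hS hni hA hB hD h
  obtain ⟨f, hf, hf1⟩ := exists_ne_one (hS.ne_bot _ r0.1)
  have h2 := conj h f
  rw [cj_eq_of_comm_bot (comm_bot_symm (rcc_comm_right r0)) hf] at h2
  obtain ⟨x, -, e2, e3⟩ := line_two_trans hS hni hA hB A ⟨hA, le_sup_left⟩ (conjBy A f)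
    ⟨hS.conj_mem A hA f, by have := cj_le_sup_comm (A := A) hf; rwa [e1, e] at this⟩
    A ⟨hA, le_sup_left⟩ B ⟨hB.1.1, le_sup_right⟩ (rcc_cj_ne hS r hf hf1).symm hB.1.2.1.symm
  exact ⟨_, hS.conj_mem D hD x, by simpa [e2] using conj h x, by simpa [e3] using conj h2 x⟩

/-- every line through `A` is `A ⊔ M` with `A = [M, F]` -/
theorem line_exists_rcc (hni : ∀ A ∈ S, NI S A) {A M : Subgroup G} (hA : A ∈ S) (hM : M ∈ linePartners S A) :
    ∃ F ∈ linePartners S A, RootCommutatorCase S M F ∧ ⁅M, F⁆ = A := by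
  obtain ⟨D, hD, h, hnp⟩ := line_opp_not hS hni hM.1.1 (line_symm hA hM)
  obtain ⟨r, e⟩ := (isLn_of_line hS hA hM).rcc_comm hS ⟨hM.1.1, le_sup_right⟩ hD h ⟨hA, le_sup_left⟩
    hM.1.2.1.symm hnp (hni A hA)
  have r0 := (isLn_of_line hS hA hM).rcc hS ⟨hM.1.1, le_sup_right⟩ hD h ⟨hA, le_sup_left⟩ hM.1.2.1.symm hnp
  exact ⟨_, line_symm r0.1 (rcc_line hS r0 hA (hni A hA)), r, e⟩

theorem exists_line (hc : IsConjClassOfSubgroups S) (hnd : IsNondegenerateRootSet S) {A : Subgroup G}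
    (hA : A ∈ S) : ∃ P, P ∈ linePartners S A := by
  obtain ⟨P, hP, Q, hQ, r⟩ := hnd.2.2
  obtain ⟨g, rfl⟩ := hc.2 _ r.1 A hA
  exact ⟨_, line_cj hS r.1 (rcc_line hS r hP (ni_of_class hS hc hnd.2.1 P hP)) g⟩

theorem special_of_line (hni : ∀ A ∈ S, NI S A) {A P B : Subgroup G} (hA : A ∈ S)
    (hP : P ∈ linePartners S A) (hB : B ∈ S) (h : IsRankOnePair A B) : IsSpecialRankOnePair A B := by
  obtain ⟨M, hM, -, -, r0, r, e1⟩ := line_struct hS hni hA hP hB h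
  have hN := (rcc_isLn hS r0 hM.1.1 (hni _ hM.1.1)).1
  have hA' : A ≤ Subgroup.normalizer ((M ⊔ ⁅M, B⁆ : Subgroup G) : Set G) := by
    have := rcc_normalizes (A := ⁅M, B⁆) (F := A)
    rwa [Subgroup.commutator_comm _ A, e1, sup_comm] at this
  have e2 : ⁅A, M ⊔ ⁅M, B⁆⁆ = M := by
    refine le_antisymm (H1.commutator_sup_le' Subgroup.le_normalizer ?_ (hM.1.2.2 ▸ bot_le) e1.le)
      (e1.ge.trans (Subgroup.commutator_mono le_rfl le_sup_right))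
    exact le_normalizer_iff_cj.2 fun f hf => cj_eq_of_comm_bot (comm_bot_symm (rcc_comm_left r0)) hf
  refine special_of_normalizes h hN hA' rcc_normalizes ?_ ?_
  · rw [e2]; exact comm_bot_symm hM.1.2.2
  · rw [e2]; exact hS.ne_bot _ r0.1

theorem pair_of_comm_comm {A B D : Subgroup G} (r : RootCommutatorCase S A B)
    (r' : RootCommutatorCase S D ⁅A, B⁆) (hB : B ∈ S) (hD : D ∈ S) (hDC : ⁅D, ⁅A, B⁆⁆ = A) :
    IsRankOnePair B D := by
  by_contra hn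
  have hAD : ⁅A, D⁆ = ⊥ := by have := rcc_comm_left r'; rwa [hDC] at this
  have key : ∀ d ∈ D, d ≠ 1 → ⁅A, B⁆ ≤ conjBy ⁅A, B⁆ d := by
    intro d hd hd1
    have h1 := cj_comm_of_not_pair hS hB hD hn hd
    rw [Subgroup.commutator_le]
    intro a ha b hb
    obtain ⟨c, hc, e⟩ := rcc_exists r' hd hd1 (hDC.symm ▸ ha)
    -- `a c = d c d⁻¹ ∈ C^d`
    have e1 : conjBy ⁅A, B⁆ d = ⁅A, conjBy B d⁆ := by rw [cj_commutator, cj_eq_of_comm_bot hAD hd]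
    have e2 : conjBy ⁅A ⊔ ⁅A, B⁆, conjBy B d⁆ b = ⁅A ⊔ ⁅A, B⁆, conjBy B d⁆ := by
      rw [cj_commutator, cj_sup_comm A hb, cj_eq_of_comm_bot h1 hb]
    have e3 : ⁅A ⊔ ⁅A, B⁆, conjBy B d⁆ = conjBy ⁅A, B⁆ d := by
      have e4 : conjBy (A ⊔ ⁅A, B⁆) d = A ⊔ ⁅A, B⁆ := by
        have := cj_sup_comm ⁅A, B⁆ hd
        rwa [Subgroup.commutator_comm _ D, hDC, sup_comm] at this
      conv_lhs => rw [← e4, ← cj_commutator]
      congr 1
      refine le_antisymm (H1.commutator_sup_le (Subgroup.normalizer_commutator_ge_left A B)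
        Subgroup.le_normalizer le_rfl (rcc_comm_right r ▸ bot_le)) (Subgroup.commutator_mono le_sup_left le_rfl)
    rw [e3] at e2
    have h2 : a * c ∈ conjBy ⁅A, B⁆ d := by rw [e, inv_mul_cancel_right]; exact conj_mem_cj hc d
    have h3 : b * (a * c) * b⁻¹ ∈ conjBy ⁅A, B⁆ d := e2 ▸ conj_mem_cj h2 b
    have h4 := mul_mem h2 (inv_mem h3)
    have e5 : c * b = b * c := r.2.1 c hc b (Subgroup.mem_sup_right hb)
    have e6 : a * c * (b * (a * c) * b⁻¹)⁻¹ = ⁅a, b⁆ := by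
      calc _ = a * (c * b) * c⁻¹ * a⁻¹ * b⁻¹ := by group
        _ = _ := by rw [e5, commutatorElement_def]; group
    exact e6 ▸ h4
  obtain ⟨d, hd, hd1⟩ := exists_ne_one (hS.ne_bot _ hD)
  refine rcc_cj_ne hS (rcc_symm r') hd hd1 (le_antisymm ?_ (key d hd hd1))
  simpa using cj_mono (key _ (inv_mem hd) (inv_ne_one.2 hd1)) d

theorem ereach_conj (hc : IsConjClassOfSubgroups S) (hnd : IsNondegenerateRootSet S) (g : G) :
    ∀ A ∈ S, ReflTransGen (EAdj S S) A (conjBy A g) := by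
  have hni := ni_of_class hS hc hnd.2.1
  have k1 : ∀ A ∈ S, ∀ B ∈ S, RootCommutatorCase S A B → ReflTransGen (EAdj S S) ⁅A, B⁆ A :=
    fun A hA B _ r => .single ⟨r.1, hA, rcc_line hS r hA (hni A hA)⟩
  have k2 : ∀ A ∈ S, ∀ B ∈ S, IsRankOnePair A B → ReflTransGen (EAdj S S) A B := by
    intro A hA B hB h
    obtain ⟨P, hP⟩ := exists_line hS hc hnd hA
    obtain ⟨M, hM, -, -, r0, -⟩ := line_struct hS hni hA hP hB h
    have := k1 _ hB _ hM.1.1 (rcc_symm r0)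
    rw [Subgroup.commutator_comm] at this
    exact ((ReflTransGen.single ⟨hA, hM.1.1, hM⟩).trans (ereach_symm (k1 _ hM.1.1 _ hB r0))).trans this
  refine rel_conj hS (fun _ => .refl) (fun _ _ _ => .trans) (fun A hA B hB b hb => ?_) g
  rcases hS.pair A hA B hB with h | h | r
  · rw [cj_eq_of_comm_bot h hb]
  · exact (k2 A hA B hB h).trans (k2 B hB _ (hS.conj_mem A hA b) (pair_cj_left (symm h) hb))
  · obtain ⟨r', e⟩ := rcc_cj_left hS r hA hB hb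
    exact (ereach_symm (k1 A hA B hB r)).trans (e ▸ k1 _ (hS.conj_mem A hA b) B hB r')

theorem econn (hc : IsConjClassOfSubgroups S) (hnd : IsNondegenerateRootSet S) :
    IsConnectedFamily (EAdj S S) S := by
  intro A hA B hB
  obtain ⟨g, rfl⟩ := hc.2 A hA B hB
  exact ereach_conj hS hc hnd g A hA

theorem eq_top_of_lines (hc : IsConjClassOfSubgroups S) (hnd : IsNondegenerateRootSet S) {A B H : Subgroup G}
    (hA : A ∈ S) (hB : B ∈ S) (h : IsRankOnePair A B) (h1 : ∀ C ∈ linePartners S A, C ≤ H) (h2 : B ≤ H) :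
    H = ⊤ := by
  have hni := ni_of_class hS hc hnd.2.1
  have k1 : ∀ C ∈ linePartners S A, ∃ x ∈ H, C = conjBy A x := by
    intro C hC
    obtain ⟨M, hM, e, -, r0, r, e1⟩ := line_struct hS hni hA hC hB h
    have hF : ⁅M, B⁆ ≤ H := (Subgroup.commutator_le_sup _ _).trans (sup_le (h1 M hM) h2)
    have k : ∀ P ∈ S, P ≤ A ⊔ M → P ≠ M → ∃ x ∈ H, P = conjBy A x := by
      intro P hP hle hne
      rcases rcc_members hS r hA (hni A hA) hP (by rwa [e1]) with h3 | ⟨f, hf, h3⟩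
      · exact (hne (h3.trans e1)).elim
      · exact ⟨f, hF hf, h3⟩
    by_cases hCM : C = M
    · subst hCM
      obtain ⟨F, hF', r', e'⟩ := line_exists_rcc hS hni hA hC
      obtain ⟨f, hf, hf1⟩ := exists_ne_one (hS.ne_bot _ hF'.1.1)
      obtain ⟨x, hx, e2⟩ := k _ (hS.conj_mem C hC.1.1 f)
        (by have := cj_le_sup_comm (A := C) hf; rwa [e', sup_comm] at this) (rcc_cj_ne hS r' hf hf1)
      exact ⟨f⁻¹ * x, mul_mem (inv_mem (h1 F hF' hf)) hx, by rw [← cj_cj, ← e2, cj_inv_cj]⟩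
    · exact k C hC.1.1 (e ▸ le_sup_right) hCM
  have hAH : A ≤ H := by
    obtain ⟨P, hP⟩ := exists_line hS hc hnd hA
    obtain ⟨x, hx, e⟩ := k1 P hP
    have := cj_le_of_mem (h1 P hP) (inv_mem hx)
    rwa [e, cj_inv_cj] at this
  refine eq_top_of_le hS fun C hC => ?_
  have : ∃ x ∈ H, C = conjBy A x := by
    have hr := econn hS hc hnd A hA C hC
    induction hr with
    | refl => exact ⟨1, one_mem _, by simp⟩
    | tail _ h3 ih =>
      obtain ⟨x, hx, rfl⟩ := ih h3.1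
      have h4 := line_cj hS h3.1 h3.2.2 x⁻¹
      rw [cj_inv_cj] at h4
      obtain ⟨y, hy, e⟩ := k1 _ h4
      exact ⟨x * y, mul_mem hx hy, by rw [← cj_cj, ← e, cj_cj_inv]⟩
  obtain ⟨x, hx, rfl⟩ := this
  exact cj_le_of_mem hAH hx

theorem opp_le_of_comm {A C : Subgroup G} (hA : A ∈ S) (hni : NI S A) (hAC : ⁅A, C⁆ = ⊥)
    (h : rankOnePartners S A ⊆ rankOnePartners S C) : rankOnePartners S C ⊆ rankOnePartners S A := by
  have cjm : ∀ {X Y : Subgroup G} (g : G), rankOnePartners S X ⊆ rankOnePartners S Y →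
      rankOnePartners S (conjBy X g) ⊆ rankOnePartners S (conjBy Y g) := by
    intro X Y g h D hD
    have := h (a := conjBy D g⁻¹) ⟨hS.conj_mem D hD.1 _, by simpa using conj hD.2 g⁻¹⟩
    exact ⟨hD.1, by simpa using conj this.2 g⟩
  obtain ⟨B, hB, hp⟩ := hni
  have hp' := (h ⟨hB, hp⟩).2
  obtain ⟨a, ha, ha1⟩ := exists_ne_one (left_ne_bot hp)
  obtain ⟨b, hb, hb1, e1⟩ := cond hp ha ha1
  obtain ⟨c, hc, hc1, e2⟩ := cond (symm hp') hb hb1
  obtain ⟨b', hb', hb1', e3⟩ := cond hp (inv_mem ha) (inv_ne_one.2 ha1)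
  obtain ⟨c', hc', hc1', e4⟩ := cond (symm hp') hb' hb1'
  have h1 := cjm b h
  have h2 := cjm b' h
  rw [e1, ← e2] at h1
  rw [e3, ← e4] at h2
  have hac := comm_bot_iff.1 hAC a ha c hc
  have h3 := cjm a⁻¹ h1
  have h4 := cjm c h2
  rw [cj_inv_cj, cj_cj] at h3
  rw [cj_cj, cj_cj, show c * a⁻¹ = a⁻¹ * c by rw [mul_inv_eq_iff_eq_mul, mul_assoc, ← hac, inv_mul_cancel_left]]
    at h4
  have h5 : c * c' = 1 := by
    by_contra hne
    have := (h3.trans h4) ⟨hS.conj_mem B hB _, pair_cj hp' (mul_mem hc hc') hne⟩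
    exact this.2.ne rfl
  rw [h5, cj_one] at h4
  have h6 := cjm b⁻¹ (cjm a h4)
  rw [cj_cj _ a, mul_inv_cancel_left, e2, ← e1, cj_inv_cj, cj_inv_cj] at h6
  exact h6

theorem comm_of_opp_le (hni : ∀ A ∈ S, NI S A) {A C : Subgroup G} (hA : A ∈ S) (hC : C ∈ S)
    (h : rankOnePartners S A ⊆ rankOnePartners S C) : ⁅A, C⁆ = ⊥ := by
  by_contra hne
  have r := rcc_of_not hS hA hC hne (fun hp => (h ⟨hC, hp⟩).2.ne rfl)
  obtain ⟨B, hB, h1, h2⟩ := line_opp_both hS hni r.1 (rcc_line hS r hA (hni A hA))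
  have r' := rcc_symm r
  obtain ⟨M, hM, e, hnp, -⟩ := line_struct hS hni hC (line_symm r'.1 (rcc_line hS r' hC (hni C hC))) hB
    (h ⟨hB, h2⟩).2
  rcases rcc_members hS r' hC (hni C hC) hM.1.1 (e ▸ le_sup_right) with rfl | ⟨a, ha, rfl⟩
  · rw [Subgroup.commutator_comm] at hnp; exact hnp h1
  · have := (h ⟨hS.conj_mem B hB _, pair_cj_left h2 (inv_mem ha)⟩).2
    exact hnp (by simpa using conj this a)

end Set

end H13.Root
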