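import Cfsg.Agent.H13.R3_2
import Cfsg.Prelude.Def_GeometricClasses

/-! Maximality of the Singer normaliser in `SL_n(q)`, `n` prime (S5636): definitions and chunk statements
(paper proofs: notes/SG.md). -/

set_option autoImplicit false
set_option linter.unusedSectionVars false

open Module MulAction H13.R3

namespace H13.SG

universe u

section field
variable (F : Type u) [Field F] [Fintype F] {K : Type u} [Field K] [Fintype K] [Algebra F K]

/-- `g` lies in `ΓL₁(K)` -/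
def Mon (g : K ≃ₗ[F] K) : Prop := ∃ (a : K) (i : ℕ), ∀ x, g x = a * x ^ Fintype.card F ^ i

variable {F}
/-- multiplication by `c` lies in `J` -/
def Mu (J : Subgroup (K ≃ₗ[F] K)) (c : K) : Prop := ∃ j ∈ J, ∀ x, j x = c * x

/-- the global hypotheses -/
structure Hy (J : Subgroup (K ≃ₗ[F] K)) : Prop where
  pr : (finrank F K).Prime
  n13 : 13 ≤ finrank F K
  sc : Sc F K J
  c1 : ∀ c : K, Algebra.norm F c = 1 → Mu J c
  fr : ∃ j ∈ J, ∀ x, j x = x ^ Fintype.card F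
  dt : ∀ j ∈ J, ∃ l : F, LinearMap.det (j : K →ₗ[F] K) = l ^ finrank F K

/-- an invariant irreflexive relation on the points, in vector language -/
structure Inv (J : Subgroup (K ≃ₗ[F] K)) (Γ : K → K → Prop) : Prop where
  eqv : ∀ j ∈ J, ∀ x y, Γ x y → Γ (j x) (j y)
  sml : ∀ s : F, s ≠ 0 → ∀ x y, Γ x y → Γ x (s • y)
  ind : ∀ x y, Γ x y → Ind F x y

/-- `Γ` contains a pair inside a class -/
def Pr (J : Subgroup (K ≃ₗ[F] K)) (Γ : K → K → Prop) : Prop := ∃ c x, Mu J c ∧ Γ x (c * x)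

/-- the output of the character theory -/
structure VV (J : Subgroup (K ≃ₗ[F] K)) : Prop where
  v1 : ∀ Γ, Inv J Γ → Pr J Γ → ∀ c, Mu J c → c ∉ F ∙ (1 : K) → ∃ x, Γ x (c * x)
  v2 : ∀ Γ, Inv J Γ → ¬ Pr J Γ → ∀ x, {y | Γ x y}.ncard ≤ finrank F K ^ 3 * Fintype.card F
  v3 : ∀ Γ, Inv J Γ → Pr J Γ → finrank F K < Fintype.card F → ∀ x, x ≠ 0 →
    Fintype.card F ^ finrank F K ≤ (finrank F K + 1) * {y | Γ x y}.ncard
end field

section abs
variable {G : Type u} [Group G] (P : Type u) [Fintype P] [MulAction G P]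

/-- a faithful permutation group with a self-centralising semiregular subgroup `C` -/
structure AH (C : Subgroup G) (n : ℕ) : Prop where
  fa : ∀ k : G, (∀ x : P, k • x = x) → k = 1
  cc : ∀ c ∈ C, c ≠ 1 → ∀ y, y * c = c * y ↔ y ∈ C
  sr : ∀ c ∈ C, ∀ x : P, c • x = x → c = 1
  nx : C.relIndex (Subgroup.normalizer (C : Set G)) ≤ n
  cp : Fintype.card P ≤ n * Nat.card C
  big : 4 * n * (n + 1) < Nat.card C
  fx : ∀ k : G, k ≠ 1 → {x : P | k • x = x}.ncard + n ≤ Nat.card C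

/-- traces of equivariant operators are constant on `C ∖ 1` -/
def DD (C : Subgroup G) : Prop := ∀ A : P → P → ℂ, (∀ (y : G) a b, A (y • a) (y • b) = A a b) →
  ∀ c ∈ C, ∀ c' ∈ C, c ≠ 1 → c' ≠ 1 → ∑ x, A x (c • x) = ∑ x, A x (c' • x)
end abs

section pair
variable {F : Type u} [Field F] {V W : Type u} [AddCommGroup V] [Module F V] [AddCommGroup W] [Module F W]
  {G : Type u} [Group G] [DistribMulAction G V] [SMulCommClass G F V] [DistribMulAction G W] [SMulCommClass G F W]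

variable (G) in
/-- an invariant perfect pairing -/
structure PP (p : V →ₗ[F] W →ₗ[F] F) : Prop where
  l : ∀ v, v ≠ 0 → ∃ f, p v f ≠ 0
  r : ∀ f, f ≠ 0 → ∃ v, p v f ≠ 0
  inv : ∀ (g : G) v f, p (g • v) (g • f) = p v f

/-- the one-sided structure of a doubly transitive group -/
structure OS (J : Subgroup G) (p : V →ₗ[F] W →ₗ[F] F) (M : V → V → Submodule F V)
    (U : V → W → Submodule F V) (b : ℕ) : Prop where
  b1 : 1 ≤ b
  dM : ∀ x y, Ind F x y → finrank F (M x y) + b = finrank F V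
  lM : ∀ x y, Ind F x y → ln F x y ≤ M x y
  eM : ∀ j ∈ J, ∀ x y u, Ind F x y → u ∈ M x y → j • u ∈ M (j • x) (j • y)
  cM : ∀ x y x' y', Ind F x y → Ind F x' y' → ln F x y = ln F x' y' → M x y = M x' y'
  sM : ∀ x y u, Ind F x y → Ind F x u → u ∈ M x y → y ∈ M x u
  tM : ∀ x y u u', Ind F x y → u ∉ M x y → u' ∉ M x y → ∃ j ∈ J ⊓ St G (ln F x y), j • u = u'
  mU : ∀ x f y, x ≠ 0 → f ≠ 0 → p x f = 0 → (y ∈ U x f ↔ y ∈ F ∙ x ∨ ∀ u ∈ M x y, p u f = 0)
  dU : ∀ x f, x ≠ 0 → f ≠ 0 → p x f = 0 → finrank F (U x f) = b + 1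
  tU : ∀ x f y y', x ≠ 0 → f ≠ 0 → p x f = 0 → y ∈ U x f → y' ∈ U x f → y ∉ F ∙ x → y' ∉ F ∙ x →
    ∃ j ∈ J, j • x ∈ F ∙ x ∧ j • f ∈ F ∙ f ∧ j • y ∈ ln F x y'
  tA : ∀ x f h h', x ≠ 0 → f ≠ 0 → p x f = 0 → p x h = 0 → p x h' = 0 → (∃ y ∈ U x f, p y h ≠ 0) →
    (∃ y ∈ U x f, p y h' ≠ 0) → ∃ j ∈ J, j • x ∈ F ∙ x ∧ j • f ∈ F ∙ f ∧ j • h = h'

variable (F V) in
/-- symmetric ternary relation whose slices are complements of subspaces of codimension at most two -/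
structure Om (ω : V → V → V → Prop) : Prop where
  s1 : ∀ x y z, ω x y z → ω y x z
  s2 : ∀ x y z, ω x y z → ω x z y
  sl : ∀ x y, ∃ S : Submodule F V, finrank F V ≤ finrank F S + 2 ∧ ∀ z, ω x y z ↔ z ∉ S

variable (F V) in
def PDh (J : Subgroup G) : Prop := ∀ ω : V → V → V → Prop, Om F V ω →
  (∀ j ∈ J, ∀ x y z, ω x y z → ω (j • x) (j • y) (j • z)) → ∀ x y z, ¬ ω x y z

variable (F V) in
/-- the stabilizer of a line is transitive on the vectors off the line -/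
def TL (J : Subgroup G) : Prop :=
  ∀ x y u u' : V, Ind F x y → u ∉ ln F x y → u' ∉ ln F x y → ∃ j ∈ J ⊓ St G (ln F x y), j • u = u'
end pair

/-! ### Chunks -/

/-- an intransitive overgroup is monomial -/
def PM : Prop := ∀ (F K : Type u) [Field F] [Fintype F] [Field K] [Fintype K] [Algebra F K]
  (J : Subgroup (K ≃ₗ[F] K)), Hy J → PT K J ∨ ∀ j ∈ J, Mon F j

/-- exceptional characters -/
def EXC : Prop := ∀ (G P : Type u) [Group G] [Finite G] [Fintype P] [MulAction G P] (C : Subgroup G) (n : ℕ),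
  AH P C n → C.Normal ∨ DD P C

/-- eigenvalue estimate -/
def EST : Prop := ∀ (G P : Type u) [Group G] [Finite G] [Fintype P] [MulAction G P] (C : Subgroup G) (n : ℕ),
  AH P C n → DD P C → IsPretransitive G P →
  (∀ y ∈ Subgroup.normalizer (C : Set G), ∀ x : P, ∃ c ∈ C, y • x = c • x) →
  ∀ Γ : P → P → Prop, (∀ (y : G) a b, Γ a b → Γ (y • a) (y • b)) → (∀ a, ¬ Γ a a) → ∀ c ∈ C, c ≠ 1 → ∀ a,
    ((∀ x, ¬ Γ x (c • x)) → {b | Γ a b}.ncard ≤ n ^ 3) ∧
    (n ^ 10 ≤ Nat.card C → (∃ x, Γ x (c • x)) → Fintype.card P < (n + 1) * {b | Γ a b}.ncard)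

/-- bridge -/
def BR : Prop := ∀ (F K : Type u) [Field F] [Fintype F] [Field K] [Fintype K] [Algebra F K]
  (J : Subgroup (K ≃ₗ[F] K)), Hy J → PT K J → (∀ j ∈ J, Mon F j) ∨ VV J

/-- double transitivity -/
def TWO : Prop := ∀ (F K : Type u) [Field F] [Fintype F] [Field K] [Fintype K] [Algebra F K]
  (J : Subgroup (K ≃ₗ[F] K)), Hy J → PT K J → VV J → Two F K J

/-- polynomial degree argument -/
def PD : Prop := ∀ (F K : Type u) [Field F] [Fintype F] [Field K] [Fintype K] [Algebra F K]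
  (ω : K → K → K → Prop), 13 ≤ finrank F K → Om F K ω →
  (∀ c : K, Algebra.norm F c = 1 → ∀ x y z, ω x y z → ω (c * x) (c * y) (c * z)) → ∀ x y z, ¬ ω x y z

/-- one-sided structure -/
def CK1 : Prop := ∀ (F V W G : Type u) [Field F] [Fintype F] [AddCommGroup V] [Module F V] [Finite V]
  [AddCommGroup W] [Module F W] [Finite W] [Group G] [Finite G] [DistribMulAction G V] [SMulCommClass G F V]
  [DistribMulAction G W] [SMulCommClass G F W] (J : Subgroup G) (p : V →ₗ[F] W →ₗ[F] F),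
  PP G p → 3 ≤ finrank F V → Sc F V J → Two F V J →
  (Sc F W J ∧ Two F W J) ∧ ∃ M U b, OS J p M U b

/-- two-sided count -/
def CK2 : Prop := ∀ (F V W G : Type u) [Field F] [Fintype F] [AddCommGroup V] [Module F V] [Finite V]
  [AddCommGroup W] [Module F W] [Finite W] [Group G] [Finite G] [DistribMulAction G V] [SMulCommClass G F V]
  [DistribMulAction G W] [SMulCommClass G F W] (J : Subgroup G) (p : V →ₗ[F] W →ₗ[F] F)
  (M : V → V → Submodule F V) (U : V → W → Submodule F V) (b : ℕ)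
  (M' : W → W → Submodule F W) (U' : W → V → Submodule F W) (c : ℕ),
  PP G p → 3 ≤ finrank F V → Sc F W J → Two F W J → OS J p M U b → OS J p.flip M' U' c →
  PDh F V J → PDh F W J → TL F V J

/-- endgame -/
def FIN : Prop := ∀ (F V G : Type u) [Field F] [Fintype F] [AddCommGroup V] [Module F V] [Finite V]
  [Group G] [Finite G] [DistribMulAction G V] [SMulCommClass G F V] (J : Subgroup G),
  5 ≤ finrank F V → (∀ g : G, (∀ v : V, g • v = v) → g = 1) → Sc F V J → Two F V J → TL F V J →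
  ∀ t : G, IsTv F V t → t ∈ J

def MAIN : Prop := ∀ (F K : Type u) [Field F] [Fintype F] [Field K] [Fintype K] [Algebra F K]
  (J : Subgroup (K ≃ₗ[F] K)), Hy J → (∀ j ∈ J, Mon F j) ∨ ∀ t : K ≃ₗ[F] K, IsTv F K t → t ∈ J

/-- the statement S5636 -/
def GOAL : Prop := ∀ {F : Type u} [Field F] [Fintype F] (n : ℕ), 13 ≤ n → ∀ r : ℕ, r.Prime →
  ∀ K : Subalgebra F (Matrix (Fin n) (Fin n) F), Cfsg.Geo.IsFieldSubalgebra r K →
  Cfsg.Geo.IsMaximalIn (Cfsg.Geo.specialLinear (Fin n) F)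
    (Cfsg.Geo.subalgebraNormalizer K ⊓ Cfsg.Geo.specialLinear (Fin n) F)

end H13.SG
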