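import Cfsg.Agent.H13.SG0
import Cfsg.Agent.H3.R3a

/-! S5636: basic API (classes in the field, annihilators, Fourier lemma). -/

set_option autoImplicit false
set_option linter.unusedSectionVars false

open Module MulAction H13.R3

namespace H13.SG

universe u

theorem cyc_root {L : Type*} [Field L] [Fintype L] {a b : ℕ} (h : a * b = Fintype.card L - 1) {y : L}
    (hy : y ^ b = 1) : ∃ l : L, l ≠ 0 ∧ l ^ a = y := by
  have b0 : b ≠ 0 := by rintro rfl; have := Fintype.one_lt_card (α := L); omega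
  have y0 : y ≠ 0 := by rintro rfl; simp [b0] at hy
  obtain ⟨g, hg⟩ := IsCyclic.exists_monoid_generator (α := Lˣ)
  obtain ⟨k, hk⟩ := hg (Units.mk0 y y0)
  have e : orderOf g = a * b := by
    rw [orderOf_eq_card_of_forall_mem_powers hg, Nat.card_units, Nat.card_eq_fintype_card, h]
  have : a * b ∣ k * b := by
    rw [← e, orderOf_dvd_iff_pow_eq_one, pow_mul, show g ^ k = _ from hk]; exact Units.ext (by simpa using hy)
  obtain ⟨m, rfl⟩ := Nat.dvd_of_mul_dvd_mul_right (Nat.pos_of_ne_zero b0) this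
  exact ⟨(g ^ m : Lˣ), Units.ne_zero _, by
    simpa [mul_comm a, pow_mul] using congrArg Units.val (show g ^ (a * m) = _ from hk)⟩

section field
variable {F : Type u} [Field F] [Fintype F] {K : Type u} [Field K] [Fintype K] [Algebra F K]
  {J : Subgroup (K ≃ₗ[F] K)} {c d x y z : K}

theorem mem_one : x ∈ F ∙ (1 : K) ↔ ∃ s : F, algebraMap F K s = x := by
  simp only [Submodule.mem_span_singleton, Algebra.algebraMap_eq_smul_one]

theorem alg_pow_q (s : F) : algebraMap F K s ^ Fintype.card F = algebraMap F K s := by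
  rw [← map_pow, FiniteField.pow_card]

theorem mem_one_of (h : x ^ Fintype.card F = x) : x ∈ F ∙ (1 : K) := by
  refine mem_one.2 ((IsGalois.mem_range_algebraMap_iff_fixed (F := F) x).2 fun f => ?_)
  obtain ⟨i, rfl⟩ := (FiniteField.bijective_frobeniusAlgEquivOfAlgebraic_pow F K).2 f
  simp only [AlgEquiv.coe_pow]
  exact Function.iterate_fixed h _

theorem card_K : Fintype.card K = Fintype.card F ^ finrank F K := Module.card_eq_pow_finrank

theorem pow_qn (x : K) : x ^ Fintype.card F ^ finrank F K = x := by rw [← card_K, FiniteField.pow_card]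

theorem Mu.ne0 (h : Mu J c) : c ≠ 0 := by
  obtain ⟨j, -, e⟩ := h
  rintro rfl
  simpa using e 1
theorem Mu.one : Mu J 1 := ⟨1, one_mem _, fun x => by simp⟩
theorem Mu.mul (h : Mu J c) (h' : Mu J d) : Mu J (c * d) :=
  let ⟨j, hj, e⟩ := h; let ⟨i, hi, e'⟩ := h'
  ⟨j * i, mul_mem hj hi, fun x => by rw [LinearEquiv.mul_apply, e, e', mul_assoc]⟩
theorem Mu.inv (h : Mu J c) : Mu J c⁻¹ :=
  let ⟨j, hj, e⟩ := h
  ⟨j⁻¹, inv_mem hj, fun x => j.injective (by rw [e (_ * _), mul_inv_cancel_left₀ h.ne0]; simp)⟩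
theorem Mu.pow (h : Mu J c) (k : ℕ) : Mu J (c ^ k) := by
  induction k with
  | zero => simpa using Mu.one
  | succ k ih => rw [pow_succ]; exact ih.mul h
theorem Inv.mu {Γ : K → K → Prop} (i : Inv J Γ) (h : Mu J c) (k : Γ x y) : Γ (c * x) (c * y) := by
  obtain ⟨j, hj, e⟩ := h
  simpa [e] using i.eqv j hj _ _ k

theorem norm_fr (x0 : x ≠ 0) (i : ℕ) : Algebra.norm F (x ^ (Fintype.card F ^ i - 1)) = 1 := by
  obtain ⟨k, hk⟩ : Fintype.card F - 1 ∣ Fintype.card F ^ i - 1 := by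
    simpa using Nat.sub_dvd_pow_sub_pow (Fintype.card F) 1 i
  rw [map_pow, hk, pow_mul, FiniteField.pow_card_sub_one_eq_one _ (Algebra.norm_ne_zero_iff.2 x0), one_pow]

namespace Hy
variable (hy : Hy J)
include hy

theorem mu_alg {s : F} (h : s ≠ 0) : Mu J (algebraMap F K s) :=
  let ⟨j, hj, e⟩ := hy.sc s h; ⟨j, hj, fun x => (e x).trans (Algebra.smul_def s x)⟩

theorem inv_sml {Γ : K → K → Prop} (i : Inv J Γ) {s : F} (h : s ≠ 0) (k : Γ x y) : Γ (s • x) y := by
  simpa [← Algebra.smul_def, h] using i.sml _ (inv_ne_zero h) _ _ (i.mu (hy.mu_alg h) k)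

theorem mu_of_norm {l : F} (l0 : l ≠ 0) (h : Algebra.norm F x = l ^ finrank F K) : Mu J x := by
  have := (hy.mu_alg l0).mul (hy.c1 (algebraMap F K l⁻¹ * x) (by
    rw [map_mul, Algebra.norm_algebraMap, h, ← mul_pow, inv_mul_cancel₀ l0, one_pow]))
  rwa [← mul_assoc, ← map_mul, mul_inv_cancel₀ l0, map_one, one_mul] at this

theorem norm_of_mu (h : Mu J d) : ∃ l : F, l ≠ 0 ∧ Algebra.norm F d = l ^ finrank F K := by
  have d0 := h.ne0
  obtain ⟨j, hj, e⟩ := h
  obtain ⟨l, hl⟩ := hy.dt j hj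
  have : Algebra.norm F d = l ^ finrank F K := by
    rw [← hl, Algebra.norm_apply]; congr 1; ext x; simp [e]
  exact ⟨l, fun k => Algebra.norm_ne_zero_iff.2 d0 (by rw [this, k, zero_pow hy.pr.ne_zero]), this⟩

theorem mu_all (h : ¬ finrank F K ∣ Fintype.card F - 1) (c0 : c ≠ 0) : Mu J c := by
  have n0 := Algebra.norm_ne_zero_iff (R := F).2 c0
  obtain ⟨l, hl⟩ := (powCoprime (G := Fˣ) (n := finrank F K) (by
    rw [Nat.card_units, Nat.card_eq_fintype_card]; exact ((Nat.Prime.coprime_iff_not_dvd hy.pr).2 h).symm)).surjective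
    (Units.mk0 _ n0)
  exact hy.mu_of_norm l.ne_zero (by simpa using (congrArg Units.val hl).symm)

theorem lt_q (h : finrank F K ∣ Fintype.card F - 1) : finrank F K < Fintype.card F := by
  have := q2 F
  have := Nat.le_of_dvd (by omega) h
  omega

theorem pow_M (h : finrank F K ∣ Fintype.card F - 1) (x : K) : x ^ ((Fintype.card K - 1) / finrank F K) =
    algebraMap F K (Algebra.norm F x ^ ((Fintype.card F - 1) / finrank F K)) := by
  have k : Fintype.card F - 1 ∣ Fintype.card K - 1 := by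
    simpa [card_K (F := F) (K := K)] using Nat.sub_dvd_pow_sub_pow (Fintype.card F) 1 (finrank F K)
  rw [map_pow, FiniteField.algebraMap_norm_eq_pow, ← pow_mul, Nat.card_eq_fintype_card, Nat.card_eq_fintype_card,
    ← Nat.mul_div_assoc _ h, Nat.div_mul_cancel k]

theorem cls (h : finrank F K ∣ Fintype.card F - 1) (k : x ^ ((Fintype.card K - 1) / finrank F K) = 1) : Mu J x := by
  rw [hy.pow_M h, map_eq_one_iff _ (algebraMap F K).injective] at k
  obtain ⟨l, l0, e⟩ := cyc_root (Nat.mul_div_cancel' h) k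
  exact hy.mu_of_norm l0 e.symm

theorem root (h : x ^ finrank F K = 1) : x ∈ F ∙ (1 : K) := by
  have := Fact.mk hy.pr
  refine mem_one_of ?_
  rw [pow_eq_pow_mod _ h, (ZMod.natCast_eq_natCast_iff' _ (Fintype.card F ^ finrank F K) _).1 (by
    rw [Nat.cast_pow, ZMod.pow_card]), ← pow_eq_pow_mod _ h, pow_qn]

theorem norm_eq {ζ : F} (h1 : ζ ^ finrank F K = 1) (h : d ^ Fintype.card F = ζ • d) :
    algebraMap F K (Algebra.norm F d) = d ^ finrank F K := by
  have k : ∀ i, d ^ Fintype.card F ^ i = algebraMap F K ζ ^ i * d := fun i => by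
    induction i with
    | zero => simp
    | succ i ih => rw [pow_succ, pow_mul, ih, mul_pow, ← pow_mul, mul_comm i, pow_mul, alg_pow_q, h, Algebra.smul_def,
        pow_succ, mul_assoc]
  obtain ⟨m, hm⟩ := hy.pr.odd_of_ne_two (by have := hy.n13; omega)
  have e : ∑ i ∈ Finset.range (finrank F K), i = finrank F K * m := by
    have := Finset.sum_range_id_mul_two (finrank F K)
    rw [show finrank F K - 1 = m * 2 by omega, ← mul_assoc] at this
    omega
  simp only [FiniteField.algebraMap_norm_eq_prod_pow, Nat.card_eq_fintype_card, k, Finset.prod_mul_distrib,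
    Finset.prod_const, Finset.card_range]
  rw [Finset.prod_pow_eq_pow_sum, e, pow_mul, ← map_pow, h1, map_one, one_pow, one_mul]

theorem kl (h : Mu J d) (k : d ^ finrank F K ∈ F ∙ (1 : K)) : d ∈ F ∙ (1 : K) := by
  obtain ⟨l, l0, e⟩ := hy.norm_of_mu h
  obtain ⟨μ, hμ⟩ := mem_one.1 k
  have d0 := h.ne0
  have μ0 : μ ≠ 0 := by rintro rfl; exact pow_ne_zero _ d0 (by simpa using hμ.symm)
  have k1 : (d ^ (Fintype.card F - 1)) ^ finrank F K = 1 := by
    rw [← pow_mul, mul_comm, pow_mul, ← hμ, ← map_pow, FiniteField.pow_card_sub_one_eq_one _ μ0, map_one]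
  obtain ⟨ζ, hζ⟩ := mem_one.1 (hy.root k1)
  have k2 := hy.norm_eq (d := d) (ζ := ζ) ((algebraMap F K).injective (by rw [map_pow, hζ, k1, map_one])) (by
    rw [Algebra.smul_def, hζ, ← pow_succ, Nat.sub_add_cancel Fintype.card_pos])
  have l1 : algebraMap F K l ≠ 0 := by simpa
  obtain ⟨s, hs⟩ := mem_one.1 (hy.root (x := d / algebraMap F K l) (by
    rw [div_pow, ← k2, e, map_pow, div_self (pow_ne_zero _ l1)]))
  exact mem_one.2 ⟨s * l, by rw [map_mul, hs, div_mul_cancel₀ _ l1]⟩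

theorem gen (S : Subalgebra F K) (h : d ∈ S) (k : d ∉ F ∙ (1 : K)) (x : K) : x ∈ S := by
  have := Subalgebra.isSimpleOrder_of_finrank_prime F K hy.pr
  rcases eq_bot_or_eq_top S with e | e
  · exact absurd (mem_one.2 (Algebra.mem_bot.1 (e ▸ h))) k
  · exact e ▸ Algebra.mem_top

theorem fr_pow (i : ℕ) : ∃ j ∈ J, ∀ x, j x = x ^ Fintype.card F ^ i := by
  obtain ⟨f, hf, e⟩ := hy.fr
  induction i with
  | zero => exact ⟨1, one_mem _, fun x => by simp⟩
  | succ i ih =>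
    obtain ⟨j, hj, e'⟩ := ih
    exact ⟨f * j, mul_mem hf hj, fun x => by rw [LinearEquiv.mul_apply, e, e', ← pow_mul, pow_succ]⟩

theorem mu_of_comm {j : K ≃ₗ[F] K} (k : d ∉ F ∙ (1 : K)) (h : ∀ x, j (d * x) = d * j x) (x : K) : j x = j 1 * x := by
  let S : Subalgebra F K :=
    { carrier := {e | ∀ x, j (e * x) = e * j x}
      mul_mem' := fun {a b} ha hb x => by rw [mul_assoc, ha, hb, mul_assoc]
      add_mem' := fun {a b} ha hb x => by rw [add_mul, map_add, ha, hb, add_mul]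
      algebraMap_mem' := fun s x => by rw [← Algebra.smul_def, ← Algebra.smul_def, map_smul] }
  simpa [mul_comm] using hy.gen S h k x 1

theorem mon_of {j : K ≃ₗ[F] K} (hj : j ∈ J) (k : d ∉ F ∙ (1 : K)) {d' : K} (h : ∀ x, j (d * x) = d' * j x) :
    ∃ a i, i < finrank F K ∧ Mu J a ∧ ∀ x, j x = a * x ^ Fintype.card F ^ i := by
  let S : Subalgebra F K :=
    { carrier := {e | ∃ e', ∀ x, j (e * x) = e' * j x}
      mul_mem' := fun {a b} ⟨a', ha⟩ ⟨b', hb⟩ => ⟨a' * b', fun x => by rw [mul_assoc, ha, hb, mul_assoc]⟩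
      add_mem' := fun {a b} ⟨a', ha⟩ ⟨b', hb⟩ => ⟨a' + b', fun x => by rw [add_mul, map_add, ha, hb, add_mul]⟩
      algebraMap_mem' := fun s => ⟨algebraMap F K s, fun x => by rw [← Algebra.smul_def, ← Algebra.smul_def, map_smul]⟩ }
  have j0 : j 1 ≠ 0 := by simp
  have k1 : ∀ e x, j (e * x) = j e / j 1 * j x := fun e x => by
    obtain ⟨e', he⟩ := hy.gen S ⟨d', h⟩ k e
    rw [he, ← mul_one e, he, mul_div_cancel_right₀ _ j0]
  let σ : K →ₐ[F] K := AlgHom.ofLinearMap ((LinearMap.mulLeft F (j 1)⁻¹).comp j.toLinearMap) (by simp [j0])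
    fun a b => by simp [k1 a b]; ring
  obtain ⟨i, hi⟩ := (FiniteField.bijective_frobeniusAlgHom_pow F K).2 σ
  have e : ∀ x, j x = j 1 * x ^ Fintype.card F ^ i.1 := fun x => by
    have := DFunLike.congr_fun hi x
    simp only [AlgHom.coe_pow, FiniteField.coe_frobeniusAlgHom, pow_iterate] at this
    rw [this]; simp [σ, j0]
  obtain ⟨f, hf, e'⟩ := hy.fr_pow i.1
  refine ⟨j 1, i, i.2, ⟨j * f⁻¹, mul_mem hj (inv_mem hf), fun x => ?_⟩, e⟩
  rw [LinearEquiv.mul_apply, e, ← e']; simp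

theorem ex_beta (h : finrank F K ∣ Fintype.card F - 1) : ∃ (β : K) (ζ : F), IsPrimitiveRoot ζ (finrank F K) ∧ β ≠ 0 ∧
    β ^ Fintype.card F = ζ • β ∧ ∀ x : K, x ≠ 0 → ∃ i < finrank F K, ∃ d, Mu J d ∧ x = d * β ^ i := by
  have q := q2 F
  have := NeZero.mk hy.pr.ne_zero
  obtain ⟨g, hg⟩ := IsCyclic.exists_ofOrder_eq_natCard (α := Fˣ)
  rw [Nat.card_units, Nat.card_eq_fintype_card] at hg
  have hζ : IsPrimitiveRoot ((g : F) ^ ((Fintype.card F - 1) / finrank F K)) (finrank F K) :=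
    (IsPrimitiveRoot.coe_units_iff.2 (hg ▸ IsPrimitiveRoot.orderOf g)).pow (by omega) (Nat.div_mul_cancel h).symm
  generalize (g : F) ^ ((Fintype.card F - 1) / finrank F K) = ζ at hζ
  have k : Fintype.card F - 1 ∣ Fintype.card K - 1 := by
    simpa [card_K (F := F) (K := K)] using Nat.sub_dvd_pow_sub_pow (Fintype.card F) 1 (finrank F K)
  obtain ⟨β, β0, e⟩ := cyc_root (y := algebraMap F K ζ) (Nat.mul_div_cancel' k) (by
    rw [← Nat.card_eq_fintype_card, ← Nat.card_eq_fintype_card, ← FiniteField.algebraMap_norm_eq_pow,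
      Algebra.norm_algebraMap, hζ.pow_eq_one, map_one])
  have e1 : β ^ Fintype.card F = ζ • β := by
    rw [Algebra.smul_def, ← e, ← pow_succ, Nat.sub_add_cancel Fintype.card_pos]
  have e2 : β ^ ((Fintype.card K - 1) / finrank F K) = algebraMap F K ζ := by
    rw [hy.pow_M h, map_pow, hy.norm_eq hζ.pow_eq_one e1, ← pow_mul, Nat.mul_div_cancel' h, e]
  refine ⟨β, ζ, hζ, β0, e1, fun x x0 => ?_⟩
  obtain ⟨i, hi, e3⟩ := hζ.eq_pow_of_pow_eq_one (ξ := Algebra.norm F x ^ ((Fintype.card F - 1) / finrank F K)) (by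
    rw [← pow_mul, Nat.div_mul_cancel h, FiniteField.pow_card_sub_one_eq_one _ (Algebra.norm_ne_zero_iff.2 x0)])
  refine ⟨i, hi, x / β ^ i, hy.cls h ?_, (div_mul_cancel₀ _ (pow_ne_zero _ β0)).symm⟩
  rw [div_pow, ← pow_mul, mul_comm i, pow_mul, e2, hy.pow_M h, ← e3, map_pow, div_self]
  exact pow_ne_zero _ (by simpa using hζ.ne_zero hy.pr.ne_zero)

theorem pigeon (h : finrank F K ∣ Fintype.card F - 1) (k : Ind F x z) :
    ∃ (s s' : F) (c : K), s ≠ s' ∧ Mu J c ∧ z + s' • x = c * (z + s • x) := by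
  obtain ⟨β, -, -, -, -, hβ⟩ := hy.ex_beta h
  choose i hi d hd e using fun s : F => hβ (z + s • x) fun e => k.2 (Submodule.mem_span_singleton.2 ⟨-s, by
    rw [neg_smul, neg_eq_iff_add_eq_zero, add_comm, e]⟩)
  obtain ⟨s, s', n, e'⟩ := Fintype.exists_ne_map_eq_of_card_lt (fun s => (⟨i s, hi s⟩ : Fin _)) (by simpa using hy.lt_q h)
  exact ⟨s, s', d s' * (d s)⁻¹, n, (hd s').mul (hd s).inv, by
    rw [e s, e s', show i s = i s' from congrArg Fin.val e', mul_assoc, inv_mul_cancel_left₀ (hd s).ne0]⟩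
end Hy
end field

section pair
variable {F : Type u} [Field F] [Fintype F] {V W : Type u} [AddCommGroup V] [Module F V] [Finite V] [AddCommGroup W]
  [Module F W] [Finite W] {G : Type u} [Group G] [DistribMulAction G V] [SMulCommClass G F V] [DistribMulAction G W]
  [SMulCommClass G F W] {p : V →ₗ[F] W →ₗ[F] F} {S T : Submodule F V} {J : Subgroup G}

/-- the annihilator -/
def an (p : V →ₗ[F] W →ₗ[F] F) (S : Submodule F V) : Submodule F W := S.dualAnnihilator.comap p.flip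

theorem mem_an {f : W} : f ∈ an p S ↔ ∀ u ∈ S, p u f = 0 := by simp [an, Submodule.mem_dualAnnihilator]
theorem an_anti (h : S ≤ T) : an p T ≤ an p S := fun _ k => mem_an.2 fun u hu => mem_an.1 k u (h hu)
theorem mem_an_sp {x : V} {f : W} : f ∈ an p (F ∙ x) ↔ p x f = 0 := mem_an.trans ⟨fun h => h x
  (Submodule.mem_span_singleton_self x), fun h u hu => by obtain ⟨a, rfl⟩ := Submodule.mem_span_singleton.1 hu; simp [h]⟩
theorem mem_an_ln {x y : V} {f : W} : f ∈ an p (ln F x y) ↔ p x f = 0 ∧ p y f = 0 := mem_an.trans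
  ⟨fun h => ⟨h x l_ln, h y r_ln⟩, fun h u hu => by obtain ⟨a, b, rfl⟩ := mem_ln.1 hu; simp [h]⟩

theorem pp_dual : PP G (Dual.eval F V) :=
  ⟨fun a n => by simpa using mt (forall_dual_apply_eq_zero_iff F a).1 n, fun _ => H3.R3.ex_ne, fun g a b => by simp⟩

namespace PP
variable (pp : PP G p)
include pp

theorem flip : PP G p.flip := ⟨pp.r, pp.l, fun g f v => pp.inv g v f⟩
theorem inv' (g : G) (v : V) (f : W) : p (g • v) f = p v (g⁻¹ • f) := by rw [← pp.inv g v, smul_inv_smul]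
theorem inj : Function.Injective p := (injective_iff_map_eq_zero p).2 fun v h => by_contra fun n =>
  let ⟨f, k⟩ := pp.l v n; k (by rw [h]; rfl)
theorem dim : finrank F W = finrank F V := le_antisymm
  ((LinearMap.finrank_le_finrank_of_injective pp.flip.inj).trans_eq Subspace.dual_finrank_eq)
  ((LinearMap.finrank_le_finrank_of_injective pp.inj).trans_eq Subspace.dual_finrank_eq)
theorem bij : Function.Bijective p := ⟨pp.inj, (LinearMap.injective_iff_surjective_of_finrank_eq_finrank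
  (Subspace.dual_finrank_eq.trans pp.dim).symm).1 pp.inj⟩
theorem finrank_an (S : Submodule F V) : finrank F S + finrank F (an p S) = finrank F V := by
  rw [← finrank_ann S, ← (LinearEquiv.ofBijective _ pp.flip.bij).symm.finrank_map_eq, Submodule.map_equiv_eq_comap_symm]
  rfl
theorem an_an (S : Submodule F V) : an p.flip (an p S) = S := (Submodule.eq_of_le_of_finrank_eq
  (fun u hu => mem_an.2 fun f hf => mem_an.1 hf u hu) (by
    have := pp.finrank_an S; have := pp.flip.finrank_an (an p S); have := pp.dim; omega)).symm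
theorem sep {u : V} (h : u ∉ S) : ∃ f ∈ an p S, p u f ≠ 0 := by
  by_contra! k
  exact h (pp.an_an S ▸ mem_an.2 k)
theorem le_of_an (h : an p T ≤ an p S) : S ≤ T := pp.an_an S ▸ pp.an_an T ▸ an_anti h
theorem sc (h : Sc F V J) : Sc F W J := fun c c0 =>
  let ⟨z, hz, e⟩ := h c⁻¹ (inv_ne_zero c0)
  ⟨z, hz, fun f => pp.flip.inj (LinearMap.ext fun v => by
    have := pp.inv z v f
    rw [e] at this
    simpa [inv_mul_eq_iff_eq_mul₀ c0] using this)⟩

open Classical in
/-- Fourier lemma relative to a subspace `X` -/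
theorem FL2 (L : Subgroup G) (X : Submodule F W) (hX : ∀ j ∈ L, ∀ u ∈ X, j • u ∈ X) {a₁ a₂ : V}
    (h : ∀ χ : AddChar F ℂ, χ 1 ≠ 1 → ∀ b ∈ X, ∀ O : Finset W, (∀ u, u ∈ O ↔ ∃ j ∈ L, j • b = u) →
      ∑ u ∈ O, χ (p a₁ u) = ∑ u ∈ O, χ (p a₂ u)) : ∃ j ∈ L, ∀ u ∈ X, p (j • a₁) u = p a₂ u := by
  have := Fintype.ofFinite V
  have := Fintype.ofFinite W
  obtain ⟨χ, hχ⟩ := AddChar.exists_apply_ne_zero.2 (one_ne_zero (α := F))
  let O : Finset V := Finset.univ.filter fun a => ∃ j ∈ L, ∀ u ∈ X, p (j • a₁) u = p a u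
  have mO : ∀ a, a ∈ O ↔ ∃ j ∈ L, ∀ u ∈ X, p (j • a₁) u = p a u := fun a => by simp [O]
  let φ : W → ℂ := fun u => ∑ a ∈ O, χ (p (-a) u)
  have k1 : ∀ a', ∑ u, φ u * χ (p a' u) = if a' ∈ O then (Fintype.card W : ℂ) else 0 := fun a' => by
    simp only [φ, Finset.sum_mul, ← AddChar.map_add_eq_mul, ← LinearMap.add_apply, ← map_add]
    rw [Finset.sum_comm, ← Finset.sum_ite_eq O a' fun _ => (Fintype.card W : ℂ)]
    refine Finset.sum_congr rfl fun a _ => ?_
    split_ifs with e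
    · simp [e]
    · obtain ⟨t, k⟩ := pp.l (-a + a') fun l => e (neg_add_eq_zero.1 l).symm
      exact H3.R3.trick hχ _ k fun _ _ _ => by simp
  have k0 : ∀ j ∈ L, ∀ a ∈ O, j • a ∈ O := fun j hj a ha =>
    let ⟨i, hi, e⟩ := (mO a).1 ha
    (mO _).2 ⟨j * i, mul_mem hj hi, fun u hu => by rw [mul_smul, pp.inv', pp.inv' j a, e _ (hX _ (inv_mem hj) u hu)]⟩
  have k2 : ∀ j ∈ L, ∀ u, φ (j • u) = φ u := fun j hj u => (Finset.sum_equiv (MulAction.toPerm j)
    (fun a => ⟨k0 j hj a, fun k => by simpa using k0 _ (inv_mem hj) _ k⟩)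
    fun a _ => by rw [toPerm_apply, ← smul_neg, pp.inv]).symm
  have k4 : ∀ u, u ∉ X → φ u = 0 := fun u hu => by
    obtain ⟨t, ht, k⟩ := pp.flip.sep hu
    simpa [φ] using H3.R3.trick hχ (-p.flip u) (O := O) (t := t) (by simpa using k) fun c a ha => by
      obtain ⟨i, hi, e⟩ := (mO a).1 ha
      exact (mO _).2 ⟨i, hi, fun w hw => by simpa [e w hw] using Or.inr (mem_an.1 ht w hw)⟩
  have k3 : ∑ u, φ u * χ (p a₁ u) = ∑ u, φ u * χ (p a₂ u) := by
    rw [← Finset.sum_fiberwise _ (Quotient.mk (orbitRel L W)), ← Finset.sum_fiberwise _ (Quotient.mk (orbitRel L W))]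
    refine Finset.sum_congr rfl fun q _ => ?_
    obtain ⟨b, rfl⟩ := q.exists_rep
    have m : ∀ u, u ∈ Finset.univ.filter (fun u => Quotient.mk (orbitRel L W) u = Quotient.mk _ b) ↔
        ∃ j ∈ L, j • b = u := fun u => by simpa using qeq
    generalize Finset.univ.filter (fun u => Quotient.mk (orbitRel L W) u = Quotient.mk _ b) = S at m
    have k : ∀ a, ∑ u ∈ S, φ u * χ (p a u) = φ b * ∑ u ∈ S, χ (p a u) := fun a => by
      rw [Finset.mul_sum]
      exact Finset.sum_congr rfl fun u hu => by obtain ⟨j, hj, rfl⟩ := (m u).1 hu; rw [k2 j hj]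
    rw [k, k]
    by_cases hb : b ∈ X
    · rw [h χ hχ b hb S m]
    · simp [k4 b hb]
  rw [k1, k1, if_pos ((mO _).2 ⟨1, one_mem L, by simp⟩)] at k3
  by_contra n
  rw [if_neg (mt (mO _).1 n)] at k3
  exact Fintype.card_ne_zero (Nat.cast_eq_zero.1 k3)

/-- `L` transitive on `X ∖ Y`: vectors killing `Y` and not `X` are conjugate modulo the annihilator of `X` -/
theorem fl2 (L : Subgroup G) {X Y : Submodule F W} (hX : ∀ j ∈ L, ∀ u ∈ X, j • u ∈ X) (hY : ∀ j ∈ L, ∀ u ∈ Y, j • u ∈ Y)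
    (tr : ∀ u ∈ X, ∀ u' ∈ X, u ∉ Y → u' ∉ Y → ∃ j ∈ L, j • u = u') {a₁ a₂ : V} (h1 : a₁ ∈ an p.flip Y)
    (h2 : a₂ ∈ an p.flip Y) (n1 : a₁ ∉ an p.flip X) (n2 : a₂ ∉ an p.flip X) :
    ∃ j ∈ L, j • a₁ - a₂ ∈ an p.flip X := by
  classical
  have := Fintype.ofFinite W
  refine (pp.FL2 L X hX (a₁ := a₁) (a₂ := a₂) fun χ hχ b hb O m => ?_).imp fun j k => ⟨k.1, mem_an.2 fun u hu => by simp [k.2 u hu]⟩
  by_cases k : b ∈ Y
  · exact Finset.sum_congr rfl fun u hu => by
      obtain ⟨j, hj, rfl⟩ := (m u).1 hu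
      exact congrArg χ ((mem_an.1 h1 _ (hY j hj b k)).trans (mem_an.1 h2 _ (hY j hj b k)).symm)
  have e : O = (Finset.univ.filter (· ∈ X)).filter (· ∉ Y) := Finset.ext fun u => (m u).trans (by
    simp only [Finset.mem_filter, Finset.mem_univ, true_and]
    exact ⟨fun ⟨j, hj, e⟩ => e ▸ ⟨hX j hj b hb, fun l => k (by simpa using hY _ (inv_mem hj) _ l)⟩,
      fun l => tr b hb u l.1 k l.2⟩)
  have key : ∀ a ∈ an p.flip Y, a ∉ an p.flip X → ∑ u ∈ O, χ (p a u) =
      -∑ _u ∈ (Finset.univ.filter (· ∈ X)).filter (· ∈ Y), (1 : ℂ) := fun a ha na => by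
    obtain ⟨t, ht, k⟩ : ∃ t ∈ X, p a t ≠ 0 := by simpa [mem_an] using na
    rw [eq_neg_iff_add_eq_zero, ← H3.R3.trick hχ (p a) (O := Finset.univ.filter (· ∈ X)) k fun c u hu => by
      simpa using add_mem (by simpa using hu) (X.smul_mem c ht), e, add_comm,
      ← Finset.sum_filter_add_sum_filter_not (Finset.univ.filter (· ∈ X)) (· ∈ Y) fun u => χ (p a u)]
    congr 1
    exact Finset.sum_congr rfl fun u hu => by rw [show p a u = 0 from mem_an.1 ha u (by simpa using (Finset.mem_filter.1 hu).2)]; simp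
  rw [key _ h1 n1, key _ h2 n2]

/-- `L` transitive off `Y`: nonzero vectors killing `Y` are conjugate -/
theorem fl (L : Subgroup G) {Y : Submodule F W} (hY : ∀ j ∈ L, ∀ u ∈ Y, j • u ∈ Y)
    (tr : ∀ u u', u ∉ Y → u' ∉ Y → ∃ j ∈ L, j • u = u') {a₁ a₂ : V} (h1 : a₁ ∈ an p.flip Y)
    (h2 : a₂ ∈ an p.flip Y) (n1 : a₁ ≠ 0) (n2 : a₂ ≠ 0) : ∃ j ∈ L, j • a₁ = a₂ := by
  have k : ∀ a, a ∈ an p.flip ⊤ → a = 0 := fun a h => by_contra fun n =>
    let ⟨f, k⟩ := pp.l a n; k (mem_an.1 h f trivial)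
  exact (pp.fl2 L (X := ⊤) (fun _ _ _ _ => trivial) hY (fun u _ u' _ => tr u u') h1 h2 (mt (k _) n1) (mt (k _) n2)).imp
    fun j h => ⟨h.1, sub_eq_zero.1 (k _ h.2)⟩
end PP
end pair

end H13.SG
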