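import Cfsg.Agent.H13.SG1

/-! S5636: the two-sided count (chunk CK2). -/

set_option autoImplicit false
set_option linter.unusedSectionVars false

open Module MulAction H13.R3

namespace H13.SG

universe u

theorem arith {q b c e s t a : ℕ} (hq : 2 ≤ q) (hb : 2 ≤ b) (hs : 1 ≤ s) (he : 1 ≤ e) (hc : 1 ≤ c)
    (hn : b + t + s = c + 1 + a)
    (h : (q ^ (b + 1) - q) * (q ^ (t + s) - q ^ t) = (q ^ (a + c) - q ^ a) * (q ^ (e + 1) - q)) : t = a ∧ b = c := by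
  have pw : ∀ k, 1 ≤ q ^ k := fun k => Nat.one_le_pow _ _ (by omega)
  have k : ∀ k l, q ^ (k + l) - q ^ k = q ^ k * (q ^ l - 1) := fun k l => by rw [Nat.mul_sub_one, pow_add]
  have k' : ∀ l, q ^ (l + 1) - q = q * (q ^ l - 1) := fun l => by rw [Nat.mul_sub_one, pow_succ']
  have co : ∀ l, 1 ≤ l → Nat.Coprime q (q ^ l - 1) := fun l hl =>
    ((Nat.coprime_self_sub_right (pw l)).2 (Nat.coprime_one_right _)).coprime_dvd_left (dvd_pow_self q (by omega))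
  rw [k, k, k', k'] at h
  have h1 : q ^ t * ((q ^ b - 1) * (q ^ s - 1)) = q ^ a * ((q ^ c - 1) * (q ^ e - 1)) :=
    Nat.eq_of_mul_eq_mul_left (show 0 < q by omega) (by linarith)
  have e1 : t = a := by
    have d1 : q ^ t ∣ q ^ a := (Nat.Coprime.pow_left t ((co c hc).mul_right (co e he))).dvd_of_dvd_mul_right (h1 ▸ dvd_mul_right _ _)
    have d2 : q ^ a ∣ q ^ t := (Nat.Coprime.pow_left a ((co b (by omega)).mul_right (co s hs))).dvd_of_dvd_mul_right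
      (h1 ▸ dvd_mul_right _ _)
    exact Nat.pow_right_injective hq (Nat.dvd_antisymm d1 d2)
  subst e1
  refine ⟨rfl, by_contra fun n => ?_⟩
  have h2 := Nat.eq_of_mul_eq_mul_left (pw t) h1
  obtain ⟨b, rfl⟩ : ∃ b', b = b' + 2 := ⟨b - 2, by omega⟩
  obtain ⟨s, rfl⟩ : ∃ s', s = s' + 2 := ⟨s - 2, by omega⟩
  obtain rfl : c = b + s + 3 := by omega
  obtain ⟨e, rfl⟩ : ∃ e', e = e' + 1 := ⟨e - 1, by omega⟩
  zify [pw] at h2
  have q0 : (2 : ℤ) ≤ q := by exact_mod_cast hq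
  have p1 : ∀ k, (1 : ℤ) ≤ (q : ℤ) ^ k := fun k => by exact_mod_cast pw k
  rcases e with _ | e
  · have : (q : ℤ) * (q * (q ^ (b + s + 1) - q ^ b - q ^ s) + 1) = 0 := by linear_combination h2
    have d : (q : ℤ) ∣ 1 := ⟨-(q ^ (b + s + 1) - q ^ b - q ^ s), by
      linear_combination (mul_eq_zero.1 this).resolve_left (by omega)⟩
    have := Int.le_of_dvd one_pos d
    omega
  · have l0 : ∀ k, (q : ℤ) + 2 ≤ q ^ (k + 1 + 1) := fun k => by
      rw [pow_succ, pow_succ, mul_assoc]; nlinarith [p1 k, mul_le_mul_of_nonneg_right (p1 k) (mul_self_nonneg (q : ℤ))]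
    have l1 : (q : ℤ) + 1 ≤ q ^ (e + 1 + 1) - 1 := by linarith [l0 e]
    have l2 := mul_le_mul_of_nonneg_left l1 (sub_nonneg.2 (p1 (b + s + 3)))
    have l3 : (q : ℤ) + 2 ≤ q ^ (b + s + 3) := l0 _
    have l4 : (q : ℤ) ^ (b + 2) * q ^ (s + 2) = q ^ (b + s + 3) * q := by ring
    nlinarith [p1 (b + 2), p1 (s + 2)]

variable {F : Type u} [Field F] [Fintype F] {V W : Type u} [AddCommGroup V] [Module F V] [Finite V] [AddCommGroup W]
  [Module F W] [Finite W] {G : Type u} [Group G] [Finite G] [DistribMulAction G V] [SMulCommClass G F V]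
  [DistribMulAction G W] [SMulCommClass G F W] {p : V →ₗ[F] W →ₗ[F] F} {J : Subgroup G}
  {M : V → V → Submodule F V} {U : V → W → Submodule F V} {b : ℕ}
  {M' : W → W → Submodule F W} {U' : W → V → Submodule F W} {c : ℕ} {x y u : V} {f h : W} {j : G}

theorem dim_le {A B : Submodule F V} (j : G) (h : ∀ u ∈ A, j • u ∈ B) : finrank F A ≤ finrank F B :=
  ((lin F V j).finrank_map_eq A).symm.trans_le (Submodule.finrank_mono (by rintro _ ⟨u, hu, rfl⟩; exact h u hu))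

theorem mem_an_sp' : u ∈ an p.flip (F ∙ f) ↔ p u f = 0 := mem_an_sp
theorem mem_an' {S : Submodule F W} : u ∈ an p.flip S ↔ ∀ f ∈ S, p u f = 0 := mem_an

theorem inv_sp (h : j • x ∈ F ∙ x) : j⁻¹ • x ∈ F ∙ x :=
  ((inv_mem (mem_St_sp h)) x).2 (Submodule.mem_span_singleton_self x)

namespace OS
variable (os : OS J p M U b)
include os

theorem eM' (hj : j ∈ J) (i : Ind F x y) (h : j • u ∈ M (j • x) (j • y)) : u ∈ M x y := by
  simpa using os.eM _ (inv_mem hj) _ _ _ (i.smul j) h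

theorem b3 (n : 2 ≤ finrank F V) (pd : PDh F V J) : 3 ≤ b := by
  by_contra hb
  obtain ⟨x, -, x0⟩ := ex_ne0 (A := (⊤ : Submodule F V)) (by rw [finrank_top]; omega)
  obtain ⟨y, hy⟩ := ex_notMem' (A := F ∙ x) (by rw [finrank_span_singleton x0]; omega)
  obtain ⟨z, hz⟩ := ex_notMem' (A := M x y) (by have := os.dM x y ⟨x0, hy⟩; have := os.b1; omega)
  refine pd (fun x y z => Ind F x y ∧ z ∉ M x y) ⟨fun x y z k => ⟨k.1.symm, os.cM _ _ _ _ k.1 k.1.symm (ln_comm x y) ▸ k.2⟩,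
    fun x y z k => ?_, fun x y => ?_⟩ (fun j hj x y z k => ⟨k.1.smul j, mt (os.eM' hj k.1) k.2⟩) x y z ⟨⟨x0, hy⟩, hz⟩
  · have i : Ind F x z := ⟨k.1.1, fun e => k.2 (os.lM _ _ k.1 (sp_le_ln e))⟩
    exact ⟨i, mt (os.sM _ _ _ i k.1) k.2⟩
  · by_cases i : Ind F x y
    · exact ⟨M x y, by have := os.dM x y i; omega, fun z => and_iff_right i⟩
    · exact ⟨⊤, by simp, fun z => by simp [i]⟩

variable (x0 : x ≠ 0) (f0 : f ≠ 0) (k : p x f = 0)
include x0 f0 k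

theorem self_U : x ∈ U x f := (os.mU _ _ _ x0 f0 k).2 (Or.inl (Submodule.mem_span_singleton_self x))
theorem kill (hy : y ∈ U x f) (n : y ∉ F ∙ x) (hu : u ∈ M x y) : p u f = 0 :=
  ((os.mU _ _ _ x0 f0 k).1 hy).resolve_left n u hu
theorem U_ker (hy : y ∈ U x f) : p y f = 0 := by
  by_cases n : y ∈ F ∙ x
  · exact mem_an.1 (mem_an_sp.2 k) y n
  · exact os.kill x0 f0 k hy n (os.lM _ _ ⟨x0, n⟩ r_ln)
theorem ex_U : ∃ y ∈ U x f, y ∉ F ∙ x :=
  ex_notMem (by rw [finrank_span_singleton x0, os.dU _ _ x0 f0 k]; have := os.b1; omega)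

theorem eU (pp : PP G p) (hj : j ∈ J) (hy : y ∈ U x f) : j • y ∈ U (j • x) (j • f) := by
  refine (os.mU _ _ _ (mt gsz.1 x0) (mt gsz.1 f0) (by rw [pp.inv, k])).2 (or_iff_not_imp_left.2 fun n u hu => ?_)
  have n' := mt (smul_mem_sp j) n
  rw [← smul_inv_smul j u] at hu ⊢
  rw [pp.inv]
  exact os.kill x0 f0 k hy n' (os.eM' hj ⟨x0, n'⟩ hu)

theorem M_eq {y' : V} (n : y ∉ F ∙ x) (h1 : j • x ∈ F ∙ x) (h2 : j • y ∈ ln F x y') (n' : y' ∉ F ∙ x) :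
    M (j • x) (j • y) = M x y' :=
  os.cM _ _ _ _ (Ind.smul ⟨x0, n⟩ j) ⟨x0, n'⟩ (ln_eq (Ind.smul ⟨x0, n⟩ j) (sp_le_ln h1) h2)

theorem st (pp : PP G p) (hj : j ∈ J) (h1 : j • x ∈ F ∙ x) (h2 : j • f ∈ F ∙ f) (hy : y ∈ U x f) : j • y ∈ U x f := by
  refine (os.mU _ _ _ x0 f0 k).2 (or_iff_not_imp_left.2 fun n u hu => ?_)
  have n' : y ∉ F ∙ x := fun e => n ((mem_St_sp h1 y).2 e)
  rw [← os.M_eq x0 f0 k n' h1 r_ln n, ← smul_inv_smul j u] at hu
  have := os.kill x0 f0 k hy n' (os.eM' hj ⟨x0, n'⟩ hu)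
  rw [pp.inv', inv_inv] at this
  obtain ⟨a, e⟩ := Submodule.mem_span_singleton.1 h2
  have a0 : a ≠ 0 := by rintro rfl; exact f0 (gsz.1 (e.symm.trans (zero_smul _ _)))
  simpa [← e, a0] using this

variable (os' : OS J p.flip M' U' c) (pp : PP G p)
include os' pp

theorem ut (hb : b + 2 ≠ finrank F V) (hy : y ∈ U x f) (hh : h ∈ U' f x) : p y h = 0 := by
  by_contra n
  have k1 : ∀ u, p u f = 0 → (∃ h ∈ U' f x, p u h ≠ 0) → u ∈ U x f := fun u h1 h2 => by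
    obtain ⟨j, hj, e1, e2, rfl⟩ := os'.tA f x y u f0 x0 k (os.U_ker x0 f0 k hy) h1 ⟨h, hh, n⟩ h2
    exact os.st x0 f0 k pp hj e2 e1 hy
  have k2 : an p.flip (F ∙ f) ≤ U x f := fun u hu => by
    have hu' : p u f = 0 := mem_an_sp'.1 hu
    by_cases e : p u h = 0
    · exact (add_mem_cancel_right hy).1 (k1 _ (by simp [hu', os.U_ker x0 f0 k hy]) ⟨h, hh, by simpa [e]⟩)
    · exact k1 u hu' ⟨h, hh, e⟩
  obtain ⟨z, -, hz⟩ := os.ex_U x0 f0 k
  have := Submodule.finrank_mono k2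
  have := Submodule.finrank_mono (os.lM _ _ ⟨x0, hz⟩)
  have := pp.flip.finrank_an (F ∙ f)
  rw [finrank_span_singleton f0] at this
  have := os.dU _ _ x0 f0 k
  have := os.dM _ _ ⟨x0, hz⟩
  have := Ind.finrank ⟨x0, hz⟩
  have := pp.dim
  omega

theorem cnt (hb : 2 ≤ b) : c < b ∨ (b = c ∧ (∀ y ∈ U x f, y ∉ F ∙ x → an p.flip (U' f x) ≤ M x y) ∧
    ∀ u, p u f = 0 → u ∉ an p.flip (U' f x) → ∃ y ∈ U x f, y ∉ F ∙ x ∧ u ∈ M x y) := by
  have dT := pp.flip.finrank_an (U' f x)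
  have dK := pp.flip.finrank_an (F ∙ f)
  have TK : an p.flip (U' f x) ≤ an p.flip (F ∙ f) :=
    an_anti ((Submodule.span_singleton_le_iff_mem _ _).2 (os'.self_U f0 x0 k))
  have xT : x ∈ an p.flip (U' f x) := mem_an.2 fun h hh => os'.U_ker f0 x0 k hh
  have sT : ∀ j ∈ J, j • x ∈ F ∙ x → j • f ∈ F ∙ f → ∀ u ∈ an p.flip (U' f x), j • u ∈ an p.flip (U' f x) :=
    fun j hj h1 h2 u hu => mem_an.2 fun h hh => (pp.inv' j u h).trans
      (mem_an.1 hu _ (os'.st f0 x0 k pp.flip (inv_mem hj) (inv_sp h2) (inv_sp h1) hh))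
  have tr : ∀ u u', p u f = 0 → p u' f = 0 → u ∉ an p.flip (U' f x) → u' ∉ an p.flip (U' f x) →
      ∃ j ∈ J, j • f ∈ F ∙ f ∧ j • x ∈ F ∙ x ∧ j • u = u' := fun u u' h1 h2 h3 h4 =>
    os'.tA f x u u' f0 x0 k h1 h2 (by simpa [mem_an] using h3) (by simpa [mem_an] using h4)
  rw [finrank_span_singleton f0, pp.dim] at dK
  rw [os'.dU _ _ f0 x0 k, pp.dim] at dT
  generalize an p.flip (U' f x) = T at *
  have nx : ∀ u, u ∉ T → u ∉ F ∙ x := fun u n e => n ((Submodule.span_singleton_le_iff_mem _ _).2 xT e)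
  have c1 := os'.b1
  obtain ⟨y0, hy0, n0⟩ := os.ex_U x0 f0 k
  obtain ⟨u0, hu0, m0⟩ := ex_notMem (A := T) (B := an p.flip (F ∙ f)) (by omega)
  have t1 : ∀ y ∈ U x f, ∀ y' ∈ U x f, y ∉ F ∙ x → y' ∉ F ∙ x →
      finrank F (M x y ⊓ T : Submodule F V) ≤ finrank F (M x y' ⊓ T : Submodule F V) := fun y hy y' hy' n n' => by
    obtain ⟨j, hj, e1, e2, e3⟩ := os.tU x f y y' x0 f0 k hy hy' n n'
    exact dim_le j fun u hu => ⟨os.M_eq x0 f0 k n e1 e3 n' ▸ os.eM j hj _ _ _ ⟨x0, n⟩ hu.1, sT j hj e1 e2 u hu.2⟩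
  have t2 : ∀ u u', p u f = 0 → p u' f = 0 → u ∉ T → u' ∉ T →
      finrank F (U x f ⊓ M x u : Submodule F V) ≤ finrank F (U x f ⊓ M x u' : Submodule F V) := fun u u' h1 h2 h3 h4 => by
    obtain ⟨j, hj, e1, e2, rfl⟩ := tr u u' h1 h2 h3 h4
    exact dim_le j fun y hy => ⟨os.st x0 f0 k pp hj e2 e1 hy.1,
      os.M_eq x0 f0 k (nx u h3) e2 r_ln (nx _ h4) ▸ os.eM j hj _ _ _ ⟨x0, nx u h3⟩ hy.2⟩
  have xU : ∀ u, u ∉ T → x ∈ U x f ⊓ M x u := fun u n => ⟨os.self_U x0 f0 k, os.lM _ _ ⟨x0, nx u n⟩ l_ln⟩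
  have d0 := os.dM _ _ ⟨x0, n0⟩
  have dc := dcount {y | y ∈ U x f ∧ y ∉ F ∙ x} {u | u ∈ an p.flip (F ∙ f) ∧ u ∉ T} (fun y u => u ∈ M x y)
    (m := Fintype.card F ^ finrank F (M x y0) - Fintype.card F ^ finrank F (M x y0 ⊓ T : Submodule F V))
    (n := Fintype.card F ^ finrank F (U x f ⊓ M x u0 : Submodule F V) - Fintype.card F) (fun y hy => by
      rw [le_antisymm (t1 _ hy0 _ hy.1 n0 hy.2) (t1 _ hy.1 _ hy0 hy.2 n0), show finrank F (M x y0) = finrank F (M x y) by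
        have := os.dM _ _ ⟨x0, hy.2⟩; omega, ← ncard_diff inf_le_left]
      congr 1; ext u
      exact ⟨fun l => ⟨l.2, fun e => l.1.2 e.2⟩, fun l => ⟨⟨mem_an_sp'.2 (os.kill x0 f0 k hy.1 hy.2 l.1),
        fun e => l.2 ⟨l.1, e⟩⟩, l.1⟩⟩) fun u hu => by
      rw [le_antisymm (t2 _ _ (mem_an_sp'.1 hu0) (mem_an_sp'.1 hu.1) m0 hu.2) (t2 _ _ (mem_an_sp'.1 hu.1) (mem_an_sp'.1 hu0) hu.2 m0),
        ← ncard_off x0 (xU u hu.2)]
      congr 1; ext y
      exact ⟨fun l => ⟨⟨l.1.1, os.sM _ _ _ ⟨x0, l.1.2⟩ ⟨x0, nx u hu.2⟩ l.2⟩, l.1.2⟩,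
        fun l => ⟨⟨l.1.1, l.2⟩, os.sM _ _ _ ⟨x0, nx u hu.2⟩ ⟨x0, l.2⟩ l.1.2⟩⟩
  rw [ncard_off x0 (os.self_U x0 f0 k), ncard_diff TK, os.dU _ _ x0 f0 k] at dc
  have l1 := Submodule.finrank_mono (inf_le_left (a := M x y0) (b := T))
  have l2 := Submodule.finrank_mono (inf_le_right (a := M x y0) (b := T))
  have l3 := Submodule.finrank_mono ((Submodule.span_singleton_le_iff_mem _ _).2 (xU u0 m0))
  rw [finrank_span_singleton x0] at l3
  refine or_iff_not_imp_left.2 fun n => ?_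
  have q := q2 F
  obtain ⟨s, hs⟩ := Nat.exists_eq_add_of_le l1
  obtain ⟨e, he⟩ := Nat.exists_eq_add_of_le' l3
  rw [hs, he, show finrank F (an p.flip (F ∙ f)) = finrank F T + c by omega] at dc
  have e1 : 1 ≤ e := Nat.pos_of_ne_zero fun e0 => by
    rw [e0, zero_add, pow_one, Nat.sub_self, mul_zero, mul_eq_zero, Nat.sub_eq_zero_iff_le, Nat.sub_eq_zero_iff_le,
      Nat.pow_le_pow_iff_right q] at dc
    have := Nat.pow_lt_pow_right q (show 1 < b + 1 by omega)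
    rw [pow_one] at this
    omega
  obtain ⟨e2, e3⟩ := arith q hb (by omega) e1 c1 (by omega) dc
  refine ⟨e3, fun y hy ny => inf_eq_right.1 (Submodule.eq_of_le_of_finrank_le inf_le_right
    (e2.symm.trans_le (t1 _ hy0 _ hy n0 ny))), fun u h1 h2 => ?_⟩
  obtain ⟨y, hy, ny⟩ := ex_notMem (A := F ∙ x) (B := U x f ⊓ M x u) (by
    have := t2 _ _ (mem_an_sp'.1 hu0) h1 m0 h2
    rw [finrank_span_singleton x0]; omega)
  exact ⟨y, hy.1, ny, os.sM _ _ _ ⟨x0, nx u h2⟩ ⟨x0, ny⟩ hy.2⟩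
end OS

theorem ck2 : CK2.{u} := by
  intro F V W G _ _ _ _ _ _ _ _ _ _ _ _ _ _ J p M U b M' U' c pp n3 sc two os os' pd pd' x y u u' i hu hu'
  have dW := pp.dim
  have b3 := os.b3 (by omega) pd
  have c3 := os'.b3 (by omega) pd'
  by_cases hb : b + 2 = finrank F V
  · have e : ln F x y = M x y := Submodule.eq_of_le_of_finrank_eq (os.lM _ _ i) (by
      have := os.dM _ _ i; have := i.finrank; omega)
    exact os.tM x y u u' i (e ▸ hu) (e ▸ hu')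
  exfalso
  obtain ⟨f, hf, f0⟩ := ex_ne0 (A := an p (F ∙ x)) (by
    have := pp.finrank_an (F ∙ x); rw [finrank_span_singleton i.1] at this; omega)
  have k := mem_an_sp.1 hf
  have bc : b = c := by
    rcases os.cnt i.1 f0 k os' pp (by omega) with h | h
    · exact ((os'.cnt f0 i.1 k os pp.flip (by omega)).resolve_left h.not_gt).1.symm
    · exact h.1
  subst bc
  have F1 : ∀ x f h, x ≠ 0 → f ≠ 0 → p x f = 0 → h ∈ U' f x → h ∉ F ∙ f → an p.flip (M' f h) ≤ U x f :=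
    fun x f h x0 f0 k hh n => pp.an_an (U x f) ▸
      an_anti (((os'.cnt f0 x0 k os pp.flip (by omega)).resolve_left (lt_irrefl _)).2.1 h hh n)
  have Z : ∀ x f h, x ≠ 0 → f ≠ 0 → h ∉ F ∙ f → x ∈ an p.flip (M' f h) → p x f = 0 ∧ h ∈ U' f x := fun x f h x0 f0 n hx =>
    have k := mem_an.1 hx f (os'.lM _ _ ⟨f0, n⟩ l_ln)
    ⟨k, (os'.mU _ _ _ f0 x0 k).2 (Or.inr (mem_an.1 hx))⟩
  have cl : ∀ x f x', x ≠ 0 → f ≠ 0 → p x f = 0 → x' ∈ U x f → x' ≠ 0 → U x' f ≤ U x f := fun x f x' x0 f0 k h1 n => by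
    refine (Submodule.eq_of_le_of_finrank_eq (fun z hz => ?_) (by
      rw [os.dU _ _ x0 f0 k, os.dU _ _ n f0 (os.U_ker x0 f0 k h1)])).ge
    obtain ⟨χ, h2, h3⟩ := ex_notMem (A := an p (U x f)) (B := an p (pl F x x' z)) (by
      have := pp.finrank_an (U x f); have := pp.finrank_an (pl F x x' z); have := os.dU _ _ x0 f0 k
      have : finrank F (pl F x x' z) ≤ 3 := by
        have := Submodule.finrank_add_le_finrank_add_finrank (ln F x x') (F ∙ z)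
        have := finrank_ln_le (F := F) x x'
        have := (finrank_span_le_card (R := F) ({z} : Set V)).trans_eq (by simp : _ = 1)
        rw [pl_eq_sup]; omega
      omega)
    obtain ⟨h, hh, nh, e⟩ := ((os'.cnt f0 x0 k os pp.flip (by omega)).resolve_left (lt_irrefl _)).2.2 χ
      (mem_an.1 h2 x p1_pl) h3
    have e1 : an p.flip (M' f h) = U x f ⊓ an p.flip (F ∙ χ) := Submodule.eq_of_le_of_finrank_le
      (le_inf (F1 _ _ _ x0 f0 k hh nh) (an_anti ((Submodule.span_singleton_le_iff_mem _ _).2 e))) (by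
        have := Submodule.finrank_lt_finrank_of_lt (s := U x f ⊓ an p.flip (F ∙ χ)) (t := U x f) (lt_of_le_of_ne inf_le_left
          fun e => h3 (mem_an.2 fun u hu => mem_an_sp'.1 (e.ge hu).2))
        have := pp.flip.finrank_an (M' f h); have := os.dU _ _ x0 f0 k; have := os'.dM _ _ ⟨f0, nh⟩
        omega)
    obtain ⟨k', h4⟩ := Z x' f h n f0 nh (e1 ▸ ⟨h1, mem_an_sp'.2 (mem_an.1 h2 _ p2_pl)⟩)
    exact F1 _ _ _ n f0 k' h4 nh (e1 ▸ ⟨hz, mem_an_sp'.2 (mem_an.1 h2 _ p3_pl)⟩)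
  obtain ⟨z, hz, nz⟩ := os.ex_U i.1 f0 k
  have fin : U' f x ≤ an p (M x z) := fun h hh => by
    by_cases n : h ∈ F ∙ f
    · exact (Submodule.span_singleton_le_iff_mem _ _).2 (mem_an.2 fun u => os.kill i.1 f0 k hz nz) n
    have ih : Ind F f h := ⟨f0, n⟩
    have xZ : x ∈ an p.flip (M' f h) := mem_an.2 fun u => os'.kill f0 i.1 k hh n
    obtain ⟨k', h1⟩ := Z x h f i.1 ih.ne0 ih.symm.2 (os'.cM _ _ _ _ ih ih.symm (ln_comm f h) ▸ xZ)
    refine mem_an.2 fun u => os.kill i.1 ih.ne0 k' (pp.le_of_an (fun χ hχ => mem_an.2 fun w hw => ?_) hz) nz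
    by_cases l : χ ∈ ln F f h
    · obtain ⟨s, t, rfl⟩ := mem_ln.1 l
      simp [os.U_ker i.1 f0 k hw, os.ut i.1 f0 k os' pp hb hw hh]
    have i1 : Ind F f (h - f) := ⟨f0, fun e => n (by simpa using add_mem e (Submodule.mem_span_singleton_self f))⟩
    have e0 : ln F (h - f) f = ln F f h := ln_eq i1.symm (sub_mem r_ln l_ln) l_ln
    have i2 : Ind F (h - f) χ := ⟨i1.ne0, fun e => l (e0 ▸ sp_le_ln e)⟩
    obtain ⟨j, hj, e1, e2, e3⟩ := H3.R3.m1 F W G J sc two (h - f) χ f (h - f)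
      ⟨i2, fun e => l (e0 ▸ ln_eq i1.symm l_ln e ▸ r_ln)⟩ l_ln
    rw [add_sub_cancel] at e3
    have e4 : M' (j • f) (j • h) = M' f h := os'.cM _ _ _ _ (ih.smul j) ih (ln_eq (ih.smul j) (e3 ▸ r_ln) (by
      rw [← sub_add_cancel h f, smul_add, e1, e3, sub_add_cancel]; exact add_mem (sub_mem r_ln l_ln) r_ln))
    have e5 : j • x ∈ an p.flip (M' h f) := mem_an.2 fun v hv => by
      rw [← os'.cM _ _ _ _ ih ih.symm (ln_comm f h), ← e4, ← smul_inv_smul j v] at hv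
      exact (pp.inv' j x v).trans (mem_an.1 xZ _ (os'.eM' hj ih hv))
    rw [← pp.inv j, e2]
    exact mem_an.1 hχ _ (cl _ _ _ i.1 ih.ne0 k' (F1 _ _ _ i.1 ih.ne0 k' h1 ih.symm.2 e5) (mt gsz.1 i.1)
      (e3 ▸ os.eU i.1 f0 k pp hj hw))
  have := Submodule.finrank_mono fin
  have := pp.finrank_an (M x z)
  have := os.dM _ _ ⟨i.1, nz⟩
  have := os'.dU _ _ f0 i.1 k
  omega

end H13.SG
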