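import Cfsg.Agent.H13.SG2
import Cfsg.Agent.H23.R31

/-! S5636: the one-sided structure (chunk CK1). -/

set_option autoImplicit false
set_option linter.unusedSectionVars false

open Module MulAction H13.R3

namespace H13.SG

universe u

variable {F : Type u} [Field F] [Fintype F] {V W : Type u} [AddCommGroup V] [Module F V] [Finite V] [AddCommGroup W]
  [Module F W] [Finite W] {G : Type u} [Group G] [Finite G] [DistribMulAction G V] [SMulCommClass G F V]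
  [DistribMulAction G W] [SMulCommClass G F W] {J : Subgroup G} {p : V →ₗ[F] W →ₗ[F] F}
  {x y u u' x' y' : V} {f f' h h' : W} {j : G}

theorem sp_st (h : j ∈ St G (F ∙ x)) : j • x ∈ F ∙ x := (h x).2 (Submodule.mem_span_singleton_self x)
theorem sp_c (x0 : x ≠ 0) (h : j • x ∈ F ∙ y) : ∃ c : F, c ≠ 0 ∧ j • x = c • y :=
  let ⟨c, e⟩ := Submodule.mem_span_singleton.1 h; ⟨c, H3.R3.c_ne x0 e.symm, e.symm⟩
theorem two_ne {A : Type*} [AddCommGroup A] {φ ψ : A →+ F} {a b : A} (X : AddSubgroup A) (ha : a ∈ X) (hb : b ∈ X)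
    (h1 : φ a ≠ 0) (h2 : ψ b ≠ 0) : ∃ c ∈ X, φ c ≠ 0 ∧ ψ c ≠ 0 := by
  by_cases k1 : ψ a = 0
  · by_cases k2 : φ b = 0
    · exact ⟨a + b, add_mem ha hb, by simpa [k2], by simpa [k1]⟩
    · exact ⟨b, hb, k2, h2⟩
  · exact ⟨a, ha, h1, k1⟩

theorem PP.fl3 (pp : PP G p) (L : Subgroup G) {Y : Submodule F W} (hY : ∀ j ∈ L, ∀ u ∈ Y, j • u ∈ Y)
    (tr : ∀ u u', u ∉ Y → u' ∉ Y → ∃ j ∈ L, j • u = u') {a₁ a₂ : V} (h1 : ∀ u ∈ Y, p a₁ u = p a₂ u)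
    (n1 : a₁ ≠ 0) (n2 : a₂ ≠ 0) : ∃ j ∈ L, j • a₁ = a₂ := by
  classical
  have := Fintype.ofFinite W
  refine (pp.FL2 L ⊤ (fun _ _ _ _ => trivial) (a₁ := a₁) (a₂ := a₂) fun χ hχ b _ O m => ?_).imp
    fun j k => ⟨k.1, pp.inj (LinearMap.ext fun u => k.2 u trivial)⟩
  by_cases k : b ∈ Y
  · exact Finset.sum_congr rfl fun u hu => by obtain ⟨j, hj, rfl⟩ := (m u).1 hu; rw [h1 _ (hY j hj b k)]
  have e : O = Finset.univ.filter (· ∉ Y) := Finset.ext fun u => (m u).trans (by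
    simp only [Finset.mem_filter, Finset.mem_univ, true_and]
    exact ⟨fun ⟨j, hj, e⟩ => e ▸ fun l => k (by simpa using hY _ (inv_mem hj) _ l), tr b u k⟩)
  have key : ∀ a, a ≠ 0 → ∑ u ∈ O, χ (p a u) = -∑ u ∈ Finset.univ.filter (· ∈ Y), χ (p a u) := fun a na => by
    obtain ⟨t, k⟩ := pp.l a na
    rw [eq_neg_iff_add_eq_zero, e, add_comm, Finset.sum_filter_add_sum_filter_not]
    exact H3.R3.trick hχ (p a) k fun c u hu => by simp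
  rw [key _ n1, key _ n2, Finset.sum_congr rfl fun u hu => by rw [h1 u (Finset.mem_filter.1 hu).2]]

/-- hypotheses of the chunk -/
structure H1 (J : Subgroup G) (p : V →ₗ[F] W →ₗ[F] F) : Prop where
  pp : PP G p
  n3 : 3 ≤ finrank F V
  sc : Sc F V J
  two : Two F V J

variable (F J) in
/-- flag stabilizer -/
def Lx (x y : V) : Subgroup G := J ⊓ St G (F ∙ x) ⊓ St G (ln F x y)
variable (J p) in
def Gd (x y : V) (f : W) : Prop := f ≠ 0 ∧ p x f = 0 ∧ p y f = 0 ∧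
  ∀ u u', p u f ≠ 0 → p u' f ≠ 0 → ∃ j ∈ Lx F J x y, j • u = u'
variable (J p) in
def Mx (x y : V) : Submodule F V := an p.flip (Submodule.span F {f | Gd J p x y f})
variable (J p) in
def Ux (x : V) (f : W) : Submodule F V := Submodule.span F {y | y ∈ F ∙ x ∨ f ∈ an p (Mx J p x y)}

theorem mem_Mx : u ∈ Mx J p x y ↔ ∀ f, Gd J p x y f → p u f = 0 := mem_an'.trans ⟨fun h f k => h f (Submodule.subset_span k),
  fun h _ k => Submodule.span_le.2 (show _ ⊆ (LinearMap.ker (p u) : Set W) from h) k⟩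
theorem ln_Mx : ln F x y ≤ Mx J p x y := ln_le.2 ⟨mem_Mx.2 fun _ k => k.2.1, mem_Mx.2 fun _ k => k.2.2.1⟩

theorem Mx_eq (x0 : x' ≠ 0) (h1 : x' ∈ F ∙ x) (h2 : ln F x' y' = ln F x y) : Mx J p x' y' = Mx J p x y := by
  simp only [Mx, Gd, Lx, sp_eq x0 h1, h2, ← and_assoc (a := p _ _ = 0), ← mem_an_ln]

namespace H1
variable (H : H1 J p)
include H

theorem Gd_smul (hj : j ∈ J) (k : Gd J p x y f) : Gd J p (j • x) (j • y) (j • f) := by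
  refine ⟨mt gsz.1 k.1, by rw [H.pp.inv, k.2.1], by rw [H.pp.inv, k.2.2.1], fun u u' h1 h2 => ?_⟩
  obtain ⟨i, hi, e⟩ := k.2.2.2 (j⁻¹ • u) (j⁻¹ • u') (by rwa [← H.pp.inv j, smul_inv_smul]) (by rwa [← H.pp.inv j, smul_inv_smul])
  refine ⟨j * i * j⁻¹, ⟨⟨J.mul_mem (J.mul_mem hj hi.1.1) (J.inv_mem hj), mem_St_sp ?_⟩, mem_St_ln ?_ ?_⟩, ?_⟩ <;>
    simp only [mul_smul, inv_smul_smul, e, smul_inv_smul]
  exacts [smul_mem_sp j (sp_st hi.1.2), smul_mem_ln j ((hi.2 _).2 l_ln), smul_mem_ln j ((hi.2 _).2 r_ln)]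

theorem eM (hj : j ∈ J) (k : u ∈ Mx J p x y) : j • u ∈ Mx J p (j • x) (j • y) := mem_Mx.2 fun f hf =>
  (H.pp.inv' ..).trans (mem_Mx.1 k _ (by simpa using H.Gd_smul (inv_mem hj) hf))

theorem eM2 (hj : j ∈ J) (i : Ind F x y) (h1 : j • x ∈ F ∙ x') (h2 : j • y ∈ ln F x' y') (k : u ∈ Mx J p x y) :
    j • u ∈ Mx J p x' y' := Mx_eq (J := J) (p := p) (i.smul j).1 h1 (ln_eq (i.smul j) (sp_le_ln h1) h2) ▸ H.eM hj k

theorem eA (hj : j ∈ J) (i : Ind F x y) (h1 : j • x ∈ F ∙ x') (h2 : j • y ∈ ln F x' y') (k : f ∈ an p (Mx J p x y)) :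
    j • f ∈ an p (Mx J p x' y') := mem_an.2 fun u hu => by
  rw [← Mx_eq (i.smul j).1 h1 (ln_eq (i.smul j) (sp_le_ln h1) h2)] at hu
  rw [← smul_inv_smul j u, H.pp.inv]
  exact mem_an.1 k _ (by simpa using H.eM (inv_mem hj) hu)

theorem scW {c : F} (c0 : c ≠ 0) : ∃ z ∈ J, (∀ u : V, z • u = c⁻¹ • u) ∧ ∀ f : W, z • f = c • f :=
  let ⟨z, hz, e⟩ := H.sc c⁻¹ (inv_ne_zero c0)
  ⟨z, hz, e, fun f => H.pp.flip.inj (LinearMap.ext fun v => by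
    have := H.pp.inv z v f
    rw [e] at this
    simpa [inv_mul_eq_iff_eq_mul₀ c0] using this)⟩

theorem tr1 (x0 : x ≠ 0) (u u' : V) (h1 : u ∉ F ∙ x) (h2 : u' ∉ F ∙ x) : ∃ j ∈ J ⊓ St G (F ∙ x), j • u = u' := by
  obtain ⟨j, hj, e, c, e'⟩ := H.two x u x u' ⟨x0, h1⟩ ⟨x0, h2⟩
  have c0 := H3.R3.c_ne (Ind.ne0 ⟨x0, h1⟩) e'
  obtain ⟨z, hz, e''⟩ := H.sc.mem_St (F ∙ x) (inv_ne_zero c0)
  exact ⟨z * j, mul_mem hz ⟨hj, mem_St_sp (e.symm ▸ Submodule.mem_span_singleton_self x)⟩, by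
    rw [mul_smul, e', e'', inv_smul_smul₀ c0]⟩

theorem tr2 (x0 : x ≠ 0) (k : p x f = p x f') (f0 : f ≠ 0) (f1 : f' ≠ 0) : ∃ j ∈ J ⊓ St G (F ∙ x), j • f = f' :=
  H.pp.flip.fl3 _ (fun j hj u hu => (hj.2 u).2 hu) (H.tr1 x0) (fun u hu => by
    obtain ⟨a, rfl⟩ := Submodule.mem_span_singleton.1 hu; simp [k]) f0 f1

theorem pt : PT V J := H.two.pt (by have := H.n3; omega)

theorem tr3 (f0 : f ≠ 0) (n : u ≠ 0) (n' : u' ≠ 0) (k : p u f = 0 ↔ p u' f = 0) : ∃ j ∈ J ⊓ St G (F ∙ f), j • u = u' := by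
  obtain ⟨j, hj, rfl⟩ := H.pt u u' n n'
  obtain ⟨a, a0, e⟩ : ∃ a : F, a ≠ 0 ∧ p u f = a * p (j • u) f := by
    by_cases l : p u f = 0
    · exact ⟨1, one_ne_zero, by rw [l, k.1 l, mul_zero]⟩
    · exact ⟨p u f / p (j • u) f, div_ne_zero l (mt k.2 l), (div_mul_cancel₀ _ (mt k.2 l)).symm⟩
  obtain ⟨i, hi, e'⟩ := H.tr2 n' (f := j • f) (f' := a • f) (by simp [H.pp.inv, e]) (mt gsz.1 f0) (smul_ne_zero a0 f0)
  obtain ⟨c, c0, e''⟩ := sp_c n' (sp_st hi.2)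
  obtain ⟨z, hz, z1, z2⟩ := H.scW c0
  exact ⟨z * (i * j), ⟨mul_mem hz (mul_mem hi.1 hj), mem_St_sp (by
    rw [mul_smul, mul_smul, e', z2, smul_smul]; exact Submodule.smul_mem _ _ (Submodule.mem_span_singleton_self f))⟩, by
    rw [mul_smul, mul_smul, e'', z1, inv_smul_smul₀ c0]⟩

theorem twoW : Two F W J := by
  intro f h f' h' i i'
  obtain ⟨j, hj, rfl⟩ := H.pp.flip.fl3 J (Y := ⊥) (fun j _ u hu => by simp [show u = 0 from hu])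
    (fun u u' => H.pt u u') (a₁ := f) (a₂ := f') (fun u hu => by simp [show u = 0 from hu]) i.1 i'.1
  have i1 := i.smul j
  obtain ⟨t, ht, k⟩ := H.pp.flip.sep i1.2
  obtain ⟨t', ht', k'⟩ := H.pp.flip.sep i'.2
  obtain ⟨l, hl, e⟩ := H3.R3.fourier p.flip H.pp.r H.pp.flip.inv (J ⊓ St G (F ∙ j • f)) (a₁ := j • h) (a₂ := h') fun b b0 => by
    have iv : ∀ l ∈ J ⊓ St G (F ∙ j • f), p (l • b) (j • f) = 0 ↔ p b (j • f) = 0 := fun l hl => by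
      obtain ⟨c, c0, e⟩ := sp_c i'.1 (sp_st (inv_mem hl.2))
      simp [H.pp.inv', e, c0]
    by_cases l : p b (j • f) = 0
    · have c : ∀ t ∈ an p.flip (F ∙ j • f), H3.R3.Cl F (insert 0 {u | ∃ l ∈ J ⊓ St G (F ∙ j • f), l • b = u}) t :=
        fun t ht c u hu => or_iff_not_imp_left.2 fun n => H.tr3 i'.1 b0 n (iff_of_true l (by
          rcases hu with rfl | ⟨l', hl', rfl⟩ <;> simp [mem_an_sp'.1 ht, iv, l, *]))
      exact Or.inr ⟨_, t, t', Or.inr rfl, k, k', c t ht, c t' ht'⟩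
    · have c : ∀ t ∈ an p.flip (F ∙ j • f), H3.R3.Cl F {u | ∃ l ∈ J ⊓ St G (F ∙ j • f), l • b = u} t := by
        rintro t ht c _ ⟨l', hl', rfl⟩
        have : p (l' • b + c • t) (j • f) ≠ 0 := by simpa [mem_an_sp'.1 ht, iv l' hl'] using l
        exact H.tr3 i'.1 b0 (by rintro e; simp [e] at this) (iff_of_false l this)
      exact Or.inr ⟨_, t, t', Or.inl rfl, k, k', c t ht, c t' ht'⟩
  obtain ⟨c, c0, e'⟩ := sp_c i'.1 (sp_st hl.2)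
  obtain ⟨z, hz, -, z2⟩ := H.scW (inv_ne_zero c0)
  exact ⟨z * (l * j), mul_mem hz (mul_mem hl.1 hj), by rw [mul_smul, mul_smul, e', z2, inv_smul_smul₀ c0], c⁻¹, by
    rw [mul_smul, mul_smul, e, z2]⟩

theorem mm : H23.R3.MM F V J := H3.R3.m1 F V G J H.sc H.two

theorem trA (i : Ind F x y) (n : p y h ≠ 0) (k1 : p x h = p x h') (k2 : p y h = p y h') :
    ∃ j ∈ J ⊓ stabilizer G x ⊓ stabilizer G y, j • h = h' :=
  H3.R3.fourier p.flip H.pp.r H.pp.flip.inv _ fun b _ => by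
    have iv : ∀ j ∈ J ⊓ stabilizer G x ⊓ stabilizer G y, j ∈ St G (ln F x y) := fun j hj =>
      mem_St_ln (hj.1.2.symm ▸ l_ln) (hj.2.symm ▸ r_ln)
    by_cases l : b ∈ ln F x y
    · refine Or.inl fun j hj => ?_
      obtain ⟨s, t, e⟩ := mem_ln.1 ((iv j hj b).2 l)
      simp [← e, k1, k2]
    · have c : H3.R3.Cl F {u | ∃ j ∈ J ⊓ stabilizer G x ⊓ stabilizer G y, j • b = u} y := by
        rintro c _ ⟨j, hj, rfl⟩
        obtain ⟨g, hg, e1, e2, e3⟩ := H.mm x y (j • b) (c • y) ⟨i, mt (iv j hj b).1 l⟩ (Submodule.smul_mem _ c r_ln)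
        exact ⟨g * j, mul_mem ⟨⟨hg, e1⟩, e2⟩ hj, by rw [mul_smul, e3]⟩
      exact Or.inr ⟨_, y, y, Or.inl rfl, n, k2 ▸ n, c, c⟩

theorem ex_Gd (i : Ind F x y) : ∃ f, Gd J p x y f := by
  obtain ⟨r, k, hr, q⟩ := H3.R3.ex_p F
  have n3 := H.n3
  obtain ⟨f, f1⟩ := H.pp.l x i.1
  have f0 : f ≠ 0 := by rintro rfl; simp at f1
  have dK := H.pp.flip.finrank_an (F ∙ f)
  rw [finrank_span_singleton f0, H.pp.dim] at dK
  obtain ⟨P, l, hP, tr⟩ := H3.R3.sylf (J := J ⊓ stabilizer G f) (f := p.flip f) (x := (p x f)⁻¹ • x) hr q (by simp [f1])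
    (fun j hj => by simp [gsc, H.pp.inv', show j⁻¹ • f = f from (inv_mem hj).2, f1]) fun y hy => by
      have hy : p y f = 1 := hy
      obtain ⟨j, hj, e⟩ := H.tr3 f0 (u := (p x f)⁻¹ • x) (u' := y) (smul_ne_zero (inv_ne_zero f1) i.1)
        (by rintro rfl; simp at hy) (by simp [f1, hy])
      obtain ⟨c, -, e'⟩ := sp_c f0 (sp_st hj.2)
      have := H.pp.inv j ((p x f)⁻¹ • x) f
      rw [e, e'] at this
      exact ⟨j, ⟨hj.1, e'.trans (by rw [show c = 1 by simpa [hy, f1] using this, one_smul])⟩, e⟩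
  have iv : ∀ j ∈ P, ∀ w ∈ an p.flip (F ∙ f), j • w ∈ an p.flip (F ∙ f) := fun j hj w hw => mem_an_sp'.2 (by
    rw [H.pp.inv', show j⁻¹ • f = f from (inv_mem (l hj)).2, mem_an_sp'.1 hw])
  obtain ⟨a, ha, a0, fa⟩ := H3.R3.fixp hr q hP (W := an p.flip (F ∙ f)) (fun e => by rw [e, finrank_bot] at dK; omega) iv
  obtain ⟨w, hw, nw⟩ := ex_notMem (A := F ∙ a) (B := an p.flip (F ∙ f)) (by rw [finrank_span_singleton a0]; omega)
  have : Finite (V ⧸ F ∙ a) := Finite.of_surjective _ (Submodule.mkQ_surjective _)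
  obtain ⟨_, ⟨b, hb, rfl⟩, b0, fb⟩ := H3.R3.fixp (J := P.subgroupOf (St G (F ∙ a))) hr q hP.comap_subtype
    (W := (an p.flip (F ∙ f)).map (F ∙ a).mkQ)
    (fun e => nw ((Submodule.Quotient.mk_eq_zero _).1 (e.le (Submodule.mem_map_of_mem hw))))
    (by rintro j hj _ ⟨w, hw, rfl⟩; exact ⟨_, iv j hj w hw, rfl⟩)
  have gd : Gd J p a b f := ⟨f0, mem_an_sp'.1 ha, mem_an_sp'.1 hb, fun u u' h1 h2 => by
    obtain ⟨g, hg, e⟩ := tr ((p u f)⁻¹ • u) ((p u' f)⁻¹ • u') (by simp [h1]) (by simp [h2])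
    have s : g ∈ St G (F ∙ a) := mem_St_sp ((fa g hg).symm ▸ Submodule.mem_span_singleton_self a)
    obtain ⟨z, hz, e'⟩ := H.sc (p u' f * (p u f)⁻¹) (mul_ne_zero h2 (inv_ne_zero h1))
    have st : ∀ S : Submodule F V, z ∈ St G S := fun S => mem_St_of fun u hu => e' u ▸ S.smul_mem _ hu
    refine ⟨z * g, mul_mem ⟨⟨hz, st _⟩, st _⟩ ⟨⟨(l hg).1, s⟩, mem_St_ln (sp_le_ln (sp_st s)) ?_⟩, by
      rw [mul_smul, e', mul_smul, ← gsc, e, smul_inv_smul₀ h2]⟩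
    simpa using add_mem (sp_le_ln (y := b) ((Submodule.Quotient.eq _).1 (fb ⟨g, s⟩ hg))) r_ln⟩
  obtain ⟨j, hj, rfl, c, e⟩ := H.two a b x y ⟨a0, mt (Submodule.Quotient.mk_eq_zero _).2 b0⟩ i
  have := H.Gd_smul hj gd
  have c0 := H3.R3.c_ne (Ind.ne0 ⟨a0, mt (Submodule.Quotient.mk_eq_zero _).2 b0⟩) e
  refine ⟨j • f, this.1, this.2.1, by simpa [e, c0] using this.2.2.1, ?_⟩
  rw [Lx, ← ln_eq (Ind.smul ⟨a0, mt (Submodule.Quotient.mk_eq_zero _).2 b0⟩ j) l_ln (e ▸ Submodule.smul_mem _ c r_ln)]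
  exact this.2.2.2

theorem tM (h1 : u ∉ Mx J p x y) (h2 : u' ∉ Mx J p x y) : ∃ j ∈ Lx F J x y, j • u = u' := by
  obtain ⟨f, hf, k⟩ : ∃ f, Gd J p x y f ∧ p u f ≠ 0 := by simpa [mem_Mx] using h1
  obtain ⟨f', hf', k'⟩ : ∃ f, Gd J p x y f ∧ p u' f ≠ 0 := by simpa [mem_Mx] using h2
  obtain ⟨w, -, k1, k2⟩ := two_ne (φ := (p.flip f).toAddMonoidHom) (ψ := (p.flip f').toAddMonoidHom) ⊤ trivial trivial k k'
  exact otrans (hf.2.2.2 _ _ k k1) (hf'.2.2.2 _ _ k2 k')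

theorem cM (i : Ind F x y) (i' : Ind F x' y') (e : ln F x y = ln F x' y') : Mx J p x y ≤ Mx J p x' y' := fun u hu => by
  by_cases l : x' ∈ F ∙ x
  · exact Mx_eq (J := J) (p := p) i'.1 l e.symm ▸ hu
  by_cases l' : u ∈ ln F x y
  · exact ln_Mx (e ▸ l')
  have i1 : Ind F x (x' - x) := ⟨i.1, fun k => l (by simpa using add_mem k (Submodule.mem_span_singleton_self x))⟩
  have e0 : ln F (x' - x) x = ln F x y := ln_eq i1.symm (sub_mem (e ▸ l_ln) l_ln) l_ln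
  have i2 : Ind F (x' - x) u := ⟨i1.ne0, fun k => l' (e0 ▸ sp_le_ln k)⟩
  obtain ⟨j, hj, e1, e2, e3⟩ := H.mm (x' - x) u x (x' - x) ⟨i2, fun k => l' (e0 ▸ ln_eq i1.symm l_ln k ▸ r_ln)⟩ l_ln
  rw [add_sub_cancel] at e3
  have s : j ∈ St G (ln F (x' - x) x) := mem_St_ln (e1.symm ▸ l_ln) (e3.symm ▸ e0.symm ▸ e.symm ▸ l_ln)
  exact e2 ▸ H.eM2 hj i (e3.symm ▸ Submodule.mem_span_singleton_self _) (e ▸ e0 ▸ (s y).2 (e0.symm ▸ r_ln)) hu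

theorem sM (i : Ind F x y) (i' : Ind F x u) (k : u ∈ Mx J p x y) : y ∈ Mx J p x u := by
  by_cases l : u ∈ ln F x y
  · exact ln_Mx (ln_eq i' l_ln l ▸ r_ln)
  obtain ⟨j, hj, e1, e2⟩ := H.mm.s2 (Ind3.finrank ⟨i, l⟩) i i' p1_pl p2_pl p3_pl
  have := H.eM hj.1 (pl_le.2 ⟨ln_Mx l_ln, ln_Mx r_ln, k⟩ (((inv_mem hj).2 y).2 p2_pl))
  rwa [e1, e2, smul_inv_smul] at this

theorem dM (i : Ind F x y) (i' : Ind F x' y') : finrank F (Mx J p x y) ≤ finrank F (Mx J p x' y') := by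
  obtain ⟨j, hj, rfl, c, e⟩ := H.two x y x' y' i i'
  exact dim_le j fun u hu => H.eM2 hj i (Submodule.mem_span_singleton_self _) (e ▸ Submodule.smul_mem _ c r_ln) hu

theorem trB (i : Ind F x y) (f0 : f ≠ 0) (hf : f ∈ an p (Mx J p x y)) (k : p x h = 0) (k' : p x h' = 0) (n : p y h ≠ 0)
    (n' : p y h' ≠ 0) : ∃ j ∈ J ⊓ St G (F ∙ x) ⊓ St G (F ∙ f), j • h = h' := by
  obtain ⟨r, m, hr, q⟩ := H3.R3.ex_p F
  have := Fact.mk hr
  obtain ⟨Q, l, hQ, tr⟩ := sylow_trans (J := J ⊓ stabilizer G x ⊓ stabilizer G y) (S := {h : W | p x h = 0 ∧ p y h = 1})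
    (p := r) (k := (m + 1) * finrank F (an p (ln F x y))) (fun j hj a ha => by
      rw [Set.mem_ofPred_eq, ← H.pp.inv j⁻¹ x, ← H.pp.inv j⁻¹ y, inv_smul_smul, (inv_mem hj).1.2, (inv_mem hj).2]; exact ha)
    (fun a ha b hb => H.trA i (by simp [ha.2]) (ha.1.trans hb.1.symm) (ha.2.trans hb.2.symm)) (by
      rw [pow_mul, ← q, ← ncard_sub, ← Set.ncard_image_of_injective (an p (ln F x y) : Set W)
        (add_right_injective ((p y h)⁻¹ • h))]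
      congr 1; ext a
      exact ⟨fun ha => ⟨a - (p y h)⁻¹ • h, mem_an_ln.2 ⟨by simp [ha.1, k], by simp [ha.2, n]⟩, by simp⟩,
        by rintro ⟨a, ha, rfl⟩; simp [mem_an_ln.1 ha, k, n]⟩)
  have sp := Submodule.mem_span_singleton_self (R := F) x
  obtain ⟨g, hg, g0, fg⟩ := H3.R3.fixp hr q hQ (W := an p (Mx J p x y)) (fun e => f0 (e.le hf)) fun j hj w hw =>
    H.eA (l hj).1.1 i ((l hj).1.2.symm ▸ sp) ((l hj).2.symm ▸ r_ln) hw
  obtain ⟨j, hj, rfl⟩ := H.pp.flip.fl (Lx F J x y) (fun j hj u hu => H.eM2 hj.1.1 i (sp_st hj.1.2) ((hj.2 y).2 r_ln) hu)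
    (fun u u' => H.tM) hg hf g0 f0
  obtain ⟨a, -, ea⟩ := sp_c i.1 (sp_st hj.1.2)
  obtain ⟨s, t, e⟩ := mem_ln.1 ((hj.2 y).2 r_ln)
  have t0 : t ≠ 0 := by
    rintro rfl
    exact i.2 ((hj.1.2 y).1 (by simpa [← e] using Submodule.smul_mem _ s sp))
  have k1 : ∀ h, p x h = 0 → p y h ≠ 0 → (t * p y h)⁻¹ • j⁻¹ • h ∈ {h : W | p x h = 0 ∧ p y h = 1} := fun h k n => by
    simp [← H.pp.inv', ea, ← e, k, n, t0, mul_assoc]
  obtain ⟨v, hv, ev⟩ := tr _ (k1 h k n) _ (k1 h' k' n')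
  obtain ⟨z, hz, z1, z2⟩ := H.scW (c := t * p y h' * (t * p y h)⁻¹) (by simp [t0, n, n'])
  refine ⟨z * (j * v * j⁻¹), mul_mem ⟨⟨hz, mem_St_sp (z1 x ▸ Submodule.smul_mem _ _ sp)⟩,
    mem_St_sp (z2 _ ▸ Submodule.smul_mem _ _ (Submodule.mem_span_singleton_self _))⟩
    ⟨Subgroup.mul_mem _ (Subgroup.mul_mem _ hj.1 ⟨(l hv).1.1, mem_St_sp ((l hv).1.2.symm ▸ sp)⟩) (inv_mem hj).1,
      mem_St_sp ?_⟩, ?_⟩
  · rw [mul_smul, mul_smul, inv_smul_smul, fg v hv]; exact Submodule.mem_span_singleton_self _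
  · rw [mul_smul, z2, mul_smul (j * v), mul_smul j, mul_smul (t * _), ← gsc j _ (v • _), ← gsc v, ev, gsc, smul_inv_smul,
      smul_inv_smul₀ (mul_ne_zero t0 n')]

theorem eU (hj : j ∈ J) (x0 : x ≠ 0) (h1 : j • x ∈ F ∙ x) (h2 : j • f ∈ F ∙ f') (f0 : f ≠ 0) (k : y ∈ Ux J p x f) :
    j • y ∈ Ux J p x f' := by
  refine (Submodule.span_le (p := (Ux J p x f').comap (lin F V j).toLinearMap)).2 (fun y hy => ?_) k
  refine Submodule.subset_span (or_iff_not_imp_left.2 fun n => ?_)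
  have n' : y ∉ F ∙ x := mt (mem_St_sp h1 y).2 n
  obtain ⟨c, c0, e⟩ := sp_c f0 h2
  exact (Submodule.smul_mem_iff _ c0).1 (e ▸ H.eA hj ⟨x0, n'⟩ h1 r_ln (hy.resolve_left n'))

variable (x0 : x ≠ 0) (f0 : f ≠ 0) (k : p x f = 0)
include x0 f0 k

theorem tA (k1 : p x h = 0) (k2 : p x h' = 0) (n1 : h ∉ an p (Ux J p x f)) (n2 : h' ∉ an p (Ux J p x f)) :
    ∃ j ∈ J ⊓ St G (F ∙ x) ⊓ St G (F ∙ f), j • h = h' := by
  have key : ∀ h, p x h = 0 → h ∉ an p (Ux J p x f) → ∃ y, y ∉ F ∙ x ∧ f ∈ an p (Mx J p x y) ∧ p y h ≠ 0 := fun h k n => by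
    by_contra! l
    exact n (mem_an.2 fun _ hu => Submodule.span_le.2 (show _ ⊆ (LinearMap.ker (p.flip h) : Set V) from fun y hy =>
      (em (y ∈ F ∙ x)).elim (mem_an.1 (mem_an_sp.2 k) y) fun n => l y n (hy.resolve_left n)) hu)
  obtain ⟨y, a1, a2, a3⟩ := key h k1 n1
  obtain ⟨y', b1, b2, b3⟩ := key h' k2 n2
  obtain ⟨w, hw, c1, c2⟩ := two_ne (φ := (p y).toAddMonoidHom) (ψ := (p y').toAddMonoidHom) (an p (F ∙ x)).toAddSubgroup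
    (mem_an_sp.2 k1) (mem_an_sp.2 k2) a3 b3
  exact otrans (H.trB ⟨x0, a1⟩ f0 a2 k1 (mem_an_sp.1 hw) a3 c1) (H.trB ⟨x0, b1⟩ f0 b2 (mem_an_sp.1 hw) k2 c2 b3)

theorem tU (h1 : y ∈ Ux J p x f) (h2 : y' ∈ Ux J p x f) (n1 : y ∉ F ∙ x) (n2 : y' ∉ F ∙ x) :
    ∃ j ∈ J, j • x ∈ F ∙ x ∧ j • f ∈ F ∙ f ∧ j • y ∈ ln F x y' := by
  obtain ⟨j, hj, e⟩ := H.pp.fl2 (J ⊓ St G (F ∙ x) ⊓ St G (F ∙ f)) (X := an p (F ∙ x)) (Y := an p (Ux J p x f))
    (fun j hj h hh => mem_an.2 fun u hu => (H.pp.flip.inv' ..).trans (mem_an.1 hh _ (((inv_mem hj).1.2 u).2 hu)))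
    (fun j hj h hh => mem_an.2 fun u hu => (H.pp.flip.inv' ..).trans (mem_an.1 hh _
      (H.eU (inv_mem hj).1.1 x0 (sp_st (inv_mem hj).1.2) (sp_st (inv_mem hj).2) f0 hu)))
    (fun h hh h' hh' => H.tA x0 f0 k (mem_an_sp.1 hh) (mem_an_sp.1 hh')) ((H.pp.an_an _).ge h1) ((H.pp.an_an _).ge h2)
    (by rwa [H.pp.an_an]) (by rwa [H.pp.an_an])
  rw [H.pp.an_an] at e
  exact ⟨j, hj.1.1, sp_st hj.1.2, sp_st hj.2, by simpa using add_mem (sp_le_ln (y := y') e) r_ln⟩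

theorem mU : y ∈ Ux J p x f ↔ y ∈ F ∙ x ∨ f ∈ an p (Mx J p x y) := by
  refine ⟨fun hy => or_iff_not_imp_left.2 fun n => ?_, fun hy => Submodule.subset_span hy⟩
  obtain ⟨g, hg⟩ := H.ex_Gd ⟨x0, n⟩
  obtain ⟨j, hj, rfl⟩ := H.tr2 x0 (hg.2.1.trans k.symm) hg.1 f0
  have n' : j • y ∉ F ∙ x := mt (hj.2 y).1 n
  have a := H.eA hj.1 ⟨x0, n⟩ (sp_st hj.2) r_ln (mem_an.2 fun u hu => mem_Mx.1 hu g hg)
  obtain ⟨i, hi, e1, e2, e3⟩ := H.tU x0 f0 k (Submodule.subset_span (Or.inr a)) hy n' n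
  obtain ⟨c, c0, e⟩ := sp_c f0 e2
  exact (Submodule.smul_mem_iff _ c0).1 (e ▸ H.eA hi ⟨x0, n'⟩ e1 e3 a)

theorem dU {b : ℕ} (hb : ∀ x y, Ind F x y → finrank F (Mx J p x y) + b = finrank F V) :
    finrank F (Ux J p x f) = b + 1 := by
  have d1 := H.pp.finrank_an (F ∙ x)
  have sp := Submodule.mem_span_singleton_self (R := F) x
  have t : ∀ f f', f ≠ 0 → f' ≠ 0 → p x f = 0 → p x f' = 0 → finrank F (Ux J p x f) ≤ finrank F (Ux J p x f') :=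
    fun f f' h1 h2 h3 h4 => by
      obtain ⟨j, hj, rfl⟩ := H.tr2 x0 (h3.trans h4.symm) h1 h2
      exact dim_le j fun u => H.eU hj.1 x0 (sp_st hj.2) (Submodule.mem_span_singleton_self _) h1
  have dc := dcount {y | y ∉ F ∙ x} {g | g ∈ an p (F ∙ x) ∧ g ≠ 0} (fun y g => g ∈ an p (Mx J p x y))
    (m := Fintype.card F ^ b - 1) (n := Fintype.card F ^ finrank F (Ux J p x f) - Fintype.card F) (fun y hy => by
      rw [show b = finrank F (an p (Mx J p x y)) by have := hb x y ⟨x0, hy⟩; have := H.pp.finrank_an (Mx J p x y); omega,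
        ← ncard_ne0]
      congr 1; ext g
      exact ⟨fun l => ⟨l.2, l.1.2⟩, fun l => ⟨⟨an_anti (sp_le_ln.trans ln_Mx) l.1, l.2⟩, l.1⟩⟩) fun g hg => by
      have k' := mem_an_sp.1 hg.1
      rw [le_antisymm (t _ _ f0 hg.2 k k') (t _ _ hg.2 f0 k' k), ← ncard_off x0 (A := Ux J p x g) (Submodule.subset_span (Or.inl sp))]
      congr 1; ext y
      exact ⟨fun l => ⟨Submodule.subset_span (Or.inr l.2), l.1⟩, fun l => ⟨l.2, ((H.mU x0 hg.2 k').1 l.1).resolve_left l.2⟩⟩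
  have q := q2 F
  have n3 := H.n3
  rw [finrank_span_singleton x0] at d1
  rw [ncard_compl, ncard_ne0, finrank_span_singleton x0, ← d1, pow_add, pow_one, ← Nat.mul_sub_one, mul_comm (Fintype.card F),
    mul_assoc] at dc
  have := Nat.eq_of_mul_eq_mul_left (Nat.sub_pos_of_lt (Nat.one_lt_pow (by omega) q)) dc
  rw [Nat.mul_sub_one, ← pow_succ'] at this
  have l1 : Fintype.card F ≤ Fintype.card F ^ (b + 1) := Nat.le_self_pow (by omega) _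
  have l2 : Fintype.card F ≤ Fintype.card F ^ finrank F (Ux J p x f) := Nat.le_self_pow (fun e => x0
    ((Submodule.finrank_eq_zero.1 e).le (Submodule.subset_span (Or.inl sp)))) _
  exact Nat.pow_right_injective q (by simp only; omega)
end H1

theorem ck1 : CK1.{u} := by
  intro F V W G _ _ _ _ _ _ _ _ _ _ _ _ _ _ J p pp n3 sc two
  have H : H1 J p := ⟨pp, n3, sc, two⟩
  obtain ⟨x, -, x0⟩ := ex_ne0 (A := (⊤ : Submodule F V)) (by rw [finrank_top]; omega)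
  obtain ⟨y, hy⟩ := ex_notMem' (A := F ∙ x) (by rw [finrank_span_singleton x0]; omega)
  obtain ⟨f, hf⟩ := H.ex_Gd ⟨x0, hy⟩
  obtain ⟨u, hu⟩ := pp.r f hf.1
  have l := Submodule.finrank_lt (s := Mx J p x y) fun e => hu (mem_Mx.1 (e.ge trivial) f hf)
  have hb : ∀ a c, Ind F a c → finrank F (Mx J p a c) + (finrank F V - finrank F (Mx J p x y)) = finrank F V :=
    fun a c i => by have := H.dM i ⟨x0, hy⟩; have := H.dM ⟨x0, hy⟩ i; omega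
  exact ⟨⟨pp.sc sc, H.twoW⟩, Mx J p, Ux J p, _, by omega, hb, fun _ _ _ => ln_Mx, fun j hj _ _ _ _ => H.eM hj,
    fun _ _ _ _ i i' e => le_antisymm (H.cM i i' e) (H.cM i' i e.symm), fun _ _ _ => H.sM,
    fun _ _ _ _ _ h1 h2 => (H.tM h1 h2).imp fun j k => ⟨⟨k.1.1.1, k.1.2⟩, k.2⟩,
    fun _ _ _ x0 f0 k => (H.mU x0 f0 k).trans (or_congr_right mem_an), fun _ _ x0 f0 k => H.dU x0 f0 k hb,
    fun _ _ _ _ x0 f0 k => H.tU x0 f0 k, fun _ _ _ _ x0 f0 k k1 k2 n1 n2 =>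
      (H.tA x0 f0 k k1 k2 (by simpa [mem_an] using n1) (by simpa [mem_an] using n2)).imp
        fun j k => ⟨k.1.1.1, sp_st k.1.1.2, sp_st k.1.2, k.2⟩⟩

end H13.SG
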