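import Cfsg.Agent.H13.SG3
import Cfsg.Agent.H13.C3Lin3
import Cfsg.Agent.H3.R3b
import Cfsg.Agent.H5.R32

/-! S5636: endgame, glue and assembly. -/

set_option autoImplicit false
set_option linter.unusedSectionVars false

open Module MulAction H13.R3

namespace H13.SG

universe u

theorem fin : FIN.{u} := by
  intro F V G _ _ _ _ _ _ _ _ _ J n5 fa sc two tl t ht
  by_cases q : Fintype.card F = 2
  · have e1 : ∀ c : F, c ≠ 0 → c = 1 := fun c hc => by simpa [q] using FiniteField.pow_card_sub_one_eq_one c hc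
    have e2 : ∀ v : V, v + v = 0 := fun v => by
      rw [← two_smul F, show (2 : F) = 0 from by simpa [q] using FiniteField.cast_card_eq_zero F, zero_smul]
    have e3 : ∀ u v : V, u ≠ 0 → v ≠ 0 → v ≠ u → Ind F u v := fun u v h1 h2 h3 => ⟨h1, fun e => by
      obtain ⟨c, rfl⟩ := Submodule.mem_span_singleton.1 e
      exact h3 (by rw [e1 c fun k => h2 (by rw [k, zero_smul]), one_smul])⟩
    rcases H20.CK.thmT _ J V rfl e2 (fun g h => Subtype.ext (fa g h)) (fun u v u' v' h1 h2 h3 h4 h5 h6 => by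
      obtain ⟨j, hj, k1, c, k2⟩ := two u v u' v' (e3 u v h1 h2 h3) (e3 u' v' h4 h5 h6)
      exact ⟨⟨j, hj⟩, k1, by rwa [e1 c fun k => h2 (gsz.1 (by rw [k2, k, zero_smul])), one_smul] at k2⟩) with h | h
    · obtain ⟨g, hg⟩ := h (lin F V t).toAddEquiv
      rw [← inv_mul_eq_one.1 (fa (g.1⁻¹ * t) fun v => by rw [mul_smul, inv_smul_eq_iff]; exact (hg v).symm)]
      exact g.2
    · have := Nat.pow_le_pow_right two_pos n5
      rw [card_V F V, q] at h
      omega
  have m : H23.R3.MM F V J := H3.R3.m1 F V G J sc two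
  obtain ⟨x, -, x0⟩ := ex_ne0 (A := (⊤ : Submodule F V)) (by rw [finrank_top]; omega)
  obtain ⟨y, hy⟩ := ex_notMem' (A := F ∙ x) (by rw [finrank_span_singleton x0]; omega)
  have i : Ind F x y := ⟨x0, hy⟩
  obtain ⟨z, hz⟩ := ex_notMem' (A := ln F x y) (by rw [i.finrank]; omega)
  have hd := orb_dvd (J := J ⊓ St G (ln F x y)) inf_le_left (S := {u | u ∉ ln F x y}) (a := z)
    (fun j hj => mt (hj.2 z).1 hz) fun u hu => tl x y z u i hz hu
  obtain ⟨e, he⟩ : ∃ e, finrank F V = 2 + e := ⟨finrank F V - 2, by omega⟩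
  rw [ncard_compl, i.finrank, he, pow_add, ← Nat.mul_sub_one] at hd
  obtain ⟨r, hr, h1, h2⟩ := H24.zsigmondy (q2 F) (show 1 < e by omega) (fun k => q k.1) (fun k => by omega)
  rcases H3.R3.tv F V G J (by omega) fa (two.pt (by omega)) (H5.R3.pl' F V G J r e fa hr h1 h2 (by omega) (by omega)
    (h1.trans ((dvd_mul_left _ _).trans hd)) fun W d => m.cm2 q (by omega) (by omega)) with h | ⟨R, d, h, hd⟩
  · exact h t ht
  obtain ⟨w, h3, h4⟩ := ex_notMem (A := F ∙ x) (B := R x) (by rw [finrank_span_singleton x0, h.dim x x0]; omega)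
  obtain ⟨w', h5⟩ := ex_notMem' (A := R x) (by rw [h.dim x x0]; omega)
  obtain ⟨j, hj, e1, c, e2⟩ := two x w x w' ⟨x0, h4⟩
    ⟨x0, fun k => h5 ((Submodule.span_singleton_le_iff_mem _ _).2 (h.self x x0) k)⟩
  have := h.eqv j hj x w x0 h3
  rw [e1, e2] at this
  exact absurd ((Submodule.smul_mem_iff _ (H3.R3.c_ne (Ind.ne0 ⟨x0, h4⟩) e2)).1 this) h5

theorem main (pm : PM.{u}) (br : BR.{u}) (tw : TWO.{u}) (pd : PD.{u}) : MAIN.{u} := by
  intro F K _ _ _ _ _ J hy
  refine or_iff_not_imp_left.2 fun n => ?_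
  have pt := (pm F K J hy).resolve_right n
  have two := tw F K J hy pt ((br F K J hy pt).resolve_left n)
  have n13 := hy.n13
  have : Finite (K ≃ₗ[F] K) := DFunLike.finite _
  have pp : PP (K ≃ₗ[F] K) (Dual.eval F K) := pp_dual
  obtain ⟨⟨sc', two'⟩, M, U, b, os⟩ := ck1 F K _ _ J _ pp (by omega) hy.sc two
  obtain ⟨-, M', U', c, os'⟩ := ck1 F _ K _ J _ pp.flip (by rw [pp.dim]; omega) sc' two'
  refine fin F K _ J (by omega) (fun g h => LinearEquiv.ext h) hy.sc two (ck2 F K _ _ J _ M U b M' U' c pp (by omega) sc' two'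
    os os' (fun ω om iv => pd F K ω n13 om fun c hc x y z h => ?_) fun ω om iv => ?_)
  · obtain ⟨j, hj, e⟩ := hy.c1 c hc
    simpa [e] using iv j hj x y z h
  let τ : K ≃ₗ[F] Dual F K := (Algebra.traceForm F K).toDual (traceForm_nondegenerate F K)
  intro x y z h
  refine pd F K (fun x y z => ω (τ x) (τ y) (τ z)) n13 ⟨fun _ _ _ => om.s1 _ _ _, fun _ _ _ => om.s2 _ _ _, fun x y => ?_⟩
    (fun c hc x y z h => ?_) (τ.symm x) (τ.symm y) (τ.symm z) (by simpa)
  · obtain ⟨S, h1, h2⟩ := om.sl (τ x) (τ y)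
    exact ⟨S.map τ.symm.toLinearMap, by rw [τ.symm.finrank_map_eq, ← pp.dim]; exact h1, fun z => by
      rw [h2, Submodule.map_equiv_eq_comap_symm]; rfl⟩
  · obtain ⟨j, hj, e⟩ := hy.c1 c hc
    have k : ∀ x, j⁻¹ • τ x = τ (c * x) := fun x => LinearMap.ext fun v => by
      simp [τ, e, mul_assoc, mul_left_comm, LinearMap.BilinForm.toDual_def]
    simpa [k] using iv j⁻¹ (inv_mem hj) _ _ _ h

open H12 Cfsg.Geo

section asm
variable {F K : Type u} [Field F] [Fintype F] [Field K] [Fintype K] [Algebra F K]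

open Polynomial in
theorem det_fr (h : Odd (finrank F K)) :
    LinearMap.det (FiniteField.frobeniusAlgHom F K).toLinearMap = 1 := by
  have e : (FiniteField.frobeniusAlgHom F K).toLinearMap.charpoly = X ^ finrank F K - 1 :=
    (eq_of_monic_of_dvd_of_natDegree_le (monic_X_pow_sub_C (1 : F) h.pos.ne') (LinearMap.charpoly_monic _)
      (FiniteField.minpoly_frobeniusAlgHom F K ▸ LinearMap.minpoly_dvd_charpoly _) (by
        rw [LinearMap.charpoly_natDegree, ← C_1, natDegree_X_pow_sub_C]))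
  rw [LinearMap.det_eq_sign_charpoly_coeff, e]
  simp [h.neg_one_pow, h.pos.ne]

theorem Mon.semi {g : K ≃ₗ[F] K} (h : Mon F g) : g ∈ semiStab F K K := by
  obtain ⟨a, i, e⟩ := h
  have k : ∀ b v : K, g (b • v) = b ^ Fintype.card F ^ i • g v := fun b v => by simp [e, mul_pow, mul_left_comm]
  refine ⟨fun b => ⟨_, k b⟩, fun b => ?_⟩
  obtain ⟨c, hc⟩ := (FiniteField.frobeniusAlgEquivOfAlgebraic F K ^ i).surjective b
  exact ⟨c, fun v => by rw [k, ← hc, AlgEquiv.coe_pow, FiniteField.coe_frobeniusAlgEquivOfAlgebraic, pow_iterate]⟩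

theorem core (mn : MAIN.{u}) (pr : (finrank F K).Prime) (n13 : 13 ≤ finrank F K) :
    IsMaximalIn (SLV F K) (semiStab F K K ⊓ SLV F K) := by
  refine isMaximalIn_of _ _ inf_le_right (fun h => ?_) fun X h1 h2 g hg hg' => ?_
  · obtain ⟨κ, hκ⟩ := ex_notMem' (A := F ∙ (1 : K)) (by rw [finrank_span_singleton one_ne_zero]; omega)
    obtain ⟨u, hu⟩ := ex_notMem' (A := pl F 1 κ (κ * κ)) (by
      have := Submodule.finrank_add_le_finrank_add_finrank (ln F 1 κ) (F ∙ (κ * κ))
      have := finrank_ln_le (F := F) 1 κ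
      have := (finrank_span_le_card (R := F) ({κ * κ} : Set K)).trans_eq (by simp : _ = 1)
      rw [pl_eq_sup]; omega)
    obtain ⟨φ, f1, f2⟩ := ex_dual hu
    obtain ⟨t, t1, t2⟩ := tr_SLV (f2 1 p1_pl)
    obtain ⟨b, hb⟩ := (h t1).1.1 κ
    have e : b = κ := by simpa [t2, f2 _ p1_pl, f2 _ p2_pl] using (hb 1).symm
    have := hb u
    simp only [t2, e, f1, smul_eq_mul, one_smul, mul_add, mul_one, add_right_inj] at this
    exact hκ (this ▸ Submodule.smul_mem _ _ (Submodule.mem_span_singleton_self _))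
  let J : Subgroup (K ≃ₗ[F] K) :=
    { carrier := {g | ∃ c : F, c ≠ 0 ∧ ∃ x ∈ X, ∀ v, g v = c • x v}
      one_mem' := ⟨1, one_ne_zero, 1, one_mem _, fun v => by simp⟩
      mul_mem' := fun {a b} ⟨c, c0, x, hx, e⟩ ⟨d, d0, y, hy, e'⟩ => ⟨c * d, mul_ne_zero c0 d0, x * y, mul_mem hx hy,
        fun v => by simp [e, e', smul_smul]⟩
      inv_mem' := fun {a} ⟨c, c0, x, hx, e⟩ => ⟨c⁻¹, inv_ne_zero c0, x⁻¹, inv_mem hx, fun v => a.injective (by
        rw [e (_ • _)]; simp [c0])⟩ }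
  have l : X ≤ J := fun x hx => ⟨1, one_ne_zero, x, hx, fun v => (one_smul _ _).symm⟩
  refine (mn F K J ⟨pr, n13, fun c c0 => ⟨DistribMulAction.toLinearEquiv F K (Units.mk0 c c0), ⟨c, c0, 1, one_mem _, fun _ => rfl⟩,
      fun _ => rfl⟩, fun c hc => ?_, ⟨(FiniteField.frobeniusAlgEquivOfAlgebraic F K).toLinearEquiv, l (h1 ⟨Mon.semi
      ⟨1, 1, fun x => by simp⟩, mem_SLV.2 (det_fr (pr.odd_of_ne_two (by omega)))⟩), fun _ => rfl⟩, ?_⟩).elim
    (fun h => absurd ⟨(h g (l hg)).semi, h2 hg⟩ hg') fun h => SLV_le_of_tr fun v φ h0 => ?_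
  rotate_right
  · by_cases v0 : v = 0
    · exact ⟨1, one_mem _, fun x => by simp [v0]⟩
    by_cases f0 : φ = 0
    · exact ⟨1, one_mem _, fun x => by simp [f0]⟩
    obtain ⟨t, -, ht⟩ := tr_SLV h0
    obtain ⟨c, c0, x, hx, e⟩ := h t ⟨v, φ, v0, f0, h0, ht⟩
    have k : ∀ (k : ℕ) w, (x ^ k) w = c⁻¹ ^ k • (w + ((k : F) * φ w) • v) := fun k w => by
      induction k with
      | zero => simp
      | succ k ih =>
        rw [pow_succ', LinearEquiv.mul_apply, ih, map_smul, ← inv_smul_smul₀ c0 (x _), ← e, ht]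
        simp only [map_add, map_smul, h0, smul_zero, add_zero, Nat.cast_succ]
        module
    refine ⟨(x ^ (Fintype.card F - 1))⁻¹, inv_mem (pow_mem hx _), fun w => (x ^ (Fintype.card F - 1)).injective ?_⟩
    rw [apply_inv_apply, k, FiniteField.pow_card_sub_one_eq_one _ (inv_ne_zero c0), Nat.cast_pred Fintype.card_pos,
      FiniteField.cast_card_eq_zero]
    simp [h0]
  · have c0 : c ≠ 0 := by rintro rfl; simp at hc
    exact ⟨DistribMulAction.toLinearEquiv F K (Units.mk0 c c0), l (h1 ⟨Mon.semi ⟨c, 0, fun x => by simp⟩,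
      mem_SLV.2 hc⟩), fun _ => rfl⟩
  · rintro j ⟨c, -, x, hx, e⟩
    exact ⟨c, by rw [show (j : K →ₗ[F] K) = c • (x : K →ₗ[F] K) from LinearMap.ext e, LinearMap.det_smul,
      mem_SLV.1 (h2 hx), mul_one]⟩

theorem core' (mn : MAIN.{u}) (pr : (finrank F K).Prime) (n13 : 13 ≤ finrank F K) {V : Type u} [AddCommGroup V] [Module F V]
    [Module K V] [IsScalarTower F K V] (e : V ≃ₗ[K] K) : IsMaximalIn (SLV F V) (semiStab F K V ⊓ SLV F V) := by
  let e' := e.restrictScalars F
  let θ : (V ≃ₗ[F] V) ≃* (K ≃ₗ[F] K) :=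
    { toFun g := (e'.symm.trans g).trans e'
      invFun g := (e'.trans g).trans e'.symm
      left_inv g := by ext; simp
      right_inv g := by ext; simp
      map_mul' g h := by ext; simp }
  have k : ∀ (g : V ≃ₗ[F] V) (a b : K), (∀ v, θ g (a • v) = b • θ g v) ↔ ∀ v, g (a • v) = b • g v := fun g a b =>
    e.surjective.forall.trans (forall_congr' fun v => by
      change e (g (e.symm (a • e v))) = b • e (g (e.symm (e v))) ↔ _
      rw [map_smul, e.symm_apply_apply, ← map_smul, e.injective.eq_iff])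
  convert isMaximalIn_comap θ (core mn pr n13) using 1
  · ext g; exact (congrArg (· = 1) (LinearEquiv.det_conj g e')).to_iff.symm
  · ext g
    refine and_congr ?_ (congrArg (· = 1) (LinearEquiv.det_conj g e')).to_iff.symm
    exact (and_congr (forall_congr' fun a => exists_congr fun b => k g a b)
      (forall_congr' fun b => exists_congr fun a => k g a b)).symm
end asm

theorem goal (mn : MAIN.{u}) : GOAL.{u} := by
  intro F _ _ n hn r hr K hK
  by_cases h : r < n
  · exact (H13.KL.isMaximalIn_field hr hK (by simpa)).2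
  have : Nonempty (Fin n) := ⟨⟨0, by omega⟩⟩
  letI := fieldOf hK; letI := modOf K; letI := towerOf K
  have := Fintype.ofFinite K
  have d := finrank_mul_finrank F K (Fin n → F)
  rw [hK.finrank_eq, finrank_fintype_fun_eq_card, Fintype.card_fin] at d
  have d1 : finrank K (Fin n → F) = 1 := by
    rcases Nat.eq_zero_or_pos (finrank K (Fin n → F)) with e | e
    · rw [e] at d; omega
    · nlinarith
  have : Module.Finite K (Fin n → F) := Module.Finite.of_restrictScalars_finite F K _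
  rw [subalgebraNormalizer_eq hK, specialLinear_eq, ← Subgroup.comap_inf]
  exact isMaximalIn_comap _ (core' mn (hK.finrank_eq ▸ hr) (by rw [hK.finrank_eq]; omega)
    (LinearEquiv.ofFinrankEq _ _ (d1.trans (finrank_self K).symm)))

end H13.SG
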