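import Cfsg.Agent.H13.SG1

/-! S5636: the polynomial degree argument (chunk PD). -/

set_option autoImplicit false
set_option linter.unusedSectionVars false

open Module MvPolynomial

namespace H13.SG

universe u

variable {F K : Type u} [Field F] [Fintype F] [Field K] [Fintype K] [Algebra F K] {D E : ℕ} {f g : K → F}

variable (F K) in
noncomputable def ev : MvPolynomial (Fin (finrank F K)) F →ₐ[F] (K → F) := aeval fun i x => (finBasis F K).repr x i

variable (F K) in
/-- polynomial functions of degree at most `D` -/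
noncomputable def BD (D : ℕ) : Submodule F (K → F) := (restrictTotalDegree _ F D).map (ev F K).toLinearMap

theorem mem_BD : f ∈ BD F K D ↔ ∃ P, P.totalDegree ≤ D ∧ ev F K P = f := by
  simp [BD, mem_restrictTotalDegree]

theorem BD_mono (h : f ∈ BD F K D) (k : D ≤ E) : f ∈ BD F K E :=
  let ⟨P, h1, h2⟩ := mem_BD.1 h; mem_BD.2 ⟨P, h1.trans k, h2⟩
theorem BD_mul (h : f ∈ BD F K D) (k : g ∈ BD F K E) : f * g ∈ BD F K (D + E) :=
  let ⟨P, h1, h2⟩ := mem_BD.1 h; let ⟨Q, h3, h4⟩ := mem_BD.1 k
  mem_BD.2 ⟨P * Q, (totalDegree_mul P Q).trans (add_le_add h1 h3), by rw [map_mul, h2, h4]⟩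
theorem BD_const (c : F) : (fun _ => c) ∈ BD F K D := mem_BD.2 ⟨C c, by simp, by ext; simp [ev]⟩
theorem BD_prod {ι : Type*} (s : Finset ι) (f : ι → K → F) (h : ∀ i ∈ s, f i ∈ BD F K D) :
    ∏ i ∈ s, f i ∈ BD F K (s.card * D) := by
  classical
  induction s using Finset.induction_on with
  | empty => exact BD_const 1
  | insert a s n ih =>
    rw [Finset.prod_insert n, Finset.card_insert_of_notMem n, add_mul, one_mul, add_comm]
    exact BD_mul (h a (by simp)) (ih fun i hi => h i (by simp [hi]))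
theorem BD_lin (φ : K →ₗ[F] F) : ⇑φ ∈ BD F K 1 := by
  have : ⇑φ = ∑ i, φ (finBasis F K i) • fun x => (finBasis F K).repr x i := funext fun x => by
    conv_lhs => rw [← (finBasis F K).sum_repr x, map_sum]
    simp [mul_comm]
  exact this ▸ sum_mem fun i _ => Submodule.smul_mem _ _ (mem_BD.2 ⟨X i, by simp, by simp [ev]⟩)
theorem BD_sum (h : f ∈ BD F K D) (k : D < (Fintype.card F - 1) * finrank F K) : ∑ x, f x = 0 := by
  obtain ⟨P, h1, rfl⟩ := mem_BD.1 h
  rw [← sum_eval_eq_zero P (by simpa using h1.trans_lt k)]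
  refine Fintype.sum_equiv (finBasis F K).equivFun.toEquiv _ _ fun x => ?_
  exact DFunLike.congr_fun (show (Pi.evalAlgHom F _ x).comp (ev F K) = aeval ((finBasis F K).repr x) from
    algHom_ext fun i => by simp [ev]) P
theorem BD_norm : ⇑(Algebra.norm F) ∈ BD F K (finrank F K) := by
  have : ⇑(Algebra.norm F) = ∑ σ : Equiv.Perm (Fin (finrank F K)), (Equiv.Perm.sign σ : F) •
      ∏ i, fun x : K => Algebra.leftMulMatrix (finBasis F K) x (σ i) i := funext fun x => by
    simp [Algebra.norm_eq_matrix_det (finBasis F K), Matrix.det_apply']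
  exact this ▸ sum_mem fun σ _ => Submodule.smul_mem _ _ (BD_mono (BD_prod Finset.univ _ fun i _ => BD_lin
      ((Matrix.entryLinearMap F F (σ i) i).comp (Algebra.leftMulMatrix (finBasis F K)).toLinearMap)) (by simp))

theorem BD_diag (h : K → K → F) (h1 : ∀ y, (fun x => h x y) ∈ BD F K D) (h2 : ∀ x, h x ∈ BD F K E) :
    (fun x => h x x) ∈ BD F K (D + E) := by
  classical
  obtain ⟨π, hπ⟩ := (BD F K E).subtype.exists_leftInverse_of_injective (BD F K E).ker_subtype
  have : (fun x => h x x) = ∑ y, (fun x => h x y) * (π fun z => if y = z then 1 else 0).1 := funext fun x => by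
    have := congrArg (fun w : BD F K E => w.1 x) ((LinearMap.congr_fun hπ ⟨h x, h2 x⟩).symm.trans
      (π.pi_apply_eq_sum_univ (h x)))
    simpa using this
  exact this ▸ sum_mem fun y _ => BD_mul (h1 y) (π _).2

open Classical in
theorem BD_ind (S : Submodule F K) (h : finrank F K ≤ finrank F S + 2) (a : K) :
    (fun z => if a * z ∉ S then 1 else 0) ∈ BD F K (2 * (Fintype.card F - 1)) := by
  have := Module.Free.of_divisionRing F S.dualAnnihilator
  let b := finBasis F S.dualAnnihilator
  have q : Fintype.card F - 1 ≠ 0 := by have := H13.R3.q2 F; omega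
  have : (fun z => if a * z ∉ S then 1 else 0) = (fun _ => (1 : F)) - ∏ i, ((fun _ => 1) -
      ∏ _j : Fin (Fintype.card F - 1), ⇑((b i).1.comp (LinearMap.mulLeft F a))) := funext fun z => by
    simp only [Pi.sub_apply, Finset.prod_apply, Finset.prod_const, Finset.card_univ, Fintype.card_fin, Pi.pow_apply,
      LinearMap.comp_apply, LinearMap.mulLeft_apply]
    split_ifs with k
    · simp [(Submodule.mem_dualAnnihilator _).1 (b _).2 _ k, q]
    · obtain ⟨i, hi⟩ : ∃ i, (b i).1 (a * z) ≠ 0 := by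
        by_contra! l
        refine k ((Subspace.forall_mem_dualAnnihilator_apply_eq_zero_iff S _).1 fun φ hφ => ?_)
        simpa [l, -Basis.sum_repr] using congrArg (fun ψ : S.dualAnnihilator => ψ.1 (a * z)) (b.sum_repr ⟨φ, hφ⟩).symm
      rw [Finset.prod_eq_zero (Finset.mem_univ i) (by rw [FiniteField.pow_card_sub_one_eq_one _ hi, sub_self]), sub_zero]
  rw [this]
  refine sub_mem (BD_const 1) (BD_mono (BD_prod _ _ fun i _ => sub_mem (BD_const 1) (BD_prod _ _ fun _ _ => BD_lin _)) ?_)
  have := H13.R3.finrank_ann S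
  simp only [Finset.card_univ, Fintype.card_fin, mul_one]
  exact Nat.mul_le_mul_right _ (by omega)

open Classical in
theorem mom (γ : F → F) (h : (fun x : K => γ (Algebra.norm F x)) ∈ BD F K D) {ν : F} (h0 : γ ν ≠ 0)
    (h1 : ((Finset.univ.filter fun x : K => Algebra.norm F x = ν).card : F) ≠ 0) :
    (Fintype.card F - 1) * finrank F K + finrank F K ≤ D + (Finset.univ.filter fun μ => γ μ ≠ 0).card * finrank F K := by
  set T := Finset.univ.filter fun μ => γ μ ≠ 0
  have hν : ν ∈ T := by simpa [T]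
  rw [← Finset.card_erase_add_one hν, add_mul, one_mul, ← add_assoc, Nat.add_le_add_iff_right]
  by_contra! k
  have := BD_sum (BD_mul h (BD_prod (T.erase ν) _ fun μ _ => sub_mem BD_norm (BD_const μ))) k
  rw [← Finset.sum_filter_add_sum_filter_not _ (fun x => Algebra.norm F x = ν), Finset.sum_eq_zero
    (s := Finset.univ.filter fun x => ¬ Algebra.norm F x = ν) fun x hx => ?_, add_zero, Finset.sum_congr rfl (g := fun _ => γ ν * ∏ μ ∈ T.erase ν, (ν - μ)) fun x hx => by
      simp [(Finset.mem_filter.1 hx).2], Finset.sum_const, nsmul_eq_mul] at this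
  · exact mul_ne_zero h1 (mul_ne_zero h0 (Finset.prod_ne_zero_iff.2 fun μ hμ =>
      sub_ne_zero.2 (Finset.ne_of_mem_erase hμ).symm)) this
  · by_cases l : γ (Algebra.norm F x) = 0
    · simp [l]
    · simpa [l] using Finset.prod_eq_zero (i := Algebra.norm F x) (by simpa [T, l] using hx) (sub_self _)

theorem pd : PD.{u} := by
  intro F K _ _ _ _ _ ω n13 om iv x y z h
  classical
  have sl : ∀ x y a, (fun t => if ω x y (a * t) then (1 : F) else 0) ∈ BD F K (2 * (Fintype.card F - 1)) := fun x y a => by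
    obtain ⟨S, h1, h2⟩ := om.sl x y
    simpa only [h2] using BD_ind S h1 a
  have s1 : ∀ x y z, ω x y z ↔ ω y x z := fun _ _ _ => ⟨om.s1 _ _ _, om.s1 _ _ _⟩
  have s2 : ∀ x y z, ω x y z ↔ ω x z y := fun _ _ _ => ⟨om.s2 _ _ _, om.s2 _ _ _⟩
  have hg := BD_diag (fun s t => if ω (x * s) (y * s) (z * t) then (1 : F) else 0) (fun t =>
    BD_diag (fun r s => if ω (x * r) (y * s) (z * t) then (1 : F) else 0)
      (fun s => by simpa only [s1 (x * _), s2 _ (x * _)] using sl (y * s) (z * t) x)
      fun r => by simpa only [s2 _ (y * _)] using sl (x * r) (z * t) y) fun s => sl _ _ z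
  let γ : F → F := fun ν => if ∃ t, Algebra.norm F t = ν ∧ ω (x * t) (y * t) (z * t) then 1 else 0
  have z0 : ∀ x y, ¬ ω x y 0 := fun x y h => let ⟨S, _, k⟩ := om.sl x y; (k 0).1 h S.zero_mem
  have e : (fun t => if ω (x * t) (y * t) (z * t) then (1 : F) else 0) = fun t => γ (Algebra.norm F t) := funext fun t =>
    if_congr ⟨fun k => ⟨t, rfl, k⟩, fun ⟨s, e, k⟩ => by
      have s0 : s ≠ 0 := by rintro rfl; exact z0 _ _ (mul_zero z ▸ k)
      have := iv (t / s) (by rw [div_eq_mul_inv, map_mul, ← e, ← map_mul, mul_inv_cancel₀ s0, map_one]) _ _ _ k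
      simpa only [mul_left_comm (t / s), div_mul_cancel₀ _ s0] using this⟩ rfl rfl
  rw [e] at hg
  have m1 := mom γ hg (ν := 1) (by simpa [γ] using ⟨1, map_one _, by simpa⟩) fun k => by
    obtain ⟨m, hm⟩ := Subgroup.card_subgroup_dvd_card (Units.map (Algebra.norm F : K →* F)).ker
    rw [Nat.card_units, Nat.card_eq_fintype_card, Nat.card_congr (α := (Units.map (Algebra.norm F : K →* F)).ker)
      (β := {t : K // Algebra.norm F t = 1})
      ⟨fun t => ⟨t.1, congrArg Units.val t.2⟩, fun t => ⟨Units.mk0 t.1 fun e => by simpa [e] using t.2, Units.ext t.2⟩,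
        fun _ => Subtype.ext (Units.ext rfl), fun _ => rfl⟩, Nat.card_eq_fintype_card, Fintype.card_subtype] at hm
    have := congrArg (Nat.cast : ℕ → F) hm
    rw [Nat.cast_mul, k, Nat.cast_pred Fintype.card_pos, card_K (F := F), Nat.cast_pow, FiniteField.cast_card_eq_zero,
      zero_pow (by omega)] at this
    simp at this
  have m2 := mom (fun ν => 1 - γ ν) (sub_mem (BD_const 1) hg) (ν := 0) (by simp [γ, z0]) (by
    rw [Finset.card_eq_one.2 ⟨0, by ext; simp⟩]; simp)
  have c : (Finset.univ.filter fun μ => γ μ ≠ 0).card + (Finset.univ.filter fun μ => 1 - γ μ ≠ 0).card = Fintype.card F := by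
    rw [← Finset.card_univ, ← Finset.card_filter_add_card_filter_not (s := Finset.univ) (fun μ => γ μ ≠ 0)]
    congr 2; refine Finset.filter_congr fun μ _ => ?_; simp only [γ]; split_ifs <;> simp
  have q := H13.R3.q2 F
  obtain ⟨r, hr⟩ : ∃ r, Fintype.card F = r + 1 := ⟨_, (Nat.sub_add_cancel (by omega)).symm⟩
  rw [hr, Nat.add_sub_cancel] at m1 m2
  have := congrArg (· * finrank F K) (c.trans hr)
  nlinarith

end H13.SG
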