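import Cfsg.Agent.H13.SG1

/-! S5636: monomials, carries and coefficient extraction (first half of chunk PM). -/

set_option autoImplicit false
set_option linter.unusedSectionVars false

open Module Finset

namespace H13.SG

universe u

variable {F K : Type u} [Field F] [Fintype F] [Field K] [Fintype K] [Algebra F K] {p t : ℕ}

variable (F K t) in
abbrev Ix : Type u := Gal(K/F) × ZMod (t + 1)

variable (p) in
def Zs (s : Ix F K t) : K → K := fun x => s.1 x ^ p ^ s.2.val
variable (p) in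
noncomputable def mon (b : Ix F K t → ℕ) : K → K := ∏ s, Zs p s ^ b s
/-- multidegree -/
noncomputable def dl : (Ix F K t → ℕ) →+ (ZMod (t + 1) → ℕ) where
  toFun b i := ∑ σ, b (σ, i)
  map_zero' := by ext; simp
  map_add' a b := by ext; simp [sum_add_distrib]
def wt : (ZMod (t + 1) → ℕ) →+ ℕ where
  toFun μ := ∑ i, μ i
  map_zero' := by simp
  map_add' a b := by simp [sum_add_distrib]
variable (F K) in
noncomputable def tw (i : ZMod (t + 1)) : Gal(K/F) := if i.val = t then FiniteField.frobeniusAlgEquivOfAlgebraic F K else 1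
noncomputable def nx (s : Ix F K t) : Ix F K t := (tw F K s.2 * s.1, s.2 + 1)

open Classical

variable {b b' c : Ix F K t → ℕ} {s : Ix F K t} {μ ν : ZMod (t + 1) → ℕ}

theorem mon_add (a b : Ix F K t → ℕ) : mon p (a + b) = mon p a * mon p b := by simp [mon, pow_add, prod_mul_distrib]
theorem mon_single (s : Ix F K t) (m : ℕ) : mon p (Pi.single s m) = Zs p s ^ m := by
  rw [mon, prod_eq_single s (fun a _ h => by simp [h]) (by simp), Pi.single_eq_same]
theorem dl_single (s : Ix F K t) (m : ℕ) : dl (Pi.single s m) = Pi.single s.2 m := by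
  ext i
  obtain ⟨σ, j⟩ := s
  by_cases h : i = j <;> simp [dl, Pi.single_apply, h]
@[simp] theorem wt_single (i : ZMod (t + 1)) (m : ℕ) : wt (Pi.single i m) = m := by simp [wt]
theorem mon_ne (b : Ix F K t → ℕ) (x : Kˣ) : mon p b x ≠ 0 := by simp [mon, Zs, prod_ne_zero_iff]

theorem Zs_nx (q : Fintype.card F = p ^ (t + 1)) (s : Ix F K t) : Zs p (nx s) = Zs p s ^ p := funext fun x => by
  have := ZMod.val_lt s.2
  simp only [Zs, nx, tw, ZMod.val_add, ZMod.val_one_eq_one_mod, Nat.add_mod_mod, Pi.pow_apply, ← pow_mul, ← pow_succ]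
  split_ifs with h
  · simp [h, q]
  · rw [Nat.mod_eq_of_lt (by omega), one_mul]

theorem mon_carry (q : Fintype.card F = p ^ (t + 1)) (c : Ix F K t → ℕ) (s : Ix F K t) :
    mon p (c + Pi.single s p) = mon p (c + Pi.single (nx s) 1) := by
  rw [mon_add, mon_add, mon_single, mon_single, pow_one, Zs_nx q]

variable (p) in
/-- at least one carry -/
def Cy (μ ν : ZMod (t + 1) → ℕ) : Prop :=
  (∃ r, ν + Pi.single r p = μ + Pi.single (r + 1) 1) ∨ wt ν + 2 * p ≤ wt μ + 2

theorem Cy.le (h : Cy p μ ν) (hp : 2 ≤ p) : wt ν + p ≤ wt μ + 1 := by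
  rcases h with ⟨r, h⟩ | h
  · simpa using (congrArg wt h).le
  · omega

theorem carry (q : Fintype.card F = p ^ (t + 1)) (hp : 2 ≤ p) (b : Ix F K t → ℕ) :
    ∃ b', (∀ s, b' s < p) ∧ mon p b' = mon p b ∧ (b' = b ∨ Cy p (dl b) (dl b')) := by
  induction h : wt (dl b) using Nat.strong_induction_on generalizing b with
  | _ m ih =>
  by_cases k : ∀ s, b s < p
  · exact ⟨b, k, rfl, Or.inl rfl⟩
  obtain ⟨s, hs⟩ := not_forall.1 k
  obtain ⟨c, rfl⟩ : ∃ c, b = c + Pi.single s p := ⟨b - Pi.single s p, (tsub_add_cancel_of_le fun a => by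
    by_cases e : a = s <;> simp [e, not_lt.1 hs]).symm⟩
  obtain ⟨b', h1, h2, h3⟩ := ih _ (by simp [← h, dl_single]; omega) (c + Pi.single (nx s) 1) rfl
  refine ⟨b', h1, h2.trans (mon_carry q c s).symm, Or.inr ?_⟩
  rcases h3 with rfl | h3
  · exact Or.inl ⟨s.2, by simp [dl_single, nx, add_right_comm]⟩
  · have := h3.le hp
    simp only [map_add, dl_single, wt_single] at this
    exact Or.inr (by simp only [map_add, dl_single, wt_single]; omega)

theorem uq (q : Fintype.card F = p ^ (t + 1)) (h1 : ∀ s, b' s < p) (h2 : ∀ s, b s < p) (h3 : b ≠ 0) (h4 : b s + 1 < p)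
    (h : ∀ x : Kˣ, mon p b' x = mon p b x) : b' = b := by
  let E : Fin (finrank F K * (t + 1)) ≃ Ix F K t := finProdFinEquiv.symm.trans
    ((Equiv.ofBijective _ (FiniteField.bijective_frobeniusAlgEquivOfAlgebraic_pow F K)).prodCongr (Equiv.refl _))
  have hE : ∀ m x, Zs p (E m) x = x ^ p ^ m.1 := fun m x => by
    obtain ⟨⟨j, i⟩, rfl⟩ := finProdFinEquiv.surjective m
    rw [Equiv.trans_apply, Equiv.symm_apply_apply]
    change (FiniteField.frobeniusAlgEquivOfAlgebraic F K ^ j.1) x ^ p ^ i.1 = _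
    rw [AlgEquiv.coe_pow, FiniteField.coe_frobeniusAlgEquivOfAlgebraic, pow_iterate, q, ← pow_mul, ← pow_mul, ← pow_add,
      finProdFinEquiv_apply_val, add_comm]
  let v : (Ix F K t → ℕ) → ℕ := fun b => ∑ m, b (E m) * p ^ m.1
  have hv : ∀ b x, mon p b x = x ^ v b := fun b x => by
    simp only [mon, v, ← prod_pow_eq_pow_sum, prod_apply, Pi.pow_apply, ← E.prod_comp, hE, ← pow_mul, mul_comm]
  have lt : ∀ b, (∀ s, b s < p) → v b < Fintype.card K := fun b h => by
    rw [card_K (F := F), q, ← pow_mul, mul_comm]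
    exact (finFunctionFinEquiv fun m => ⟨b (E m), h _⟩).2
  have inj : ∀ b b', (∀ s, b s < p) → (∀ s, b' s < p) → v b = v b' → b = b' := fun b b' h h' e => funext fun s => by
    simpa using congrArg Fin.val (congrFun (finFunctionFinEquiv.injective (a₁ := fun m => ⟨b (E m), h _⟩)
      (a₂ := fun m => ⟨b' (E m), h' _⟩) (Fin.ext e)) (E.symm s))
  have l1 := lt _ h1
  have l2 := lt (b + Pi.single s 1) fun a => by by_cases e : a = s <;> simp [e, h2, h4]
  have l3 : v b < v (b + Pi.single s 1) := sum_lt_sum (fun m _ => Nat.mul_le_mul_right _ (Nat.le_add_right _ _))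
    ⟨E.symm s, mem_univ _, by simp [add_mul, show 0 < p by omega]⟩
  have l4 : v b ≠ 0 := fun e => h3 (inj _ _ h2 (fun _ => by simpa using by omega) (by simpa [v] using e))
  obtain ⟨g, hg⟩ := IsCyclic.exists_ofOrder_eq_natCard (α := Kˣ)
  rw [Nat.card_units, Nat.card_eq_fintype_card] at hg
  have := pow_eq_pow_iff_modEq.1 (Units.ext (by simpa [hv] using h g) : g ^ v b' = g ^ v b)
  rw [hg, Nat.ModEq, Nat.mod_eq_of_lt (a := v b) (by omega)] at this
  refine inj _ _ h1 h2 ?_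
  by_cases e : v b' = Fintype.card K - 1
  · rw [e, Nat.mod_self] at this; omega
  · rwa [Nat.mod_eq_of_lt (by omega)] at this

variable (p) in
/-- coefficient functional -/
noncomputable def ka (b : Ix F K t → ℕ) : (K → K) →ₗ[K] K where
  toFun h := ∑ x : Kˣ, h x / mon p b x
  map_add' f g := by simp [add_div, sum_add_distrib]
  map_smul' a f := by simp [mul_sum, mul_div_assoc]

theorem ka_self (b : Ix F K t → ℕ) : ka p b (mon p b) = -1 := by
  simp [ka, mon_ne, Fintype.card_units, Nat.cast_pred Fintype.card_pos, FiniteField.cast_card_eq_zero]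

variable (p) in
/-- admissible target -/
structure Tg (b : Ix F K t → ℕ) : Prop where
  q : Fintype.card F = p ^ (t + 1)
  hp : 2 ≤ p
  lt : ∀ s, b s < p
  ne : b ≠ 0
  ex : ∃ s, b s + 1 < p

variable (p F K) in
/-- homogeneous functions -/
def Sp (μ : ZMod (t + 1) → ℕ) : Submodule K (K → K) := Submodule.span K {h | ∃ b : Ix F K t → ℕ, dl b = μ ∧ mon p b = h}

theorem mon_Sp (b : Ix F K t → ℕ) : mon p b ∈ Sp F K p (dl b) := Submodule.subset_span ⟨b, rfl, rfl⟩

instance : SetLike.GradedMonoid (Sp F K p (t := t)) where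
  one_mem := by simpa [mon] using mon_Sp (p := p) (0 : Ix F K t → ℕ)
  mul_mem μ ν f g hf hg := by
    have := Submodule.mul_mem_mul hf hg
    rw [Sp, Sp, Submodule.span_mul_span] at this
    refine Submodule.span_mono ?_ this
    rintro _ ⟨_, ⟨a, rfl, rfl⟩, _, ⟨b, rfl, rfl⟩, rfl⟩
    exact ⟨a + b, map_add _ _ _, mon_add a b⟩

theorem Tg.key (h : Tg p b) (k : ka p b (mon p c) ≠ 0) : c = b ∨ Cy p (dl c) (dl b) := by
  obtain ⟨c', h1, h2, h3⟩ := carry h.q h.hp c
  obtain ⟨s, hs⟩ := h.ex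
  let f : Kˣ →* K :=
    { toFun x := mon p c x / mon p b x
      map_one' := by simp [mon, Zs]
      map_mul' x y := by simp [mon, Zs, mul_pow, prod_mul_distrib, mul_div_mul_comm] }
  have : f = 1 := by_contra fun n => k (sum_hom_units_eq_zero f n)
  obtain rfl := uq h.q h1 h.lt h.ne hs fun x => h2 ▸ (div_eq_one_iff_eq (mon_ne b x)).1 (DFunLike.congr_fun this x)
  exact h3.imp_left Eq.symm

theorem Tg.van (h : Tg p b) (h1 : μ ≠ dl b) (h2 : ¬ Cy p μ (dl b)) {f : K → K} (hf : f ∈ Sp F K p μ) : ka p b f = 0 :=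
  Submodule.span_le.2 (show _ ⊆ (LinearMap.ker (ka p b) : Set (K → K)) by
    rintro _ ⟨c, rfl, rfl⟩
    exact by_contra fun n => (h.key n).elim (fun e => h1 (e ▸ rfl)) h2) hf

theorem Tg.van' (h : Tg p b) (h1 : μ ≠ dl b) (h2 : wt μ ≤ wt (dl b)) {f : K → K} (hf : f ∈ Sp F K p μ) : ka p b f = 0 :=
  h.van h1 (fun k => by have := k.le h.hp; have := h.hp; omega) hf

theorem Tg.key' (h : Tg p b) (h2 : wt (dl c) ≤ wt (dl b)) (n : c ≠ b) : ka p b (mon p c) = 0 :=
  by_contra fun k => (h.key k).elim n fun k => by have := k.le h.hp; have := h.hp; omega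

/-- exponent vector concentrated on one level -/
noncomputable def em (i : ZMod (t + 1)) (β : Gal(K/F) → ℕ) : Ix F K t → ℕ := fun s => if s.2 = i then β s.1 else 0
theorem mon_em (i : ZMod (t + 1)) (β : Gal(K/F) → ℕ) : mon p (em i β) = ∏ σ, Zs p (σ, i) ^ β σ := by
  rw [mon, Fintype.prod_prod_type]
  exact prod_congr rfl fun σ _ => by rw [prod_eq_single i (fun a _ h => by simp [em, h]) (by simp), em, if_pos rfl]
theorem dl_em (i : ZMod (t + 1)) (β : Gal(K/F) → ℕ) : dl (em i β) = Pi.single i (∑ σ, β σ) := by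
  ext j; by_cases h : j = i <;> simp [dl, em, h]

variable [hp : Fact p.Prime] [CharP K p] {g : K → K} {l : Gal(K/F) → K} (hg : ∀ x, g x = ∑ σ, l σ * σ x)
include hg

theorem Zs_g (s : Ix F K t) : Zs p s ∘ g = ∑ σ, Zs p s (l (s.1⁻¹ * σ)) • Zs p (σ, s.2) := funext fun x => by
  rw [← Equiv.sum_comp (Equiv.mulLeft s.1)]
  simp [Zs, hg, map_sum, sum_pow_char_pow, mul_pow]

theorem mon_g (b : Ix F K t → ℕ) : mon p b ∘ g ∈ Sp F K p (dl b) := by
  have e : dl b = ∑ s, b s • Pi.single s.2 1 := by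
    conv_lhs => rw [← univ_sum_single b, map_sum]
    exact sum_congr rfl fun s _ => by rw [dl_single, ← Pi.single_smul, smul_eq_mul, mul_one]
  rw [e, show mon p b ∘ g = ∏ s, (Zs p s ∘ g) ^ b s from funext fun x => by simp [mon]]
  refine SetLike.prod_pow_mem_graded _ _ _ _ fun s _ => Zs_g hg s ▸ sum_mem fun σ _ => Submodule.smul_mem _ _ ?_
  simpa [mon_single, dl_single] using mon_Sp (p := p) (Pi.single (σ, s.2) 1)

theorem Zs_g_pow (s : Ix F K t) (m : ℕ) : (Zs p s ∘ g) ^ m = ∑ β ∈ piAntidiag univ m,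
    ((Nat.multinomial univ β : K) * ∏ σ, Zs p s (l (s.1⁻¹ * σ)) ^ β σ) • mon p (em s.2 β) := by
  rw [Zs_g hg, sum_pow_eq_sum_piAntidiag]
  exact sum_congr rfl fun β _ => funext fun x => by simp [mon_em, mul_pow, prod_mul_distrib, mul_assoc]

omit hg in
theorem mult_ne {β : Gal(K/F) → ℕ} (h : ∑ σ, β σ < p) : (Nat.multinomial univ β : K) ≠ 0 := fun e =>
  absurd (hp.out.dvd_factorial.1 (((CharP.cast_eq_zero_iff K p _).1 e).trans (Dvd.intro_left _ (Nat.multinomial_spec _ _)))) h.not_ge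

theorem Tg.red (h : Tg p b) {ι : Type} (I : Finset ι) (co : ι → K) (d : ι → Ix F K t → ℕ) {k : ι} (hk : k ∈ I) (h0 : co k ≠ 0)
    (inv : (∑ k ∈ I, co k • mon p (d k)) ∘ g = ∑ k ∈ I, co k • mon p (d k)) (γ : Ix F K t → ℕ)
    (h1 : ∀ k' ∈ I, k' ≠ k → dl γ + dl (d k') ≠ dl b ∧ ¬ Cy p (dl γ + dl (d k')) (dl b))
    (h2 : mon p c = mon p (γ + d k)) (h3 : wt (dl c) < wt (dl b)) : ka p b ((mon p γ ∘ g) * mon p (d k)) = 0 := by
  have e : ∑ k ∈ I, co k • (mon p (γ + d k) ∘ g) = ∑ k ∈ I, co k • ((mon p γ ∘ g) * mon p (d k)) := by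
    simp only [← mul_smul_comm, ← mul_sum]
    rw [← inv]
    ext x; simp [mon_add, mul_sum, mul_left_comm]
  have := congrArg (ka p b) e
  rw [map_sum, map_sum, sum_eq_single_of_mem k hk, sum_eq_single_of_mem k hk, map_smul, map_smul, ← h2,
    h.van' (fun e => h3.ne (congrArg wt e)) h3.le (mon_g hg c)] at this
  · simpa [h0] using this
  · exact fun k' h4 h5 => by
      rw [map_smul, h.van (h1 k' h4 h5).1 (h1 k' h4 h5).2 (SetLike.mul_mem_graded (mon_g hg γ) (mon_Sp _)), smul_zero]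
  · exact fun k' h4 h5 => by rw [map_smul, h.van (h1 k' h4 h5).1 (h1 k' h4 h5).2 (map_add dl γ _ ▸ mon_g hg _), smul_zero]

end H13.SG
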