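import Cfsg.Agent.H13.SG7

/-! S5636: an intransitive overgroup of the Singer normaliser is monomial (chunk PM). -/

set_option autoImplicit false
set_option linter.unusedSectionVars false

open Module Finset H13.R3 Classical

namespace H13.SG

universe u

variable {F K : Type u} [Field F] [Fintype F] [Field K] [Fintype K] [Algebra F K] {p t : ℕ}

variable (F K) in
def dd (a : ZMod (t + 1) → ℕ) : Ix F K t → ℕ := fun s => a s.2
theorem dl_dd (a : ZMod (t + 1) → ℕ) : dl (dd F K a) = Fintype.card Gal(K/F) • a := by ext i; simp [dl, dd]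
theorem dd_split (a : ZMod (t + 1) → ℕ) (s : Ix F K t) : ∃ c : Ix F K t → ℕ, dd F K a = c + Pi.single s (a s.2) ∧ c s = 0 ∧
    ∀ s', s' ≠ s → c s' = a s'.2 := ⟨Function.update (dd F K a) s 0, funext fun s' => by
  by_cases e : s' = s <;> simp [e, dd], by simp, fun s' e => by simp [e, dd]⟩
theorem em_inj {i : ZMod (t + 1)} {β β' : Gal(K/F) → ℕ} (h : em i β = em (t := t) i β') : β = β' :=
  funext fun σ => by simpa [em] using congrFun h (σ, i)

variable (F p) in
structure Dat (g : K → K) (l : Gal(K/F) → K) (I : Finset ℕ) (co : ℕ → K) (a : ℕ → ZMod (t + 1) → ℕ) : Prop where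
  q : Fintype.card F = p ^ (t + 1)
  n4 : 4 ≤ Fintype.card Gal(K/F)
  hg : ∀ x, g x = ∑ σ, l σ * σ x
  co0 : ∀ k ∈ I, co k ≠ 0
  lt : ∀ k ∈ I, ∀ i, a k i < p
  inj : ∀ k ∈ I, ∀ k' ∈ I, a k = a k' → k = k'
  nz : ∀ k ∈ I, ∃ i, a k i ≠ 0
  nt : ∀ k ∈ I, ∃ i, a k i + 1 ≠ p
  inv : (∑ k ∈ I, co k • mon p (dd F K (a k))) ∘ g = ∑ k ∈ I, co k • mon p (dd F K (a k))

namespace Dat
variable [hp : Fact p.Prime] [CharP K p] {g : K → K} {l : Gal(K/F) → K} {I : Finset ℕ} {co : ℕ → K}
  {a : ℕ → ZMod (t + 1) → ℕ} (D : Dat F p g l I co a) {k : ℕ} (hk : k ∈ I) (mx : ∀ k' ∈ I, wt (a k') ≤ wt (a k))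
  {i : ZMod (t + 1)} {σ₁ σ₂ : Gal(K/F)} (ne : σ₁ ≠ σ₂)
include D hk mx ne

theorem caseA (h0 : a k i ≠ 0) (h1 : a k i + 1 < p) : l σ₁ * l σ₂ = 0 := by
  obtain ⟨m, hm⟩ : ∃ m, p = a k i + (m + 2) := ⟨p - a k i - 2, by omega⟩
  have n4 := D.n4
  let β : Gal(K/F) → ℕ := Pi.single σ₁ (m + 1) + Pi.single σ₂ 1
  have sβ : ∑ σ, β σ = m + 2 := by simp [β, sum_add_distrib]
  obtain ⟨σ₃, -, h3⟩ := exists_mem_notMem_of_card_lt_card (s := {σ₁, σ₂}) (t := univ) (card_le_two.trans_lt (by simp; omega))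
  have tg : Tg p (em i β + dd F K (a k)) := ⟨D.q, hp.out.two_le, fun s => by
      have := D.lt k hk s.2
      by_cases e : s.2 = i
      · by_cases e1 : s.1 = σ₁ <;> by_cases e2 : s.1 = σ₂ <;> simp_all [em, dd, β] <;> omega
      · simpa [em, dd, e],
    fun e => h0 (by simpa [dd] using (Nat.add_eq_zero_iff.1 (congrFun e (σ₁, i))).2),
    (σ₃, i), by simp only [mem_insert, mem_singleton, not_or] at h3; simpa [em, dd, β, h3]⟩
  obtain ⟨c, e, -⟩ := dd_split (a k) ((1 : Gal(K/F)), i)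
  have := tg.red D.hg I co (fun k => dd F K (a k)) hk (D.co0 k hk) D.inv (Pi.single (1, i) (m + 2)) (fun k' h h' => ⟨by
      simpa [dl_single, dl_em, dl_dd, sβ, funext_iff] using mt (D.inj k' h k hk) h',
      fun c => by
        have := c.le hp.out.two_le
        have := Nat.mul_le_mul_left (Fintype.card Gal(K/F)) (mx k' h)
        simp only [map_add, dl_single, dl_em, dl_dd, wt_single, map_nsmul, smul_eq_mul, sβ] at *
        omega⟩) (c := c + Pi.single (nx (1, i)) 1)
    (by rw [← mon_carry D.q, e, add_left_comm, ← Pi.single_add, add_comm (m + 2), ← hm])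
    (by simp only [e, map_add, dl_single, dl_em, wt_single, sβ]; omega)
  rw [mon_single, show (Zs p (1, i) ^ (m + 2)) ∘ g = (Zs p (1, i) ∘ g) ^ (m + 2) from rfl, Zs_g_pow D.hg, sum_mul, map_sum,
    sum_eq_single_of_mem β (by simp [sβ]) fun β' h n => by
      rw [smul_mul_assoc, map_smul, ← mon_add, tg.key' (by simp [dl_em, sβ, (mem_piAntidiag.1 h).1])
        (mt (fun e => em_inj (add_right_cancel e)) n), smul_zero],
    smul_mul_assoc, map_smul, ← mon_add, ka_self, smul_neg, neg_eq_zero, smul_eq_mul, mul_one, mul_eq_zero, prod_eq_zero_iff] at this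
  obtain ⟨σ, -, h⟩ := this.resolve_left (mult_ne (by omega))
  obtain ⟨h4, h5⟩ := pow_eq_zero_iff'.1 h
  have h6 : l σ = 0 := by simpa [Zs] using (pow_eq_zero_iff'.1 h4).1
  by_cases e1 : σ = σ₁
  · rw [← e1, h6, zero_mul]
  · rw [show σ₂ = σ from by_contra fun e2 => h5 (by simp [β, e1, Ne.symm e2]), h6, mul_zero]

theorem caseB (h0 : a k i + 1 = p) (h1 : a k (i + 1) = 0)
    (hB : ∀ k' ∈ I, wt (a k') = wt (a k) → ∀ j, a k' j = 0 ∨ a k' j + 1 = p) : l σ₁ * l σ₂ = 0 := by
  have p2 := hp.out.two_le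
  have n4 := D.n4
  have ii : i + 1 ≠ i := fun e => by rw [e] at h1; omega
  have spl := fun σ => dd_split (F := F) (K := K) (a k) (σ, i)
  choose c e c0 c1 using spl
  have cy : ∀ σ (b : Ix F K t → ℕ), mon p (Pi.single (σ, i) 1 + b + dd F K (a k)) = mon p (c σ + b + Pi.single (nx (σ, i)) 1) :=
    fun σ b => by rw [← mon_carry D.q, e σ, ← h0, Pi.single_add]; congr 1; abel
  have w : ∀ σ, dl (c σ) + Pi.single i (a k i) = Fintype.card Gal(K/F) • a k := fun σ => by
    rw [← dl_dd, e σ, map_add, dl_single]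
  let β : Gal(K/F) → ℕ := Pi.single (tw F K i * σ₂) (a k i)
  have sβ : ∑ σ, β σ = a k i := by simp [β]
  have tg : Tg p (c σ₁ + em (i + 1) β + Pi.single (nx (σ₁, i)) 1) := ⟨D.q, p2, fun s => by
      have := D.lt k hk s.2
      obtain ⟨σ, j⟩ := s
      by_cases e : j = i + 1
      · by_cases e1 : σ = tw F K i * σ₁ <;> by_cases e2 : σ = tw F K i * σ₂ <;> simp_all [em, nx, β] <;> omega
      · by_cases e1 : (σ, j) = (σ₁, i) <;> simp_all [em, nx]; omega,
    fun e => by simpa using congrFun e (nx (σ₁, i)), (σ₁, i), by simpa [c0, em, nx, ii.symm] using hp.out.one_lt⟩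
  have w1 := congrArg wt (w σ₁)
  have := tg.red D.hg I co (fun k => dd F K (a k)) hk (D.co0 k hk) D.inv
    (Pi.single (1, i) 1 + Pi.single (nx (1, i)) (a k i)) (fun k' h h' => ⟨fun e => ?_, ?_⟩)
    (c := c 1 + Pi.single (nx (nx (1, i))) 1)
    (by rw [cy, ← mon_carry D.q, add_assoc, ← Pi.single_add, h0])
    (by
      have := congrArg wt (w 1)
      simp only [map_add, dl_single, dl_em, wt_single, sβ] at *; omega)
  · rw [mon_add, mon_single, mon_single, pow_one, show (Zs p (1, i) * Zs p (nx (1, i)) ^ a k i) ∘ g =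
      (Zs p (1, i) ∘ g) * (Zs p (nx (1, i)) ∘ g) ^ a k i from rfl, Zs_g_pow D.hg, Zs_g D.hg, sum_mul_sum, sum_mul, map_sum,
      sum_eq_single_of_mem σ₁ (mem_univ _) fun σ _ n => ?_, sum_mul, map_sum,
      sum_eq_single_of_mem β (by simp [sβ]) fun β' h n => ?_] at this
    · rw [smul_mul_smul_comm, smul_mul_assoc, map_smul, ← pow_one (Zs p (σ₁, _)), ← mon_single, ← mon_add, ← mon_add, cy,
        show (nx ((1 : Gal(K/F)), i)).2 = i + 1 from rfl, ka_self, smul_neg, neg_eq_zero, smul_eq_mul, mul_one, mul_eq_zero,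
        mul_eq_zero, prod_eq_zero_iff] at this
      rcases this with h | h | ⟨σ, -, h⟩
      · rw [show l σ₁ = 0 by simpa [Zs] using (pow_eq_zero_iff'.1 h).1, zero_mul]
      · exact absurd h (mult_ne (by omega))
      · obtain ⟨h4, h5⟩ := pow_eq_zero_iff'.1 h
        obtain rfl : σ = tw F K i * σ₂ := by_contra fun e2 => h5 (by simp [β, e2])
        rw [show l σ₂ = 0 by simpa [nx] using (pow_eq_zero_iff'.1 h4).1, mul_zero]
    · rw [smul_mul_smul_comm, smul_mul_assoc, map_smul, ← pow_one (Zs p (σ₁, _)), ← mon_single, ← mon_add, ← mon_add, cy,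
        show (nx ((1 : Gal(K/F)), i)).2 = i + 1 from rfl, tg.key' (by simp [dl_em, sβ, (mem_piAntidiag.1 h).1])
          (mt (fun e => em_inj (add_left_cancel (add_right_cancel e))) n), smul_zero]
    · rw [sum_mul, map_sum]
      refine sum_eq_zero fun β' h => ?_
      rw [smul_mul_smul_comm, smul_mul_assoc, map_smul, ← pow_one (Zs p (σ, _)), ← mon_single, ← mon_add, ← mon_add, cy,
        tg.key' (by
          have := congrArg wt (w σ)
          simp only [map_add, dl_single, dl_em, wt_single, sβ, (mem_piAntidiag.1 h).1] at *; omega) fun e => ?_, smul_zero]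
      have := congrFun e (σ₁, i)
      simp [c0, c1 σ (σ₁, i) (by simpa using n.symm), em, nx, ii.symm] at this
      omega
  · have h2 := congrFun e (i + 1)
    have h3 := congrFun (w σ₁) (i + 1)
    simp only [map_add, dl_single, dl_em, dl_dd, sβ, nx, Pi.add_apply, Pi.smul_apply, Pi.single_eq_same, Pi.single_eq_of_ne ii,
      smul_eq_mul, h1] at h2 h3
    have : Fintype.card Gal(K/F) * a k' (i + 1) = 1 := by omega
    have := Nat.eq_one_of_mul_eq_one_right this
    omega
  · have m := Nat.mul_le_mul_left (Fintype.card Gal(K/F)) (mx k' h)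
    rintro (⟨r, e⟩ | e)
    · have e' := congrArg wt e
      simp only [map_add, dl_single, dl_em, dl_dd, wt_single, map_nsmul, smul_eq_mul, sβ, nx] at e e' w1
      have e1 := Nat.eq_of_mul_eq_mul_left (show 0 < Fintype.card Gal(K/F) by omega)
        (show _ * wt (a k') = _ * wt (a k) by omega)
      have e2 : ∀ j, Fintype.card Gal(K/F) * a k j + (Pi.single (i + 1) 1 : _ → ℕ) j + (Pi.single r p : _ → ℕ) j =
          (Pi.single i p : _ → ℕ) j + Fintype.card Gal(K/F) * a k' j + (Pi.single (r + 1) 1 : _ → ℕ) j := fun j => by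
        have h2 := congrFun e j
        have h3 := congrFun (w σ₁) j
        have h4 := congrFun (Pi.single_add (f := fun _ => ℕ) i (a k i) 1) j
        simp only [Pi.add_apply, Pi.smul_apply, smul_eq_mul, h0] at h2 h3 h4
        omega
      by_cases ri : r = i
      · exact h' (D.inj k' h k hk (funext fun j => Nat.eq_of_mul_eq_mul_left (show 0 < Fintype.card Gal(K/F) by omega)
          (by have := e2 j; rw [ri] at this; omega)))
      have h2 := e2 r
      have h3 : (Pi.single (i + 1) 1 : _ → ℕ) r ≤ 1 := by by_cases e : r = i + 1 <;> simp [e]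
      rw [Pi.single_eq_same, Pi.single_eq_of_ne ri, Pi.single_eq_of_ne (i' := r) (i := r + 1) (by simpa using ii)] at h2
      rcases hB k' h e1 r with h4 | h4 <;> rcases hB k hk rfl r with h5 | h5 <;> nlinarith
    · simp only [map_add, dl_single, dl_em, dl_dd, wt_single, map_nsmul, smul_eq_mul, sβ, nx] at e w1
      omega

omit hk mx in
theorem core (hI : I.Nonempty) : l σ₁ * l σ₂ = 0 := by
  obtain ⟨k, hk, mx⟩ := exists_max_image I (fun k => wt (a k)) hI
  by_cases h : ∃ k' ∈ I, wt (a k') = wt (a k) ∧ ∃ i, a k' i ≠ 0 ∧ a k' i + 1 ≠ p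
  · obtain ⟨k', h1, h2, i, h3, h4⟩ := h
    exact D.caseA h1 (h2 ▸ mx) ne h3 (lt_of_le_of_ne (D.lt k' h1 i) h4)
  have hB : ∀ k' ∈ I, wt (a k') = wt (a k) → ∀ j, a k' j = 0 ∨ a k' j + 1 = p := fun k' h1 h2 j =>
    by_contra fun n => h ⟨k', h1, h2, j, not_or.1 n⟩
  obtain ⟨i, h1, h2⟩ : ∃ i, a k i + 1 = p ∧ a k (i + 1) = 0 := by
    by_contra! c
    obtain ⟨i, hi⟩ := D.nz k hk
    obtain ⟨j, hj⟩ := D.nt k hk
    have : ∀ m : ℕ, a k (i + m) + 1 = p := fun m => by
      induction m with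
      | zero => simpa [hi] using hB k hk rfl i
      | succ m ih => rw [Nat.cast_succ, ← add_assoc]; exact (hB k hk rfl _).resolve_left (c _ ih)
    exact hj (by simpa using this (j - i).val)
  exact D.caseB hk mx ne h1 h2 hB
end Dat

theorem ex_rep (g : K →ₗ[F] K) : ∃ l : Gal(K/F) → K, ∀ x, g x = ∑ σ, l σ * σ x := by
  have li := (linearIndependent_toLinearMap F K K).comp _ (AlgEquiv.coe_algHom_injective (R := F) (A₁ := K) (A₂ := K))
  obtain ⟨l, e⟩ := (Submodule.mem_span_range_iff_exists_fun K).1 ((li.span_eq_top_of_card_eq_finrank' (by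
    rw [finrank_linearMap_self, ← Nat.card_eq_fintype_card, IsGalois.card_aut_eq_finrank])).ge (Submodule.mem_top (x := g)))
  exact ⟨l, fun x => by simp [← e]⟩

theorem pm : PM.{u} := by
  intro F K _ _ _ _ _ J hy
  by_cases d : finrank F K ∣ Fintype.card F - 1
  swap
  · refine Or.inl fun v w v0 w0 => ?_
    obtain ⟨j, hj, e⟩ := hy.mu_all d (div_ne_zero w0 v0)
    exact ⟨j, hj, (e v).trans (div_mul_cancel₀ _ v0)⟩
  refine or_iff_not_imp_left.2 fun n g hg => ?_
  obtain ⟨p, _, ⟨_ | t, t0⟩, hp, q⟩ := FiniteField.card' F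
  · exact absurd t0 (lt_irrefl _)
  replace q : Fintype.card F = p ^ (t + 1) := q
  have := Fact.mk hp
  have := charP_of_injective_algebraMap (algebraMap F K).injective p
  have n0 := hy.pr.pos
  have cG : Fintype.card Gal(K/F) = finrank F K := by rw [← Nat.card_eq_fintype_card, IsGalois.card_aut_eq_finrank]
  obtain ⟨l, hl⟩ := ex_rep (g : K →ₗ[F] K)
  set M := (Fintype.card K - 1) / finrank F K with hM
  obtain ⟨e, he⟩ := d
  have d : finrank F K ∣ Fintype.card F - 1 := ⟨e, he⟩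
  have e0 : 0 < e := Nat.pos_of_ne_zero fun k => by have := q2 F; rw [k] at he; omega
  have hx : ∀ x : K, x ^ M = algebraMap F K (Algebra.norm F x) ^ e := fun x => by
    rw [hy.pow_M d, he, Nat.mul_div_cancel_left _ n0, map_pow]
  let R := Polynomial.nthRootsFinset (finrank F K) (1 : K)
  let P := Lagrange.interpolate R id fun ξ => if ∃ j ∈ J, j 1 ^ M = ξ then (1 : K) else 0
  have hP : ∀ x : K, x ≠ 0 → P.eval (x ^ M) = if ∃ j ∈ J, j 1 = x then 1 else 0 := fun x x0 => by
    refine (Lagrange.eval_interpolate_at_node _ (Set.injOn_id _) ((Polynomial.mem_nthRootsFinset n0 _).2 ?_)).trans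
      (if_congr ⟨fun ⟨j, hj, h⟩ => ?_, fun ⟨j, hj, h⟩ => ⟨j, hj, h ▸ rfl⟩⟩ rfl rfl)
    · rw [hx, ← pow_mul, mul_comm, ← he, ← map_pow, FiniteField.pow_card_sub_one_eq_one _ (Algebra.norm_ne_zero_iff.2 x0), map_one]
    · obtain ⟨i, hi, h'⟩ := hy.cls d (x := x / j 1) (by rw [div_pow, h, div_self (pow_ne_zero _ x0)])
      exact ⟨i * j, mul_mem hi hj, (h' _).trans (div_mul_cancel₀ _ (by simp))⟩
  have dg : ∀ k ∈ P.support.erase 0, 0 < k * e ∧ k * e + 1 < p ^ (t + 1) := fun k hk => by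
    have h1 := Polynomial.le_degree_of_mem_supp k (mem_of_mem_erase hk)
    have h2 : k < finrank F K := (Nat.cast_lt.1 (h1.trans_lt (Lagrange.degree_interpolate_lt _ (Set.injOn_id _)))).trans_le
      ((Multiset.toFinset_card_le _).trans (Polynomial.card_nthRoots _ _))
    have := Nat.mul_lt_mul_of_pos_right h2 e0
    exact ⟨Nat.mul_pos (Nat.pos_of_ne_zero (ne_of_mem_erase hk)) e0, by omega⟩
  have dig : ∀ m, ∃ a : ZMod (t + 1) → ℕ, m < p ^ (t + 1) → (∀ i, a i < p) ∧ ∑ i, a i * p ^ i.val = m := fun m => by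
    by_cases h : m < p ^ (t + 1)
    · obtain ⟨a, ha⟩ := finFunctionFinEquiv.surjective ⟨m, h⟩
      exact ⟨fun i => a i, fun _ => ⟨fun i => (a i).2, congrArg Fin.val ha⟩⟩
    · exact ⟨0, fun k => absurd k h⟩
  choose a ha using dig
  have hf : ∀ x, (∑ k ∈ P.support.erase 0, P.coeff k • mon p (dd F K (a (k * e)))) x = P.eval (x ^ M) - P.coeff 0 := fun x => by
    rw [eq_sub_iff_add_eq, Polynomial.eval_eq_sum, Polynomial.sum_def, ← sum_subset (subset_insert 0 P.support) (fun k _ h => by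
      simp [Polynomial.notMem_support_iff.1 h]) |>.symm, ← erase_insert_eq_erase, ← sum_erase_add _ _ (mem_insert_self 0 _),
      pow_zero, mul_one, Finset.sum_apply, erase_insert_eq_erase]
    refine congrArg (· + _) (sum_congr rfl fun k hk => congrArg (P.coeff k * ·) (?_ : mon p _ x = _))
    rw [hx, ← pow_mul, (mul_comm e k).trans (ha (k * e) (by have := dg k hk; omega)).2.symm, Algebra.norm_eq_prod_automorphisms,
      ← prod_pow_eq_pow_sum, mon, prod_apply, Fintype.prod_prod_type_right]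
    exact prod_congr rfl fun i _ => by simp [Zs, dd, ← pow_mul, mul_comm, prod_pow]
  have D : Dat F p g l (P.support.erase 0) P.coeff fun k => a (k * e) := ⟨q, by have := hy.n13; omega, hl,
    fun k hk => Polynomial.mem_support_iff.1 (mem_of_mem_erase hk), fun k hk => (ha _ (by have := dg k hk; omega)).1,
    fun k hk k' hk' h => Nat.eq_of_mul_eq_mul_right e0 (by
      rw [← (ha (k * e) (by have := dg k hk; omega)).2, h, (ha _ (by have := dg k' hk'; omega)).2]),
    fun k hk => by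
      by_contra! c
      have := (ha (k * e) (by have := dg k hk; omega)).2
      simp only [c, zero_mul, sum_const_zero] at this
      exact (dg k hk).1.ne this,
    fun k hk => by
      by_contra! c
      have h1 := ha _ (dg k hk).2
      have := sum_le_sum (s := univ) fun i _ => Nat.mul_le_mul_right (p ^ i.val) (Nat.lt_succ_iff.1 ((h1.1 i).trans_eq (c i).symm))
      rw [h1.2, (ha _ (by have := dg k hk; omega)).2] at this
      omega,
    funext fun x => by
      rw [Function.comp, hf, hf]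
      by_cases x0 : x = 0
      · simp [x0]
      · rw [hP _ x0, hP _ (by simpa)]
        exact congrArg (· - _) (if_congr ⟨fun ⟨j, hj, h⟩ => ⟨g⁻¹ * j, mul_mem (inv_mem hg) hj, by simp [h]⟩,
          fun ⟨j, hj, h⟩ => ⟨g * j, mul_mem hg hj, by simp [h]⟩⟩ rfl rfl)⟩
  have hI : (P.support.erase 0).Nonempty := nonempty_iff_ne_empty.2 fun h => n fun v w v0 w0 => by
    have k : ∀ x : K, x ≠ 0 → ∃ j ∈ J, j 1 = x := fun x x0 => by_contra fun c => by
      have h1 := (hf x).symm.trans (hf 1 ▸ by rw [h]; rfl : _ = P.eval (1 ^ M) - P.coeff 0)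
      rw [sub_left_inj, hP x x0, hP 1 one_ne_zero, if_neg c, if_pos ⟨1, one_mem _, rfl⟩] at h1
      exact zero_ne_one h1
    exact otrans (osymm (k v v0)) (k w w0)
  obtain ⟨σ, h0⟩ : ∃ σ, l σ ≠ 0 := by
    by_contra! c
    simpa [c] using hl 1
  obtain ⟨i, hi⟩ := (FiniteField.bijective_frobeniusAlgEquivOfAlgebraic_pow F K).2 σ
  refine ⟨l σ, i, fun x => (hl x).trans ((sum_eq_single σ (fun τ _ h => ?_) (by simp)).trans ?_)⟩
  · rw [(mul_eq_zero.1 (D.core h hI)).resolve_right h0, zero_mul]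
  · simp only [← hi, AlgEquiv.coe_pow, FiniteField.coe_frobeniusAlgEquivOfAlgebraic, pow_iterate]

end H13.SG
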