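import Cfsg.Agent.H13.SG6
import Cfsg.Agent.H13.SG8

/-! S5807/S5852: the Singer normaliser for `n = 7, 11` (port of SG1, SG6, SG8). -/

set_option autoImplicit false
set_option linter.unusedSectionVars false

open Module MulAction H13.R3 H13.SG

namespace H13.SH

universe u

section field
variable {F : Type u} [Field F] [Fintype F] {K : Type u} [Field K] [Fintype K] [Algebra F K]

/-- the global hypotheses -/
structure Hy (J : Subgroup (K ≃ₗ[F] K)) : Prop where
  pr : (finrank F K).Prime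
  n13 : 7 ≤ finrank F K
  n11 : finrank F K = 7 ∨ finrank F K = 11
  sc : Sc F K J
  c1 : ∀ c : K, Algebra.norm F c = 1 → Mu J c
  fr : ∃ j ∈ J, ∀ x, j x = x ^ Fintype.card F
  dt : ∀ j ∈ J, ∃ l : F, LinearMap.det (j : K →ₗ[F] K) = l ^ finrank F K

variable {J : Subgroup (K ≃ₗ[F] K)} {c d x y z : K}

namespace Hy
variable (hy : Hy J)
include hy

theorem mu_alg {s : F} (h : s ≠ 0) : Mu J (algebraMap F K s) :=
  let ⟨j, hj, e⟩ := hy.sc s h; ⟨j, hj, fun x => (e x).trans (Algebra.smul_def s x)⟩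

theorem inv_sml {Γ : K → K → Prop} (i : Inv J Γ) {s : F} (h : s ≠ 0) (k : Γ x y) : Γ (s • x) y := by
  simpa [← Algebra.smul_def, h] using i.sml _ (inv_ne_zero h) _ _ (i.mu (hy.mu_alg h) k)

theorem mu_of_norm {l : F} (l0 : l ≠ 0) (h : Algebra.norm F x = l ^ finrank F K) : Mu J x := by
  have := (hy.mu_alg l0).mul (hy.c1 (algebraMap F K l⁻¹ * x) (by
    rw [map_mul, Algebra.norm_algebraMap, h, ← mul_pow, inv_mul_cancel₀ l0, one_pow]))
  rwa [← mul_assoc, ← map_mul, mul_inv_cancel₀ l0, map_one, one_mul] at this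

theorem norm_of_mu (h : Mu J d) : ∃ l : F, l ≠ 0 ∧ Algebra.norm F d = l ^ finrank F K := by
  have d0 := h.ne0
  obtain ⟨j, hj, e⟩ := h
  obtain ⟨l, hl⟩ := hy.dt j hj
  have : Algebra.norm F d = l ^ finrank F K := by
    rw [← hl, Algebra.norm_apply]; congr 1; ext x; simp [e]
  exact ⟨l, fun k => Algebra.norm_ne_zero_iff.2 d0 (by rw [this, k, zero_pow hy.pr.ne_zero]), this⟩

theorem mu_all (h : ¬ finrank F K ∣ Fintype.card F - 1) (c0 : c ≠ 0) : Mu J c := by
  have n0 := Algebra.norm_ne_zero_iff (R := F).2 c0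
  obtain ⟨l, hl⟩ := (powCoprime (G := Fˣ) (n := finrank F K) (by
    rw [Nat.card_units, Nat.card_eq_fintype_card]; exact ((Nat.Prime.coprime_iff_not_dvd hy.pr).2 h).symm)).surjective
    (Units.mk0 _ n0)
  exact hy.mu_of_norm l.ne_zero (by simpa using (congrArg Units.val hl).symm)

theorem lt_q (h : finrank F K ∣ Fintype.card F - 1) : finrank F K < Fintype.card F := by
  have := q2 F
  have := Nat.le_of_dvd (by omega) h
  omega

theorem pow_M (h : finrank F K ∣ Fintype.card F - 1) (x : K) : x ^ ((Fintype.card K - 1) / finrank F K) =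
    algebraMap F K (Algebra.norm F x ^ ((Fintype.card F - 1) / finrank F K)) := by
  have k : Fintype.card F - 1 ∣ Fintype.card K - 1 := by
    simpa [card_K (F := F) (K := K)] using Nat.sub_dvd_pow_sub_pow (Fintype.card F) 1 (finrank F K)
  rw [map_pow, FiniteField.algebraMap_norm_eq_pow, ← pow_mul, Nat.card_eq_fintype_card, Nat.card_eq_fintype_card,
    ← Nat.mul_div_assoc _ h, Nat.div_mul_cancel k]

theorem cls (h : finrank F K ∣ Fintype.card F - 1) (k : x ^ ((Fintype.card K - 1) / finrank F K) = 1) : Mu J x := by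
  rw [hy.pow_M h, map_eq_one_iff _ (algebraMap F K).injective] at k
  obtain ⟨l, l0, e⟩ := cyc_root (Nat.mul_div_cancel' h) k
  exact hy.mu_of_norm l0 e.symm

theorem root (h : x ^ finrank F K = 1) : x ∈ F ∙ (1 : K) := by
  have := Fact.mk hy.pr
  refine mem_one_of ?_
  rw [pow_eq_pow_mod _ h, (ZMod.natCast_eq_natCast_iff' _ (Fintype.card F ^ finrank F K) _).1 (by
    rw [Nat.cast_pow, ZMod.pow_card]), ← pow_eq_pow_mod _ h, pow_qn]

theorem norm_eq {ζ : F} (h1 : ζ ^ finrank F K = 1) (h : d ^ Fintype.card F = ζ • d) :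
    algebraMap F K (Algebra.norm F d) = d ^ finrank F K := by
  have k : ∀ i, d ^ Fintype.card F ^ i = algebraMap F K ζ ^ i * d := fun i => by
    induction i with
    | zero => simp
    | succ i ih => rw [pow_succ, pow_mul, ih, mul_pow, ← pow_mul, mul_comm i, pow_mul, alg_pow_q, h, Algebra.smul_def,
        pow_succ, mul_assoc]
  obtain ⟨m, hm⟩ := hy.pr.odd_of_ne_two (by have := hy.n13; omega)
  have e : ∑ i ∈ Finset.range (finrank F K), i = finrank F K * m := by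
    have := Finset.sum_range_id_mul_two (finrank F K)
    rw [show finrank F K - 1 = m * 2 by omega, ← mul_assoc] at this
    omega
  simp only [FiniteField.algebraMap_norm_eq_prod_pow, Nat.card_eq_fintype_card, k, Finset.prod_mul_distrib,
    Finset.prod_const, Finset.card_range]
  rw [Finset.prod_pow_eq_pow_sum, e, pow_mul, ← map_pow, h1, map_one, one_pow, one_mul]

theorem kl (h : Mu J d) (k : d ^ finrank F K ∈ F ∙ (1 : K)) : d ∈ F ∙ (1 : K) := by
  obtain ⟨l, l0, e⟩ := hy.norm_of_mu h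
  obtain ⟨μ, hμ⟩ := mem_one.1 k
  have d0 := h.ne0
  have μ0 : μ ≠ 0 := by rintro rfl; exact pow_ne_zero _ d0 (by simpa using hμ.symm)
  have k1 : (d ^ (Fintype.card F - 1)) ^ finrank F K = 1 := by
    rw [← pow_mul, mul_comm, pow_mul, ← hμ, ← map_pow, FiniteField.pow_card_sub_one_eq_one _ μ0, map_one]
  obtain ⟨ζ, hζ⟩ := mem_one.1 (hy.root k1)
  have k2 := hy.norm_eq (d := d) (ζ := ζ) ((algebraMap F K).injective (by rw [map_pow, hζ, k1, map_one])) (by
    rw [Algebra.smul_def, hζ, ← pow_succ, Nat.sub_add_cancel Fintype.card_pos])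
  have l1 : algebraMap F K l ≠ 0 := by simpa
  obtain ⟨s, hs⟩ := mem_one.1 (hy.root (x := d / algebraMap F K l) (by
    rw [div_pow, ← k2, e, map_pow, div_self (pow_ne_zero _ l1)]))
  exact mem_one.2 ⟨s * l, by rw [map_mul, hs, div_mul_cancel₀ _ l1]⟩

theorem gen (S : Subalgebra F K) (h : d ∈ S) (k : d ∉ F ∙ (1 : K)) (x : K) : x ∈ S := by
  have := Subalgebra.isSimpleOrder_of_finrank_prime F K hy.pr
  rcases eq_bot_or_eq_top S with e | e
  · exact absurd (mem_one.2 (Algebra.mem_bot.1 (e ▸ h))) k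
  · exact e ▸ Algebra.mem_top

theorem fr_pow (i : ℕ) : ∃ j ∈ J, ∀ x, j x = x ^ Fintype.card F ^ i := by
  obtain ⟨f, hf, e⟩ := hy.fr
  induction i with
  | zero => exact ⟨1, one_mem _, fun x => by simp⟩
  | succ i ih =>
    obtain ⟨j, hj, e'⟩ := ih
    exact ⟨f * j, mul_mem hf hj, fun x => by rw [LinearEquiv.mul_apply, e, e', ← pow_mul, pow_succ]⟩

theorem mu_of_comm {j : K ≃ₗ[F] K} (k : d ∉ F ∙ (1 : K)) (h : ∀ x, j (d * x) = d * j x) (x : K) : j x = j 1 * x := by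
  let S : Subalgebra F K :=
    { carrier := {e | ∀ x, j (e * x) = e * j x}
      mul_mem' := fun {a b} ha hb x => by rw [mul_assoc, ha, hb, mul_assoc]
      add_mem' := fun {a b} ha hb x => by rw [add_mul, map_add, ha, hb, add_mul]
      algebraMap_mem' := fun s x => by rw [← Algebra.smul_def, ← Algebra.smul_def, map_smul] }
  simpa [mul_comm] using hy.gen S h k x 1

theorem mon_of {j : K ≃ₗ[F] K} (hj : j ∈ J) (k : d ∉ F ∙ (1 : K)) {d' : K} (h : ∀ x, j (d * x) = d' * j x) :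
    ∃ a i, i < finrank F K ∧ Mu J a ∧ ∀ x, j x = a * x ^ Fintype.card F ^ i := by
  let S : Subalgebra F K :=
    { carrier := {e | ∃ e', ∀ x, j (e * x) = e' * j x}
      mul_mem' := fun {a b} ⟨a', ha⟩ ⟨b', hb⟩ => ⟨a' * b', fun x => by rw [mul_assoc, ha, hb, mul_assoc]⟩
      add_mem' := fun {a b} ⟨a', ha⟩ ⟨b', hb⟩ => ⟨a' + b', fun x => by rw [add_mul, map_add, ha, hb, add_mul]⟩
      algebraMap_mem' := fun s => ⟨algebraMap F K s, fun x => by rw [← Algebra.smul_def, ← Algebra.smul_def, map_smul]⟩ }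
  have j0 : j 1 ≠ 0 := by simp
  have k1 : ∀ e x, j (e * x) = j e / j 1 * j x := fun e x => by
    obtain ⟨e', he⟩ := hy.gen S ⟨d', h⟩ k e
    rw [he, ← mul_one e, he, mul_div_cancel_right₀ _ j0]
  let σ : K →ₐ[F] K := AlgHom.ofLinearMap ((LinearMap.mulLeft F (j 1)⁻¹).comp j.toLinearMap) (by simp [j0])
    fun a b => by simp [k1 a b]; ring
  obtain ⟨i, hi⟩ := (FiniteField.bijective_frobeniusAlgHom_pow F K).2 σ
  have e : ∀ x, j x = j 1 * x ^ Fintype.card F ^ i.1 := fun x => by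
    have := DFunLike.congr_fun hi x
    simp only [AlgHom.coe_pow, FiniteField.coe_frobeniusAlgHom, pow_iterate] at this
    rw [this]; simp [σ, j0]
  obtain ⟨f, hf, e'⟩ := hy.fr_pow i.1
  refine ⟨j 1, i, i.2, ⟨j * f⁻¹, mul_mem hj (inv_mem hf), fun x => ?_⟩, e⟩
  rw [LinearEquiv.mul_apply, e, ← e']; simp

theorem ex_beta (h : finrank F K ∣ Fintype.card F - 1) : ∃ (β : K) (ζ : F), IsPrimitiveRoot ζ (finrank F K) ∧ β ≠ 0 ∧
    β ^ Fintype.card F = ζ • β ∧ ∀ x : K, x ≠ 0 → ∃ i < finrank F K, ∃ d, Mu J d ∧ x = d * β ^ i := by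
  have q := q2 F
  have := NeZero.mk hy.pr.ne_zero
  obtain ⟨g, hg⟩ := IsCyclic.exists_ofOrder_eq_natCard (α := Fˣ)
  rw [Nat.card_units, Nat.card_eq_fintype_card] at hg
  have hζ : IsPrimitiveRoot ((g : F) ^ ((Fintype.card F - 1) / finrank F K)) (finrank F K) :=
    (IsPrimitiveRoot.coe_units_iff.2 (hg ▸ IsPrimitiveRoot.orderOf g)).pow (by omega) (Nat.div_mul_cancel h).symm
  generalize (g : F) ^ ((Fintype.card F - 1) / finrank F K) = ζ at hζ
  have k : Fintype.card F - 1 ∣ Fintype.card K - 1 := by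
    simpa [card_K (F := F) (K := K)] using Nat.sub_dvd_pow_sub_pow (Fintype.card F) 1 (finrank F K)
  obtain ⟨β, β0, e⟩ := cyc_root (y := algebraMap F K ζ) (Nat.mul_div_cancel' k) (by
    rw [← Nat.card_eq_fintype_card, ← Nat.card_eq_fintype_card, ← FiniteField.algebraMap_norm_eq_pow,
      Algebra.norm_algebraMap, hζ.pow_eq_one, map_one])
  have e1 : β ^ Fintype.card F = ζ • β := by
    rw [Algebra.smul_def, ← e, ← pow_succ, Nat.sub_add_cancel Fintype.card_pos]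
  have e2 : β ^ ((Fintype.card K - 1) / finrank F K) = algebraMap F K ζ := by
    rw [hy.pow_M h, map_pow, hy.norm_eq hζ.pow_eq_one e1, ← pow_mul, Nat.mul_div_cancel' h, e]
  refine ⟨β, ζ, hζ, β0, e1, fun x x0 => ?_⟩
  obtain ⟨i, hi, e3⟩ := hζ.eq_pow_of_pow_eq_one (ξ := Algebra.norm F x ^ ((Fintype.card F - 1) / finrank F K)) (by
    rw [← pow_mul, Nat.div_mul_cancel h, FiniteField.pow_card_sub_one_eq_one _ (Algebra.norm_ne_zero_iff.2 x0)])
  refine ⟨i, hi, x / β ^ i, hy.cls h ?_, (div_mul_cancel₀ _ (pow_ne_zero _ β0)).symm⟩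
  rw [div_pow, ← pow_mul, mul_comm i, pow_mul, e2, hy.pow_M h, ← e3, map_pow, div_self]
  exact pow_ne_zero _ (by simpa using hζ.ne_zero hy.pr.ne_zero)

theorem pigeon (h : finrank F K ∣ Fintype.card F - 1) (k : Ind F x z) :
    ∃ (s s' : F) (c : K), s ≠ s' ∧ Mu J c ∧ z + s' • x = c * (z + s • x) := by
  obtain ⟨β, -, -, -, -, hβ⟩ := hy.ex_beta h
  choose i hi d hd e using fun s : F => hβ (z + s • x) fun e => k.2 (Submodule.mem_span_singleton.2 ⟨-s, by
    rw [neg_smul, neg_eq_iff_add_eq_zero, add_comm, e]⟩)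
  obtain ⟨s, s', n, e'⟩ := Fintype.exists_ne_map_eq_of_card_lt (fun s => (⟨i s, hi s⟩ : Fin _)) (by simpa using hy.lt_q h)
  exact ⟨s, s', d s' * (d s)⁻¹, n, (hd s').mul (hd s).inv, by
    rw [e s, e s', show i s = i s' from congrArg Fin.val e', mul_assoc, inv_mul_cancel_left₀ (hd s).ne0]⟩
end Hy
end field

section two
variable {F K : Type u} [Field F] [Fintype F] [Field K] [Fintype K] [Algebra F K] {J : Subgroup (K ≃ₗ[F] K)}
  {Γ : K → K → Prop} {x y z u w : K} {j : K ≃ₗ[F] K}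

variable (hy : Hy J) (vv : VV J) (d : finrank F K ∣ Fintype.card F - 1)
include hy vv d

theorem noex (i : Inv J Γ) (n : ¬ Pr J Γ) : ¬ Pr J (Ex F Γ) := fun h => by
  have h3 := vv.v3 _ i.ex h (hy.lt_q d) 1 one_ne_zero
  have h2 := vv.v2 _ i n 1
  have h1 : {y | Ex F Γ 1 y}.ncard ≤ {y | Γ 1 y}.ncard * (Fintype.card F * Fintype.card F) := by
    refine (Set.ncard_le_ncard (t := (fun a : K × F × F => a.2.1 • (1 : K) + a.2.2 • a.1) '' ({y | Γ 1 y} ×ˢ Set.univ))
      ?_).trans ((Set.ncard_image_le (Set.toFinite _)).trans_eq (by simp [Set.ncard_prod]))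
    rintro y ⟨_, z, h1, h2⟩
    obtain ⟨a, b, e⟩ := mem_ln.1 h2
    exact ⟨(z, a, b), ⟨h1, trivial⟩, e⟩
  have q := hy.lt_q d
  have n13 := hy.n13
  generalize Fintype.card F = q' at *
  generalize finrank F K = m at *
  have : q' ^ m < q' ^ 7 := calc
    _ ≤ q' * (m ^ 3 * q' * (q' * q')) := h3.trans (Nat.mul_le_mul q (h1.trans (Nat.mul_le_mul_right _ h2)))
    _ < q' * (q' ^ 3 * q' * (q' * q')) := by
      have : 0 < q' := by omega
      gcongr
    _ = _ := by ring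
  have := (Nat.pow_lt_pow_iff_right (by omega)).1 this
  omega

theorem t1 (i : Inv J Γ) (h : Γ x z) : Pr J Γ := by_contra fun n => by
  have i1 := i.ex
  have i2 : Inv J fun a b => Ex F Γ b a :=
    ⟨fun j hj _ _ => i1.eqv j hj _ _, fun _ s0 _ _ => hy.inv_sml i1 s0, fun _ _ k => (i1.ind _ _ k).symm⟩
  have k := i.ind _ _ h
  obtain ⟨s, s', c, ne, hc, e⟩ := hy.pigeon d k
  have sp := fun t : F => Submodule.smul_mem _ t (Submodule.mem_span_singleton_self x)
  have k1 : Ind F x (z + s • x) := ⟨k.1, fun l => k.2 ((add_mem_cancel_right (sp s)).1 l)⟩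
  refine noex hy vv d i2 (fun ⟨c, a, hc, k⟩ => noex hy vv d i n ⟨c⁻¹, c * a, hc.inv, by
    rwa [inv_mul_cancel_left₀ hc.ne0]⟩) ⟨c, z + s • x, hc, e ▸ ⟨⟨k1.ne0, fun l => k1.symm.2 ?_⟩, x,
      ⟨k1, z, h, add_mem r_ln (sp_le_ln (sp s))⟩, mem_ln.2 ⟨1, s' - s, by module⟩⟩⟩
  have := sub_mem l (Submodule.mem_span_singleton_self _)
  rwa [add_sub_add_left_eq_sub, ← sub_smul, Submodule.smul_mem_iff _ (sub_ne_zero.2 ne.symm)] at this

theorem big (i : Ind F x y) : Fintype.card F ^ finrank F K ≤ (finrank F K + 1) * {b | Ob J x y x b}.ncard :=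
  vv.v3 _ (ob_inv i) (t1 hy vv d (ob_inv i) Ob.self) (hy.lt_q d) x i.1

theorem eig (i : Ind F x y) {φ : K ≃ₗ[F] K} (hφ : φ ∈ J) {η : F} (hη : IsPrimitiveRoot η (finrank F K))
    (e1 : φ x = η • x) (e2 : φ y = y) : Full J x y := fun s => by
  by_cases s0 : s = 0
  · exact ⟨1, one_mem _, rfl, by simp [s0]⟩
  have sp := Submodule.mem_span_singleton_self (R := F) x
  have n13 := hy.n13
  by_cases h : J ⊓ St _ (F ∙ x) ⊓ stabilizer _ (y + s • x) ≤ stabilizer _ y
  · exfalso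
    have b := (big hy vv d i).trans (Nat.mul_le_mul_left _ (Set.ncard_le_ncard
      (t := {b | ∃ j ∈ J ⊓ St _ (F ∙ x), j • y = b}) (by
        rintro _ ⟨j, hj, t, t0, e, rfl⟩
        obtain ⟨g, hg, e'⟩ := hy.sc.mem_St (F ∙ x) t0
        exact ⟨g * j, mul_mem hg ⟨hj, mem_St_sp (show j x ∈ _ from e.symm ▸ sp)⟩, e' _⟩)))
    have m : φ ∈ J ⊓ St _ (F ∙ x) ⊓ stabilizer _ y := ⟨⟨hφ, mem_St_sp (show φ x ∈ _ from e1 ▸ Submodule.smul_mem _ _ sp)⟩, e2⟩
    have k1 : finrank F K ≤ {b | ∃ j ∈ J ⊓ St _ (F ∙ x) ⊓ stabilizer _ y, j • (y + s • x) = b}.ncard := by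
      have pw : ∀ k : ℕ, (φ ^ k) x = η ^ k • x := fun k => by
        induction k with
        | zero => simp
        | succ k ih => rw [pow_succ', LinearEquiv.mul_apply, ih, map_smul, e1, smul_smul, pow_succ]
      refine (Set.ncard_Iio_nat _).ge.trans (Set.ncard_le_ncard_of_injOn (fun k => y + s • η ^ k • x)
        (fun k _ => ⟨φ ^ k, pow_mem m k, ?_⟩) fun a ha b hb e => hη.pow_inj ha hb ?_)
      · rw [smul_add, (pow_mem m k).2, gsc _ s]; exact congrArg (y + s • ·) (pw k)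
      · exact smul_left_injective F i.1 (smul_right_injective K s0 (add_left_cancel e))
    have k2 := Subgroup.relIndex_mul_relIndex _ _ _ (le_inf inf_le_left h) (inf_le_left (a := J ⊓ St _ (F ∙ x)))
    rw [ncard_orb, inf_right_comm, inf_eq_left.2 h] at k1
    have k3 := Nat.mul_le_mul_right ((J ⊓ St _ (F ∙ x) ⊓ stabilizer _ y).relIndex (J ⊓ St _ (F ∙ x))) k1
    rw [k2, ← ncard_orb, ← ncard_orb] at k3
    have p0 : 0 < {b | ∃ j ∈ J ⊓ St _ (F ∙ x), j • y = b}.ncard := (Set.ncard_pos).2 ⟨y, 1, one_mem _, one_smul _ _⟩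
    by_cases l : ∃ j ∈ J ⊓ St _ (F ∙ x), j • y = y + s • x
    · rw [show {b | ∃ j ∈ J ⊓ St _ (F ∙ x), j • (y + s • x) = b} = {b | ∃ j ∈ J ⊓ St _ (F ∙ x), j • y = b} from
        Set.ext fun b => ⟨otrans l, otrans (osymm l)⟩] at k3
      nlinarith
    have k4 := Set.ncard_le_ncard (s := {b | ∃ j ∈ J ⊓ St _ (F ∙ x), j • y = b} ∪
      {b | ∃ j ∈ J ⊓ St _ (F ∙ x), j • (y + s • x) = b}) (t := {u | u ≠ 0}) (by
        rintro _ (⟨j, -, rfl⟩ | ⟨j, -, rfl⟩)
        · exact mt gsz.1 i.ne0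
        · exact mt gsz.1 fun e => i.2 (by simpa [eq_neg_of_add_eq_zero_left e] using Submodule.smul_mem _ s sp))
    have dj : Disjoint {b | ∃ j ∈ J ⊓ St _ (F ∙ x), j • y = b} {b | ∃ j ∈ J ⊓ St _ (F ∙ x), j • (y + s • x) = b} :=
      Set.disjoint_left.2 fun b h1 h2 => l (otrans h1 (osymm h2))
    rw [Set.ncard_union_eq dj, ncard_ne0' (F := F)] at k4
    have : 0 < Fintype.card F ^ finrank F K := Nat.pow_pos Fintype.card_pos
    rw [add_mul] at b
    omega
  obtain ⟨j, ⟨hj, f1⟩, f2⟩ := SetLike.not_le_iff_exists.1 h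
  obtain ⟨e, e0, f3⟩ := sp_c i.1 (sp_st hj.2)
  replace f3 : j x = e • x := f3
  have f4 : j y = y + (s * (1 - e)) • x := by
    have : j (y + s • x) = y + s • x := f1
    rw [map_add, map_smul, f3] at this
    rw [eq_sub_of_add_eq this]; module
  have e3 : 1 - e ≠ 0 := fun k => f2 (show j y = y by simp [f4, k])
  let E : AddSubgroup F :=
    { carrier := {μ | ∃ j ∈ J, j x = x ∧ j y = y + μ • x}
      zero_mem' := ⟨1, one_mem _, rfl, by simp⟩
      add_mem' := fun {a b} ⟨g, hg, g1, g2⟩ ⟨k, hk, k1, k2⟩ => ⟨g * k, mul_mem hg hk, by simp [g1, k1], by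
        simp [g1, g2, k2, add_smul, add_assoc]⟩
      neg_mem' := fun {a} ⟨g, hg, g1, g2⟩ => ⟨g⁻¹, inv_mem hg, g.injective (by simp [g1]), g.injective (by simp [g1, g2])⟩ }
  let L : Subring F :=
    { carrier := {a | ∀ μ ∈ E, a * μ ∈ E}
      one_mem' := fun μ h => by simpa
      zero_mem' := fun μ _ => by simp
      mul_mem' := fun ha hb μ h => mul_assoc _ _ μ ▸ ha _ (hb μ h)
      add_mem' := fun ha hb μ h => add_mul _ _ μ ▸ add_mem (ha μ h) (hb μ h)
      neg_mem' := fun ha μ h => neg_mul _ μ ▸ neg_mem (ha μ h) }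
  have iv : ∀ g : K ≃ₗ[F] K, ∀ a b : F, a ≠ 0 → g x = a • x → g y = y + b • x →
      g⁻¹ x = a⁻¹ • x ∧ g⁻¹ y = y - (b / a) • x := fun g a b a0 g1 g2 =>
    ⟨g.injective (by simp [g1, a0]), g.injective (by simp [g1, g2, smul_smul, a0])⟩
  have cj : ∀ g ∈ J, ∀ a b : F, a ≠ 0 → g x = a • x → g y = y + b • x → a ∈ L := fun g hg a b a0 g1 g2 μ ⟨t, ht, t1, t2⟩ =>
    ⟨g * t * g⁻¹, mul_mem (mul_mem hg ht) (inv_mem hg), by simp [iv g a b a0 g1 g2, t1, g1, a0], by
      simp only [LinearEquiv.mul_apply, iv g a b a0 g1 g2, map_sub, map_add, map_smul, t1, t2, g1, g2]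
      match_scalars <;> field_simp <;> ring⟩
  have η0 := hη.ne_zero hy.pr.ne_zero
  have e2' : φ y = y + (0 : F) • x := by simp [e2]
  have m : s * (1 - e) * (1 - η) ∈ E := ⟨j * φ * j⁻¹ * φ⁻¹, mul_mem (mul_mem (mul_mem hj.1 hφ) (inv_mem hj.1)) (inv_mem hφ),
    by simp only [LinearEquiv.mul_apply, iv j _ _ e0 f3 f4, iv φ _ _ η0 e1 e2', map_smul, e1, f3]; match_scalars; field_simp, by
      simp only [LinearEquiv.mul_apply, iv j _ _ e0 f3 f4, iv φ _ _ η0 e1 e2', map_sub, map_smul, e1, e2, f3, f4]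
      match_scalars <;> field_simp <;> ring⟩
  have := pow_mem (mul_mem (sub_mem L.one_mem (cj j hj.1 _ _ e0 f3 f4)) (sub_mem L.one_mem (cj φ hφ _ _ η0 e1 e2')))
    (Fintype.card F - 2) _ m
  rwa [mul_assoc s, mul_left_comm, ← pow_succ, show Fintype.card F - 2 + 1 = Fintype.card F - 1 by have := q2 F; omega,
    FiniteField.pow_card_sub_one_eq_one _ (mul_ne_zero e3 (sub_ne_zero.2 (hη.ne_one hy.pr.one_lt).symm)), mul_one] at this

theorem full (i : Ind F x y) : Full J x y := by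
  obtain ⟨β, ζ, hζ, β0, hβ, cl⟩ := hy.ex_beta d
  have ζ0 := hζ.ne_zero hy.pr.ne_zero
  have i1 : Ind F 1 β := ⟨one_ne_zero, fun h => by
    obtain ⟨s, rfl⟩ := mem_one.1 h
    rw [alg_pow_q] at hβ
    exact hζ.ne_one hy.pr.one_lt (smul_left_injective F β0 (hβ.symm.trans (one_smul _ _).symm))⟩
  obtain ⟨s, s', c, ne, hc, e⟩ := hy.pigeon d i1
  have sp := fun t : F => Submodule.smul_mem _ t (Submodule.mem_span_singleton_self (1 : K))
  have u0 : β + s • 1 ≠ 0 := fun k => i1.2 (eq_neg_of_add_eq_zero_left k ▸ neg_mem (sp s))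
  obtain ⟨a, ha⟩ := vv.v1 _ (ob_inv i) (t1 hy vv d (ob_inv i) Ob.self) c hc fun h => by
    obtain ⟨t, rfl⟩ := mem_one.1 h
    rw [← Algebra.smul_def] at e
    have := ind_iff.1 i1 (s' - t * s) (1 - t) (by linear_combination (norm := module) e)
    exact ne (by rw [sub_eq_zero.1 this.1, ← sub_eq_zero.1 this.2, one_mul])
  obtain ⟨k, -, b, hb, e'⟩ := cl (a / (β + s • 1)) (div_ne_zero ((ob_inv i).ind _ _ ha).1 u0)
  have h1 := (ob_inv i).mu hb.inv ha
  rw [(div_eq_iff u0).1 e', mul_left_comm _ c, mul_assoc b, inv_mul_cancel_left₀ hb.ne0, mul_left_comm, ← e] at h1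
  obtain ⟨φ, hφ, e1⟩ := hy.fr
  have pw : ∀ k : ℕ, φ (β ^ k) = ζ ^ k • β ^ k := fun k => by rw [e1, ← pow_mul, mul_comm, pow_mul, hβ, smul_pow]
  have i2 : Ind F (β ^ k) (β ^ (k + 1)) := ⟨pow_ne_zero _ β0, fun h => by
    obtain ⟨t, ht⟩ := Submodule.mem_span_singleton.1 h
    exact i1.2 (Submodule.mem_span_singleton.2 ⟨t, mul_left_cancel₀ (pow_ne_zero k β0) (by simpa [pow_succ] using ht)⟩)⟩
  obtain ⟨z1, m1, f1⟩ := hy.sc _ (inv_ne_zero (pow_ne_zero (k + 1) ζ0))
  obtain ⟨z2, m2, f2⟩ := hy.sc _ (inv_ne_zero (pow_ne_zero k ζ0))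
  simp only [LinearEquiv.smul_def] at f1 f2
  have := (eig hy vv d i2 (mul_mem m1 hφ) hζ.inv (by simp [f1, pw, pow_succ, mul_smul, ζ0]) (by simp [f1, pw, ζ0])).line
    (eig hy vv d i2.symm (mul_mem m2 hφ) hζ (by rw [LinearEquiv.mul_apply, f2, pw, pow_succ ζ, mul_smul, inv_smul_smul₀ (pow_ne_zero k ζ0)]) (by simp [f2, pw, ζ0]))
    ((ob_inv i).ind _ _ h1) (mem_ln.2 ⟨s, 1, by simp [mul_add, pow_succ, add_comm]⟩)
    (mem_ln.2 ⟨s', 1, by simp [mul_add, pow_succ, add_comm]⟩)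
  obtain ⟨j, hj, t, t0, g1, g2⟩ := h1
  rw [← g1, ← g2] at this
  exact (this.smul (inv_mem hj)).of i (by simp) (by simpa [t0] using mem_ln.2 ⟨0, t⁻¹, by simp [t0]⟩)

omit hy vv d in
theorem two (hy : Hy J) (pt : PT K J) (vv : VV J) : Two F K J := by
  by_cases d : finrank F K ∣ Fintype.card F - 1
  swap
  · intro x y x' y' i i'
    obtain ⟨a, ha⟩ := vv.v1 _ (ob_inv i) ⟨y / x, x, hy.mu_all d (div_ne_zero i.ne0 i.1), by
      rw [div_mul_cancel₀ _ i.1]; exact Ob.self⟩ (y' / x') (hy.mu_all d (div_ne_zero i'.ne0 i'.1))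
      (notF (x := x') (by rwa [div_mul_cancel₀ _ i'.1]))
    have a0 := ((ob_inv i).ind _ _ ha).1
    have := (ob_inv i).mu (hy.mu_all d (div_ne_zero i'.1 a0)) ha
    rw [mul_left_comm, div_mul_cancel₀ _ a0, div_mul_cancel₀ _ i'.1] at this
    exact this.two
  obtain ⟨r, k, hr, q⟩ := H3.R3.ex_p F
  have n13 := hy.n13
  obtain ⟨f, hf⟩ := ex_dual1 (F := F) (one_ne_zero (α := K))
  have f0 : f ≠ 0 := by rintro rfl; simp at hf
  obtain ⟨P, l, hP, tr⟩ := H3.R3.sylf (J := J ⊓ stabilizer _ f) (f := f) (x := 1) hr q hf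
    (fun j hj => by rw [← show j • f = f from hj.2, dsmul_smul, hf]) fun y hy' => by
      have y0 : y ≠ 0 := by rintro rfl; simp at hy'
      obtain ⟨j, hj, rfl⟩ := pt 1 y one_ne_zero y0
      obtain ⟨g, hg, e1, e2⟩ := H3.R3.anti (f := j • f) (f' := f) hy.sc (fun w hw c =>
        let ⟨g, hg, e1, e2⟩ := full hy vv d ⟨y0, hw⟩ c; ⟨g, hg, e1, 1, e2.trans (one_smul _ _).symm⟩)
        (by rw [dsmul_smul, hf]) hy'
      exact ⟨g * j, ⟨mul_mem hg hj, (mul_smul _ _ _).trans e2⟩, (mul_smul _ _ _).trans e1⟩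
  have dK := finrank_ker f0
  obtain ⟨a, ha, a0, fa⟩ := H3.R3.fixp hr q hP (W := LinearMap.ker f) (fun e => by rw [e, finrank_bot] at dK; omega)
    fun j hj w hw => by rw [LinearMap.mem_ker, ← show j • f = f from (l hj).2, dsmul_smul]; exact hw
  have key : ∀ y, Ind F a y → Ob J a y a 1 := fun y i => by
    obtain ⟨b, ⟨j, hj, s, s0, e1, e2⟩, hb⟩ : ∃ b, Ob J a y a b ∧ f b ≠ 0 := by
      by_contra! h
      have h1 := Set.ncard_le_ncard (s := {b | Ob J a y a b}) (t := {u | u ∈ LinearMap.ker f ∧ u ≠ 0})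
        fun b hb => ⟨h b hb, ((ob_inv i).ind _ _ hb).ne0⟩
      have h2 := (big hy vv d i).trans (Nat.mul_le_mul (hy.lt_q d) h1)
      have : 0 < Fintype.card F ^ finrank F (LinearMap.ker f) := Nat.pow_pos Fintype.card_pos
      rw [ncard_ne0, ← dK, pow_succ'] at h2
      have := Nat.le_of_mul_le_mul_left h2 Fintype.card_pos
      omega
    obtain ⟨g, hg, e⟩ := tr ((f b)⁻¹ • b) 1 (by simp [hb]) hf
    exact ⟨g * j, mul_mem (l hg).1 hj, (f b)⁻¹ * s, mul_ne_zero (inv_ne_zero hb) s0, by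
      rw [LinearEquiv.mul_apply, e1]; exact fa g hg, by rw [← e, ← e2]; simp [mul_smul]⟩
  intro x y x' y' i i'
  obtain ⟨j, hj, rfl⟩ := pt a x a0 i.1
  obtain ⟨j', hj', rfl⟩ := pt a x' a0 i'.1
  obtain ⟨g, hg, e1, c, e2⟩ := (key (j⁻¹ • y) (by simpa using i.smul j⁻¹)).two
  obtain ⟨g', hg', s, s0, e3, e4⟩ := key (j'⁻¹ • y') (by simpa using i'.smul j'⁻¹)
  refine ⟨j' * g'⁻¹ * g * j⁻¹, mul_mem (mul_mem (mul_mem hj' (inv_mem hg')) hg) (inv_mem hj), ?_, c * s, ?_⟩
  · rw [mul_smul, mul_smul, mul_smul, inv_smul_smul, e1, inv_smul_eq_iff.2 e3.symm]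
  · rw [mul_smul, mul_smul, mul_smul, e2, ← e4]; simp [mul_smul]
end two

section pm
open Finset Classical
variable {F K : Type u} [Field F] [Fintype F] [Field K] [Fintype K] [Algebra F K] {J : Subgroup (K ≃ₗ[F] K)}

theorem pm (hy : Hy J) : PT K J ∨ ∀ j ∈ J, Mon F j := by
  by_cases d : finrank F K ∣ Fintype.card F - 1
  swap
  · refine Or.inl fun v w v0 w0 => ?_
    obtain ⟨j, hj, e⟩ := hy.mu_all d (div_ne_zero w0 v0)
    exact ⟨j, hj, (e v).trans (div_mul_cancel₀ _ v0)⟩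
  refine or_iff_not_imp_left.2 fun n g hg => ?_
  obtain ⟨p, _, ⟨_ | t, t0⟩, hp, q⟩ := FiniteField.card' F
  · exact absurd t0 (lt_irrefl _)
  replace q : Fintype.card F = p ^ (t + 1) := q
  have := Fact.mk hp
  have := charP_of_injective_algebraMap (algebraMap F K).injective p
  have n0 := hy.pr.pos
  have cG : Fintype.card Gal(K/F) = finrank F K := by rw [← Nat.card_eq_fintype_card, IsGalois.card_aut_eq_finrank]
  obtain ⟨l, hl⟩ := ex_rep (g : K →ₗ[F] K)
  set M := (Fintype.card K - 1) / finrank F K with hM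
  obtain ⟨e, he⟩ := d
  have d : finrank F K ∣ Fintype.card F - 1 := ⟨e, he⟩
  have e0 : 0 < e := Nat.pos_of_ne_zero fun k => by have := q2 F; rw [k] at he; omega
  have hx : ∀ x : K, x ^ M = algebraMap F K (Algebra.norm F x) ^ e := fun x => by
    rw [hy.pow_M d, he, Nat.mul_div_cancel_left _ n0, map_pow]
  let R := Polynomial.nthRootsFinset (finrank F K) (1 : K)
  let P := Lagrange.interpolate R id fun ξ => if ∃ j ∈ J, j 1 ^ M = ξ then (1 : K) else 0
  have hP : ∀ x : K, x ≠ 0 → P.eval (x ^ M) = if ∃ j ∈ J, j 1 = x then 1 else 0 := fun x x0 => by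
    refine (Lagrange.eval_interpolate_at_node _ (Set.injOn_id _) ((Polynomial.mem_nthRootsFinset n0 _).2 ?_)).trans
      (if_congr ⟨fun ⟨j, hj, h⟩ => ?_, fun ⟨j, hj, h⟩ => ⟨j, hj, h ▸ rfl⟩⟩ rfl rfl)
    · rw [hx, ← pow_mul, mul_comm, ← he, ← map_pow, FiniteField.pow_card_sub_one_eq_one _ (Algebra.norm_ne_zero_iff.2 x0), map_one]
    · obtain ⟨i, hi, h'⟩ := hy.cls d (x := x / j 1) (by rw [div_pow, h, div_self (pow_ne_zero _ x0)])
      exact ⟨i * j, mul_mem hi hj, (h' _).trans (div_mul_cancel₀ _ (by simp))⟩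
  have dg : ∀ k ∈ P.support.erase 0, 0 < k * e ∧ k * e + 1 < p ^ (t + 1) := fun k hk => by
    have h1 := Polynomial.le_degree_of_mem_supp k (mem_of_mem_erase hk)
    have h2 : k < finrank F K := (Nat.cast_lt.1 (h1.trans_lt (Lagrange.degree_interpolate_lt _ (Set.injOn_id _)))).trans_le
      ((Multiset.toFinset_card_le _).trans (Polynomial.card_nthRoots _ _))
    have := Nat.mul_lt_mul_of_pos_right h2 e0
    exact ⟨Nat.mul_pos (Nat.pos_of_ne_zero (ne_of_mem_erase hk)) e0, by omega⟩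
  have dig : ∀ m, ∃ a : ZMod (t + 1) → ℕ, m < p ^ (t + 1) → (∀ i, a i < p) ∧ ∑ i, a i * p ^ i.val = m := fun m => by
    by_cases h : m < p ^ (t + 1)
    · obtain ⟨a, ha⟩ := finFunctionFinEquiv.surjective ⟨m, h⟩
      exact ⟨fun i => a i, fun _ => ⟨fun i => (a i).2, congrArg Fin.val ha⟩⟩
    · exact ⟨0, fun k => absurd k h⟩
  choose a ha using dig
  have hf : ∀ x, (∑ k ∈ P.support.erase 0, P.coeff k • mon p (dd F K (a (k * e)))) x = P.eval (x ^ M) - P.coeff 0 := fun x => by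
    rw [eq_sub_iff_add_eq, Polynomial.eval_eq_sum, Polynomial.sum_def, ← sum_subset (subset_insert 0 P.support) (fun k _ h => by
      simp [Polynomial.notMem_support_iff.1 h]) |>.symm, ← erase_insert_eq_erase, ← sum_erase_add _ _ (mem_insert_self 0 _),
      pow_zero, mul_one, Finset.sum_apply, erase_insert_eq_erase]
    refine congrArg (· + _) (sum_congr rfl fun k hk => congrArg (P.coeff k * ·) (?_ : mon p _ x = _))
    rw [hx, ← pow_mul, (mul_comm e k).trans (ha (k * e) (by have := dg k hk; omega)).2.symm, Algebra.norm_eq_prod_automorphisms,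
      ← prod_pow_eq_pow_sum, mon, prod_apply, Fintype.prod_prod_type_right]
    exact prod_congr rfl fun i _ => by simp [Zs, dd, ← pow_mul, mul_comm, prod_pow]
  have D : Dat F p g l (P.support.erase 0) P.coeff fun k => a (k * e) := ⟨q, by have := hy.n13; omega, hl,
    fun k hk => Polynomial.mem_support_iff.1 (mem_of_mem_erase hk), fun k hk => (ha _ (by have := dg k hk; omega)).1,
    fun k hk k' hk' h => Nat.eq_of_mul_eq_mul_right e0 (by
      rw [← (ha (k * e) (by have := dg k hk; omega)).2, h, (ha _ (by have := dg k' hk'; omega)).2]),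
    fun k hk => by
      by_contra! c
      have := (ha (k * e) (by have := dg k hk; omega)).2
      simp only [c, zero_mul, sum_const_zero] at this
      exact (dg k hk).1.ne this,
    fun k hk => by
      by_contra! c
      have h1 := ha _ (dg k hk).2
      have := sum_le_sum (s := univ) fun i _ => Nat.mul_le_mul_right (p ^ i.val) (Nat.lt_succ_iff.1 ((h1.1 i).trans_eq (c i).symm))
      rw [h1.2, (ha _ (by have := dg k hk; omega)).2] at this
      omega,
    funext fun x => by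
      rw [Function.comp, hf, hf]
      by_cases x0 : x = 0
      · simp [x0]
      · rw [hP _ x0, hP _ (by simpa)]
        exact congrArg (· - _) (if_congr ⟨fun ⟨j, hj, h⟩ => ⟨g⁻¹ * j, mul_mem (inv_mem hg) hj, by simp [h]⟩,
          fun ⟨j, hj, h⟩ => ⟨g * j, mul_mem hg hj, by simp [h]⟩⟩ rfl rfl)⟩
  have hI : (P.support.erase 0).Nonempty := nonempty_iff_ne_empty.2 fun h => n fun v w v0 w0 => by
    have k : ∀ x : K, x ≠ 0 → ∃ j ∈ J, j 1 = x := fun x x0 => by_contra fun c => by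
      have h1 := (hf x).symm.trans (hf 1 ▸ by rw [h]; rfl : _ = P.eval (1 ^ M) - P.coeff 0)
      rw [sub_left_inj, hP x x0, hP 1 one_ne_zero, if_neg c, if_pos ⟨1, one_mem _, rfl⟩] at h1
      exact zero_ne_one h1
    exact otrans (osymm (k v v0)) (k w w0)
  obtain ⟨σ, h0⟩ : ∃ σ, l σ ≠ 0 := by
    by_contra! c
    simpa [c] using hl 1
  obtain ⟨i, hi⟩ := (FiniteField.bijective_frobeniusAlgEquivOfAlgebraic_pow F K).2 σ
  refine ⟨l σ, i, fun x => (hl x).trans ((sum_eq_single σ (fun τ _ h => ?_) (by simp)).trans ?_)⟩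
  · rw [(mul_eq_zero.1 (D.core h hI)).resolve_right h0, zero_mul]
  · simp only [← hi, AlgEquiv.coe_pow, FiniteField.coe_frobeniusAlgEquivOfAlgebraic, pow_iterate]
end pm

end H13.SH
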