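import Cfsg.Agent.H13.SH1
import Cfsg.Agent.H5.SG3
import Cfsg.Agent.S0675
import Cfsg.Agent.H24.ExtPrim2

/-! S5807/S5852: estimate and bridge (port of H5/SG2, H5/SG3). -/

set_option autoImplicit false
set_option linter.unusedSectionVars false

namespace H13.SH

universe u

section est
open _root_.Cfsg H5 H5.SG H13.SG H21 Finset Subgroup Matrix
open scoped ComplexConjugate ComplexOrder

theorem est {G P : Type u} [Group G] [Finite G] [Fintype P] [MulAction G P] {C : Subgroup G} {n : ℕ}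
    (h : AH P C n) (hD : DD P C) [MulAction.IsPretransitive G P]
    (hN : ∀ y ∈ Subgroup.normalizer (C : Set G), ∀ x : P, ∃ c ∈ C, y • x = c • x)
    (Γ : P → P → Prop) (hΓ : ∀ (y : G) a b, Γ a b → Γ (y • a) (y • b)) (irr : ∀ a, ¬ Γ a a) (c : G) (hc : c ∈ C) (c1 : c ≠ 1)
    (a : P) : ((∀ x, ¬ Γ x (c • x)) → {b | Γ a b}.ncard ≤ n ^ 3) ∧ ((n + 1) * n ^ 4 + 2 * (n + 1) ≤ Nat.card C →
      (∃ x, Γ x (c • x)) → Fintype.card P < (n + 1) * {b | Γ a b}.ncard) := by
  classical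
  have := Fintype.ofFinite C
  have := comm h
  have cp := h.cp
  have big := h.big
  have n1 := n1 h
  obtain ⟨k, hk⟩ : ∃ k, {b | Γ a b}.ncard = k := ⟨_, rfl⟩
  obtain ⟨F, hF⟩ : ∃ F, (univ.filter fun x => Γ x (c • x)).card = F := ⟨_, rfl⟩
  have eΓ : ∀ (y : G) a b, Γ (y • a) (y • b) ↔ Γ a b := fun y a b => ⟨fun k => by simpa using hΓ y⁻¹ _ _ k, hΓ y a b⟩
  let A : Matrix P P ℂ := of fun x y => if Γ x y then 1 else 0
  have eA : ∀ (y : G) a b, A (y • a) (y • b) = A a b := fun y a b => by simp [A, eΓ]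
  have row : ∀ x, ∑ y, A x y = k := fun x => by
    obtain ⟨g, rfl⟩ := MulAction.exists_smul_eq G a x
    rw [← Equiv.sum_comp (MulAction.toPerm g), ← hk, Set.ncard_eq_toFinset_card']
    simp [A, eΓ]
  have P0 : (Fintype.card P : ℂ) ≠ 0 := Nat.cast_ne_zero.2 (Fintype.card_pos_iff.2 ⟨a⟩).ne'
  have c0 : (0 : ℝ) < Nat.card C := Nat.cast_pos.2 Nat.card_pos
  let B : Matrix P P ℂ := A - of fun (_ _ : P) => (k / Fintype.card P : ℂ)
  have eB : ∀ (y : G) a b, B (y • a) (y • b) = B a b := fun y a b => by simp [B, eA]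
  have sp := spec B (n * k) fun v v0 μ e => by_contra fun lt => by
    have μ0 : (μ : ℂ) ≠ 0 := Complex.ofReal_ne_zero.2 ((not_le.1 lt).trans_le' (by positivity)).ne'
    have s0 : ∀ v, (Bᴴ * B) *ᵥ v = (μ : ℂ) • v → ∑ x, v x = 0 := fun v e => by
      have := congrArg (fun w => ∑ x, w x) e
      simp only [← mulVec_mulVec, Pi.smul_apply, smul_eq_mul, ← mul_sum] at this
      refine (mul_eq_zero.1 (this.symm.trans ?_)).resolve_left μ0
      simp only [mulVec, dotProduct, conjTranspose_apply]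
      rw [sum_comm]
      refine sum_eq_zero fun y _ => ?_
      rw [← sum_mul, ← star_sum]
      simp [B, row, mul_div_cancel₀ _ P0]
    have tr : ∀ (g : G) v, (Bᴴ * B) *ᵥ v = (μ : ℂ) • v → (Bᴴ * B) *ᵥ (fun x => v (g • x)) = (μ : ℂ) • fun x => v (g • x) :=
      fun g v e => funext fun x => Eq.trans (by
        simp only [mulVec, dotProduct, mul_apply, conjTranspose_apply]
        rw [← Equiv.sum_comp (MulAction.toPerm g) fun y => _ * v y]
        refine sum_congr rfl fun y _ => congrArg (· * _) ?_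
        rw [← Equiv.sum_comp (MulAction.toPerm g) fun z => _ * B z (MulAction.toPerm g y)]
        simp [eB]) (congrFun e (g • x))
    obtain ⟨g, hg⟩ : ∃ g : G, ¬ ∀ d ∈ C, ∀ x, v (g • d • x) = v (g • x) := by_contra fun k => by
      have k' := fra h hN (not_exists_not.1 k)
      have k2 : ∀ x, v x = v a := fun x => let ⟨g, e⟩ := MulAction.exists_smul_eq G a x; e ▸ k' g a
      have := s0 v e
      simp only [k2, sum_const, card_univ, nsmul_eq_mul, mul_eq_zero, P0, false_or] at this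
      exact v0 (funext fun x => (k2 x).trans this)
    replace e := tr g v e
    let z : (C →* ℂˣ) → P → ℂ := fun l x => ∑ d : C, l d * v (g • d.1 • x)
    have zd : ∀ l (d : C) x, z l (d.1 • x) = l d⁻¹ * z l x := fun l d x => by
      simp only [z, mul_sum]
      rw [← Equiv.sum_comp (Equiv.mulRight d⁻¹)]
      simp [mul_smul, mul_comm, mul_assoc]
    obtain ⟨l, l1, z0⟩ : ∃ l ≠ 1, z l ≠ 0 := by_contra fun k => hg fun d hd x => by
      have k' : ∀ x, z 1 x = Nat.card C * v (g • x) := fun x => by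
        rw [← sum_eq_single (f := fun l => z l x) (s := univ) 1 (fun l _ l1 => congrFun (not_not.1 fun e => k ⟨l, l1, e⟩) x) (by simp)]
        simp only [z]
        rw [sum_comm]
        simp [← sum_mul, sum_unitsHom_apply]
      have := zd 1 ⟨d, hd⟩ x
      simpa [k', Nat.card_pos.ne'] using this
    have ez : (Bᴴ * B) *ᵥ z l = (μ : ℂ) • z l := by
      have : z l = ∑ d : C, (l d : ℂ) • fun x => v (g • d.1 • x) := by ext; simp [z]
      rw [this, mulVec_sum, smul_sum]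
      exact sum_congr rfl fun d _ => by rw [mulVec_smul, tr d.1 _ e, smul_comm]
    have e1 : nn (B *ᵥ z l) = μ * nn (z l) :=
      Complex.ofReal_injective ((nn_mul B _).symm.trans (by rw [ez, dotProduct_smul, nn_eq, smul_eq_mul, Complex.ofReal_mul]))
    let b : P → P → ℂ := fun x y => ∑ d : C, l d⁻¹ * A x (d.1 • y)
    have e2 : ∀ x, Nat.card C * (B *ᵥ z l) x = ∑ y, b x y * z l y := fun x => by
      simp only [b, sum_mul]
      rw [sum_comm, Nat.card_eq_fintype_card, ← card_univ, ← nsmul_eq_mul, ← sum_const]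
      refine sum_congr rfl fun d _ => ?_
      rw [show B = _ from rfl, sub_mulVec]
      simp only [Pi.sub_apply, mulVec, dotProduct, of_apply, ← mul_sum, s0 _ ez, mul_zero, sub_zero]
      rw [← Equiv.sum_comp (MulAction.toPerm d.1)]
      exact sum_congr rfl fun y _ => by rw [MulAction.toPerm_apply, zd]; ring
    have e3 : ∑ x, nn (b x) ≤ Nat.card C * (Fintype.card P * k) := by
      have h1 := dsum hD (M := fun y y' => ∑ x, A x y * A x y') (fun y a b => by
        rw [← Equiv.sum_comp (MulAction.toPerm y)]; simp [eA]) hc c1 fun d => l d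
      have h2 : ∑ y, ∑ x, A x y * A x y = Fintype.card P * k := by
        rw [sum_comm, sum_congr rfl (g := fun _ => (k : ℂ)) fun x _ => row x ▸ sum_congr rfl fun y _ => by
          simp only [A, of_apply]; split_ifs <;> simp]; simp
      obtain ⟨s, h3⟩ : ∃ s : ℕ, ∑ y, ∑ x, A x y * A x (c • y) = s := ⟨∑ y, ∑ x, if Γ x y ∧ Γ x (c • y) then 1 else 0, by
        push_cast
        exact sum_congr rfl fun y _ => sum_congr rfl fun x _ => by simp only [A, of_apply, ite_and]; split_ifs <;> simp⟩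
      have h4 : ((∑ x, nn (b x) : ℝ) : ℂ) = ∑ d : C, ∑ d' : C, l (d⁻¹ * d') * ∑ y, ∑ x, A x (d.1 • y) * A x (d'.1 • y) := by
        simp only [Complex.ofReal_sum, nn_coe, b, map_sum, sum_mul_sum]
        simp only [mul_sum, map_mul, conj_unitsHom, inv_inv]
        rw [sum_comm, sum_congr rfl fun _ _ => sum_comm, sum_comm]
        refine sum_congr rfl fun d _ => ?_
        rw [sum_congr rfl fun _ _ => sum_comm, sum_comm]
        refine sum_congr rfl fun d' _ => sum_congr rfl fun y _ => sum_congr rfl fun x _ => ?_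
        simp only [A, of_apply, apply_ite conj, map_one, map_zero, Units.val_mul]; ring
      rw [h1, h2, h3, sum_unitsHom_eq_zero l1, map_one, Units.val_one] at h4
      rw [Complex.ofReal_injective (h4.trans (by push_cast; rfl)
        : _ = ((Nat.card C * (1 * (Fintype.card P * k) + (0 - 1) * s) : ℝ) : ℂ))]
      exact mul_le_mul_of_nonneg_left (by simp) c0.le
    have e4 : Nat.card C ^ 2 * nn (B *ᵥ z l) ≤ (∑ x, nn (b x)) * nn (z l) := by
      rw [nn, mul_sum, sum_mul]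
      exact sum_le_sum fun x _ => by simpa [← e2, mul_pow] using cs (b x) (z l)
    have e5 : 0 < nn (z l) := (nn_nonneg _).lt_of_ne fun e => z0 (dotProduct_star_self_eq_zero.1 (by simp [nn_eq, ← e]))
    have e6 : (Fintype.card P : ℝ) ≤ n * Nat.card C := by exact_mod_cast cp
    rw [e1, ← mul_assoc] at e4
    have := (le_of_mul_le_mul_right e4 e5).trans e3
    nlinarith [mul_le_mul_of_nonneg_right e6 (Nat.cast_nonneg k), mul_lt_mul_of_pos_left (not_le.1 lt) (pow_pos c0 2)]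
  have key : (((Nat.card C : ℝ) - 1) * F - Nat.card C * k) ^ 2 ≤ n ^ 3 * k * Nat.card C ^ 2 := by
    let w : P → P → ℂ := fun x y => ∑ d : C, if d.1 • x = y then 1 else 0
    have h0 : ∀ x (f : P → ℂ), ∑ y, w x y * f y = ∑ d : C, f (d.1 • x) := fun x f => by
      simp only [w, sum_mul]; rw [sum_comm]; simp
    have h1 : ∀ x, nn (w x) = Nat.card C := fun x => Complex.ofReal_injective (by
      rw [nn_coe, h0, sum_congr rfl (g := fun _ => 1) fun d _ => by
        simp only [w]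
        rw [sum_eq_single d (fun e _ ne => if_neg fun k => ne (Subtype.ext (inv_mul_eq_one.1
          (h.sr _ (mul_mem (inv_mem d.2) e.2) x (by rw [mul_smul, k, inv_smul_smul]))).symm)) (by simp)]
        simp]
      simp)
    have h2 := dsum hD eB hc c1 1
    have h3 : ∑ x, 1 * ∑ y, w x y * (B *ᵥ w x) y = ∑ d : C, ∑ d' : C, ∑ y, B (d.1 • y) (d'.1 • y) := by
      simp only [h0, mulVec, dotProduct, mul_comm (B _ _), one_mul]
      rw [sum_comm]
      exact sum_congr rfl fun _ _ => sum_comm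
    have h4 := (cs (fun _ => 1) fun x => ∑ y, w x y * (B *ᵥ w x) y).trans (mul_le_mul_of_nonneg_left (sum_le_sum fun x _ =>
      (cs _ _).trans (mul_le_mul_of_nonneg_left (sp (w x)) (nn_nonneg _))) (nn_nonneg _))
    simp only [Pi.one_apply, one_mul] at h2
    have h5 : ∑ y, B y y = -k := by simp [B, A, irr, mul_div_cancel₀ _ P0]
    have h6 : ∑ y, B y (c • y) = F - k := by simp [B, A, hF, mul_div_cancel₀ _ P0]
    rw [h3, h2, h5, h6, sum_const, card_univ, ← Nat.card_eq_fintype_card, nsmul_eq_mul, mul_one,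
      show (Nat.card C * (-k + (Nat.card C - 1) * (F - k)) : ℂ) = (Nat.card C * ((Nat.card C - 1) * F - Nat.card C * k) : ℝ) by
        push_cast; ring, Complex.norm_real, Real.norm_eq_abs, sq_abs] at h4
    simp only [h1] at h4
    simp only [nn, norm_one, one_pow, sum_const, card_univ, nsmul_eq_mul, mul_one] at h4
    have e6 : (Fintype.card P : ℝ) ^ 2 ≤ (n * Nat.card C) ^ 2 := by exact_mod_cast Nat.pow_le_pow_left cp 2
    refine le_of_mul_le_mul_left ?_ (pow_pos c0 2)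
    nlinarith [mul_le_mul_of_nonneg_right e6 (show (0 : ℝ) ≤ n * k * Nat.card C ^ 2 by positivity)]
  rw [hk]
  refine ⟨fun h0 => ?_, fun h1 ⟨x, hx⟩ => by_contra fun lt => ?_⟩
  · obtain rfl : F = 0 := hF ▸ card_eq_zero.2 (filter_eq_empty_iff.2 fun x _ => h0 x)
    have : (k : ℝ) * k ≤ n ^ 3 * k := le_of_mul_le_mul_right (by simpa [mul_pow, sq, mul_comm, mul_left_comm, mul_assoc] using key) (pow_pos c0 2)
    rcases k.eq_zero_or_pos with rfl | k0
    · simp
    · exact_mod_cast le_of_mul_le_mul_right this (Nat.cast_pos.2 k0)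
  have h2 : Nat.card C ≤ F := by
    rw [← hF, Nat.card_eq_fintype_card, ← card_univ]
    refine card_le_card_of_injOn (fun d => d.1 • x) (fun d _ => mem_filter.2 ⟨mem_univ _, ?_⟩) fun d _ e _ k => Subtype.ext
      (inv_mul_eq_one.1 (h.sr _ (mul_mem (inv_mem d.2) e.2) x (by rw [mul_smul, ← show d.1 • x = e.1 • x from k, inv_smul_smul])))
    rw [smul_smul, ← (h.cc c hc c1 d).2 d.2, mul_smul]; exact hΓ _ _ _ hx
  have h3 := (not_lt.1 lt).trans cp
  generalize Nat.card C = m at *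
  have h4 : (m - 1 - k : ℝ) ^ 2 ≤ n ^ 3 * k := by
    have : (k : ℝ) + 1 ≤ m := by exact_mod_cast (show k < m by nlinarith)
    refine le_of_mul_le_mul_right (le_trans ?_ key) (pow_pos c0 2)
    rw [← mul_pow]
    refine pow_le_pow_left₀ (mul_nonneg (by linarith) c0.le) ?_ 2
    nlinarith [mul_le_mul_of_nonneg_left (Nat.cast_le (α := ℝ).2 h2) (show (0 : ℝ) ≤ m - 1 by linarith [Nat.cast_nonneg (α := ℝ) k])]
  have h5 : ((n : ℝ) + 1) * k ≤ n * m := by exact_mod_cast h3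
  have h6 : ((n : ℝ) + 1) * n ^ 4 + 2 * (n + 1) ≤ m := by exact_mod_cast h1
  have n0 : (0 : ℝ) ≤ n := Nat.cast_nonneg n
  have h7 : (m - (n + 1) : ℝ) ^ 2 ≤ ((n + 1) * (m - 1 - k)) ^ 2 :=
    pow_le_pow_left₀ (by nlinarith [pow_nonneg n0 4]) (by linarith) 2
  nlinarith [mul_le_mul_of_nonneg_left h4 (sq_nonneg ((n : ℝ) + 1)), mul_le_mul_of_nonneg_right h6 c0.le,
    mul_le_mul_of_nonneg_left h5 (show (0 : ℝ) ≤ (n + 1) * n ^ 3 by positivity)]

theorem sol_norm {G P : Type u} [Group G] [Finite G] [MulAction G P] [FaithfulSMul G P] [MulAction.IsPretransitive G P]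
    (hp : (Nat.card P).Prime) (hs : Group.IsSolvable G) {C : Subgroup G}
    (cc : ∀ c ∈ C, c ≠ 1 → ∀ y, y * c = c * y ↔ y ∈ C) {c : G} (hc : c ∈ C) (c1 : c ≠ 1) (e : c ^ Nat.card P = 1) :
    C.Normal := by
  classical
  have := Fact.mk hp
  have := MulAction.IsPreprimitive.of_prime_card (G := G) hp
  have : Nonempty P := (Nat.card_pos_iff.1 hp.pos).1
  obtain ⟨hn⟩ := hs
  obtain ⟨m, hm⟩ := Nat.exists_eq_succ_of_ne_zero (n := Nat.find hn) fun h => c1 (mem_bot.1 (by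
    have := Nat.find_spec hn
    rw [h, derivedSeries_zero] at this
    exact this ▸ mem_top _))
  have h2 := Nat.find_spec hn
  have h3 := Nat.find_min hn (hm ▸ m.lt_succ_self)
  rw [hm, derivedSeries_succ, commutator_eq_bot_iff_le_centralizer] at h2
  have := derivedSeries_normal G m
  generalize derivedSeries G m = A at *
  letI : MulAction (zpowers c) A := MulAction.compHom A ((MulAut.conjNormal (H := A)).comp (zpowers c).subtype)
  obtain ⟨a, ha, a1⟩ := IsPGroup.exists_fixed_point_of_prime_dvd_card_of_fixed_point (p := Nat.card P) (G := zpowers c)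
    (fun ⟨_, i, rfl⟩ => ⟨1, Subtype.ext (by
      change (c ^ i) ^ Nat.card P ^ 1 = 1
      rw [pow_one, ← zpow_natCast, zpow_comm, zpow_natCast, e, _root_.one_zpow])⟩) A
    (H24.ab_normal_prim (Ω := P) h3 h2).1.symm.dvd (a := 1) fun g => map_one (MulAut.conjNormal (H := A) g.1)
  have a1' : a.1 ≠ 1 := fun k => a1 (Subtype.ext k.symm)
  have aC : a.1 ∈ C := (cc c hc c1 a).1 (mul_inv_eq_iff_eq_mul.1 (congrArg Subtype.val (ha ⟨c, mem_zpowers c⟩))).symm
  refine ⟨fun d hd y => (cc (y * a * y⁻¹) ((cc a aC a1' _).1 (h2 a.2 _ (‹A.Normal›.conj_mem _ a.2 y))) (by simpa using a1') _).1 ?_⟩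
  simp only [mul_assoc, inv_mul_cancel_left]
  rw [← mul_assoc d, (cc a aC a1' d).2 hd, mul_assoc]
end est

section br
open H5.SG H13.SG H13.R3 Module MulAction Projectivization Subgroup
open scoped LinearAlgebra.Projectivization

theorem ar {q n N c : ℕ} (q2 : 2 ≤ q) (n13 : 7 ≤ n) (hN : q ^ n = N * (q - 1) + 1) (h : N ≤ c ∨ n < q ∧ N ≤ n * c) {f : ℕ}
    (hf : f * (q - 1) + 2 ≤ q ^ (n - 1) + q) : f + n ≤ c := by
  obtain ⟨r, rfl⟩ : ∃ r, q = r + 1 := ⟨q - 1, by omega⟩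
  obtain ⟨m, rfl⟩ : ∃ m, n = m + 1 := ⟨n - 1, by omega⟩
  simp only [Nat.add_sub_cancel] at *
  rw [pow_succ] at hN
  rcases h with h | ⟨h1, h⟩
  · have : m + 2 ≤ (r + 1) ^ m := le_trans (by
      obtain ⟨m, rfl⟩ : ∃ k, m = k + 2 := ⟨m - 2, by omega⟩
      have := m.lt_two_pow_self
      rw [pow_add]; omega) (Nat.pow_le_pow_left q2 m)
    exact le_of_mul_le_mul_right (a := r) (by nlinarith [Nat.mul_le_mul_right r h, Nat.mul_le_mul_right r this]) (by omega)
  have h2 : (r + 1) ^ 3 ≤ (r + 1) ^ m := Nat.pow_le_pow_right (by omega) (by omega)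
  have h3 : (m + 1) * (m + 2) * r ≤ (r + 1) ^ 3 := by
    nlinarith [Nat.mul_le_mul_right r (Nat.mul_le_mul (show m + 1 ≤ r by omega) (show m + 2 ≤ r + 1 by omega))]
  exact le_of_mul_le_mul_right (a := (m + 1) * r) (by
    nlinarith [Nat.mul_le_mul_right r h, Nat.mul_le_mul_left (m + 1) hf,
      Nat.mul_le_mul_left ((r + 1) ^ m) (show m + 2 ≤ r + 1 by omega)]) (Nat.mul_pos (by omega) (by omega))

variable {F : Type u} [Field F] [Fintype F] {K : Type u} [Field K] [Fintype K] [Algebra F K]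
  {J : Subgroup (K ≃ₗ[F] K)} {d x y : K} {i j : J}

variable (hy : Hy J)
include hy

theorem nor {c : GB J} (hc : c ∈ CB J) (c1 : c ≠ 1) (h : pr J j ∈ normalizer (CB J : Set (GB J))) :
    ∃ a i, i < finrank F K ∧ Mu J a ∧ ∀ x, j.1 x = a * x ^ Fintype.card F ^ i := by
  obtain ⟨i, ⟨d', e'⟩, k⟩ := (h c).1 hc
  obtain ⟨l, ⟨d, e⟩, rfl⟩ := hc
  rw [← map_inv, ← map_mul, ← map_mul] at k
  obtain ⟨s, k⟩ := pr_eq k.symm
  exact hy.mon_of j.2 (mt (pr_mu e).2 c1) (d' := s • d') fun x => by simpa [e, e'] using k (j.1 x)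

theorem sz {f : ℕ} (hf : f * (Fintype.card F - 1) + 2 ≤ Fintype.card F ^ (finrank F K - 1) + Fintype.card F) :
    Nat.card (ℙ F K) ≤ finrank F K * Nat.card (CB J) ∧ f + finrank F K ≤ Nat.card (CB J) := by
  have : Nat.card (ℙ F K) ≤ Nat.card (CB J) ∨
      finrank F K < Fintype.card F ∧ Nat.card (ℙ F K) ≤ finrank F K * Nat.card (CB J) := by
    rw [← Set.ncard_univ]
    by_cases h : finrank F K ∣ Fintype.card F - 1
    · obtain ⟨β, -, -, β0, -, k⟩ := hy.ex_beta h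
      refine .inr ⟨hy.lt_q h, cov _ (fun i => mk F (β ^ i) (pow_ne_zero i β0)) (Projectivization.ind fun x hx _ => ?_)⟩
      obtain ⟨i, hi, d, hd, rfl⟩ := k x hx
      obtain ⟨c, hc, -, e⟩ := ex_c hd
      exact ⟨i, hi, c, hc, (e _ _).symm⟩
    refine .inl ((cov (n := 1) _ (fun _ => mk F 1 one_ne_zero) (Projectivization.ind fun x hx _ => ?_)).trans_eq (one_mul _))
    obtain ⟨c, hc, -, e⟩ := ex_c (hy.mu_all h hx)
    exact ⟨0, one_pos, c, hc, by simp [e]⟩
  exact ⟨this.elim (fun h => h.trans (Nat.le_mul_of_pos_left _ hy.pr.pos)) (·.2), ar (q2 F) hy.n13 (by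
    rw [← card_V F K, card' F K, Nat.card_eq_fintype_card (α := F)]) this hf⟩

theorem sz' : Fintype.card F ^ (finrank F K - 2) + finrank F K ≤ Nat.card (CB J) := (sz hy (by
  have := q2 F
  have := hy.n13
  rw [show finrank F K - 1 = finrank F K - 2 + 1 by omega, pow_succ]
  exact add_le_add (Nat.mul_le_mul_left _ (by omega)) (q2 F))).2

theorem cc : ∀ c ∈ CB J, c ≠ 1 → ∀ y, y * c = c * y ↔ y ∈ CB J := by
    rintro _ ⟨l, ⟨d, e⟩, rfl⟩ c1 y
    obtain ⟨j, rfl⟩ := pr_sur y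
    refine ⟨fun h => ?_, fun ⟨i, ⟨c, k⟩, h⟩ => by
      rw [← h, ← map_mul, ← map_mul]; congr 1; ext x; simp [e, k, mul_left_comm]⟩
    obtain ⟨s, k⟩ := pr_eq ((map_mul _ _ _).trans (h.trans (map_mul _ _ _).symm))
    have h1 : s ^ finrank F K = 1 := by
      have := congrArg LinearMap.det (show (j.1 : K →ₗ[F] K) ∘ₗ l.1 = s • ((l.1 : K →ₗ[F] K) ∘ₗ j.1) from LinearMap.ext k)
      rw [LinearMap.det_smul, LinearMap.det_comp, LinearMap.det_comp, mul_comm, eq_comm] at this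
      exact (mul_eq_right₀ (mul_ne_zero l.1.isUnit_det'.ne_zero j.1.isUnit_det'.ne_zero)).1 this
    have h2 : ∀ m x, j.1 (d ^ m * x) = s ^ m • (d ^ m * j.1 x) := fun m => by
      induction m with
      | zero => simp
      | succ m ih =>
        intro x
        have := k x
        simp only [Subgroup.coe_mul, LinearEquiv.mul_apply, e] at this
        rw [pow_succ, mul_assoc, ih, this, mul_smul_comm, smul_smul, ← mul_assoc, ← pow_succ, ← pow_succ]
    exact ⟨j, ⟨_, hy.mu_of_comm (mt (hy.kl ⟨l, l.2, e⟩) (mt (pr_mu e).2 c1)) fun x => by rw [h2, h1, one_smul]⟩, rfl⟩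

theorem ah [Fintype (ℙ F K)] (q7 : finrank F K = 7 → Fintype.card F ≠ 2) : AH (ℙ F K) (CB J) (finrank F K) where
  fa k h := Subtype.ext (Equiv.ext h)
  cc := cc hy
  sr := by
    rintro _ ⟨l, ⟨d, e⟩, rfl⟩
    refine Projectivization.ind fun x hx h => ?_
    obtain ⟨s, k⟩ := (mk_eq_mk_iff' _ _ _ _ _).1 ((pr_mk hx).symm.trans h)
    exact (pr_mu e).2 (mem_one.2 ⟨s, mul_right_cancel₀ hx (by rw [← Algebra.smul_def, k, e])⟩)
  nx := by
    have : Nontrivial (CB J) := Finite.one_lt_card_iff_nontrivial.1 (by have := sz' hy; have := hy.n13; omega)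
    obtain ⟨c, c1⟩ := exists_ne (1 : CB J)
    choose f hf e using hy.fr_pow
    refine le_of_mul_le_mul_left ((H19.card_mul_relIndex le_normalizer).trans_le ((cov (CB J) (fun i => pr J ⟨f i, hf i⟩)
      fun y hy' => ?_).trans_eq (mul_comm _ _))) Nat.card_pos
    obtain ⟨j, rfl⟩ := pr_sur y
    obtain ⟨a, i, hi, ⟨l, hl, k⟩, k'⟩ := nor hy c.2 (by simpa using c1) hy'
    exact ⟨i, hi, _, ⟨⟨l, hl⟩, ⟨a, k⟩, rfl⟩, by rw [smul_eq_mul, ← map_mul]; congr 1; ext x; simp [k, k', e]⟩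
  cp := Nat.card_eq_fintype_card.symm.trans_le (sz hy (f := 0) (by have := q2 F; omega)).1
  big := by
    have q := q2 F
    refine lt_of_lt_of_le (Nat.lt_add_of_pos_right hy.pr.pos) (sz hy ?_).2
    obtain ⟨r, hr⟩ : ∃ r, Fintype.card F = r + 2 := ⟨_, (Nat.sub_add_cancel q).symm⟩
    rcases hy.n11 with e | e
    · obtain ⟨s, rfl⟩ : ∃ s, r = s + 1 := ⟨r - 1, by have := q7 e; omega⟩
      rw [e, hr]
      have := Nat.pow_le_pow_left (show 3 ≤ s + 1 + 2 by omega) 5
      simp only [show 7 - 1 = 5 + 1 from rfl, pow_succ _ 5, show s + 1 + 2 - 1 = s + 2 from rfl]; nlinarith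
    · rw [e, hr]
      have := Nat.mul_le_mul_right ((r + 2) ^ 2) (Nat.pow_le_pow_left (show 2 ≤ r + 2 by omega) 8)
      simp only [show 11 - 1 = 8 + 2 from rfl, pow_add _ 8, show r + 2 - 1 = r + 1 from rfl]; nlinarith [Nat.zero_le (r ^ 2)]
  fx k k1 := by
    obtain ⟨j, rfl⟩ := pr_sur k
    refine (sz hy ?_).2
    rw [← cnt]
    have q := q2 F
    by_cases h : ∃ (s : F) (x : K), x ≠ 0 ∧ s • x = j.1 x
    swap
    · rw [Set.eq_empty_of_forall_notMem (s := {x | ∃ hx, mk F x hx ∈ {x | pr J j • x = x}}) fun x ⟨hx, k⟩ =>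
        let ⟨s, e⟩ := (mk_eq_mk_iff' _ _ _ _ _).1 ((pr_mk hx).symm.trans k); h ⟨s, x, hx, e⟩, Set.ncard_empty]; omega
    obtain ⟨s, x, hx, e⟩ := h
    let T : K →ₗ[F] K := j.1 - s • 1
    obtain ⟨a, ha⟩ := Nat.exists_eq_add_one_of_ne_zero (mt Submodule.finrank_eq_zero.1
      ((Submodule.ne_bot_iff (LinearMap.ker T)).2 ⟨x, by simp [T, e], hx⟩))
    obtain ⟨b, hb⟩ := Nat.exists_eq_add_one_of_ne_zero (mt Submodule.finrank_eq_zero.1 (mt LinearMap.range_eq_bot.1
      fun k : T = 0 => k1 (pr_one.2 ⟨s, fun x => by simpa [T, sub_eq_zero] using LinearMap.congr_fun k x⟩)))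
    have h1 := (Set.ncard_le_ncard (s := {x | ∃ hx, mk F x hx ∈ {x | pr J j • x = x}})
      (t := {u | u ∈ LinearMap.ker T ∧ u ≠ 0} ∪ {u | u ∈ LinearMap.range T ∧ u ≠ 0}) fun y ⟨hy, k⟩ => by
        obtain ⟨t, e⟩ := (mk_eq_mk_iff' _ _ _ _ _).1 ((pr_mk hy).symm.trans k)
        by_cases ts : t = s
        · exact .inl ⟨by simp [T, ← e, ts], hy⟩
        exact .inr ⟨⟨(t - s)⁻¹ • y, by simp [T, ← e, ← sub_smul, sub_ne_zero.2 ts]⟩, hy⟩).trans (Set.ncard_union_le _ _)
    rw [ncard_ne0, ncard_ne0, ha, hb] at h1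
    rw [← T.finrank_range_add_finrank_ker, ha, hb, show b + 1 + (a + 1) - 1 = a + b + 1 by omega]
    obtain ⟨u, hu⟩ := Nat.exists_eq_add_one_of_ne_zero (pow_ne_zero a (show Fintype.card F ≠ 0 by omega))
    obtain ⟨v, hv⟩ := Nat.exists_eq_add_one_of_ne_zero (pow_ne_zero b (show Fintype.card F ≠ 0 by omega))
    simp only [pow_succ, pow_add, hu, hv] at h1 ⊢
    have : (u + 1) * Fintype.card F + (v + 1) * Fintype.card F ≤ (u + 1) * (v + 1) * Fintype.card F + Fintype.card F := by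
      nlinarith [Nat.zero_le (u * v * Fintype.card F)]
    have := Nat.mul_pos u.add_one_pos (show 0 < Fintype.card F by omega)
    have := Nat.mul_pos v.add_one_pos (show 0 < Fintype.card F by omega)
    omega

theorem bar {Γ : K → K → Prop} (i : Inv J Γ) (hx : x ≠ 0) (y0 : y ≠ 0) : Γ (mk F x hx).rep (mk F y y0).rep ↔ Γ x y := by
  obtain ⟨s, e⟩ := exists_smul_eq_mk_rep F x hx
  obtain ⟨t, e'⟩ := exists_smul_eq_mk_rep F y y0
  rw [← e, ← e']
  exact ⟨fun h => by simpa [Units.smul_def] using hy.inv_sml i (inv_ne_zero s.ne_zero) (i.sml _ (inv_ne_zero t.ne_zero) _ _ h),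
    fun h => hy.inv_sml i s.ne_zero (i.sml _ t.ne_zero _ _ h)⟩

theorem br (q7 : finrank F K = 7 → Fintype.card F ≠ 2) (pt : PT K J) : (∀ j ∈ J, Mon F j) ∨ VV J := by
  classical
  have := Fintype.ofFinite (ℙ F K)
  have h := ah hy q7
  obtain ⟨c, c1⟩ := nt h
  replace c1 : c.1 ≠ 1 := by simpa using c1
  refine (exc _ _ _ _ h).imp (fun hn j hj => ?_) fun hD => ?_
  · obtain ⟨a, i, -, -, e⟩ := nor hy (j := ⟨j, hj⟩) c.2 c1 (normalizer_eq_top (CB J) (h := hn) ▸ mem_top _)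
    exact ⟨a, i, e⟩
  have eq : ∀ {Γ : K → K → Prop}, Inv J Γ → ∀ (y : GB J) (a b : ℙ F K), Γ a.rep b.rep → Γ (y • a).rep (y • b).rep :=
    fun i y => Projectivization.ind fun a ha => Projectivization.ind fun b hb k => by
      obtain ⟨j, rfl⟩ := pr_sur y
      exact (bar hy i _ _).2 (i.eqv j j.2 _ _ ((bar hy i _ _).1 k))
  have : IsPretransitive (GB J) (ℙ F K) := ⟨Projectivization.ind fun a ha => Projectivization.ind fun b hb =>
    let ⟨j, hj, e⟩ := pt a b ha hb; ⟨pr J ⟨j, hj⟩, by rw [pr_mk]; congr 1⟩⟩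
  have es := fun Γ (i : Inv J Γ) => est h hD (fun y hn => Projectivization.ind fun x hx => by
      obtain ⟨j, rfl⟩ := pr_sur y
      obtain ⟨a, i, -, ha, e⟩ := nor hy c.2 c1 hn
      obtain ⟨d, hd, -, k⟩ := ex_c (ha.mul (hy.c1 _ (norm_fr hx i)))
      refine ⟨d, hd, ?_⟩
      rw [k, pr_mk]; congr 1
      rw [e, mul_assoc, ← pow_succ, Nat.sub_add_cancel (Nat.one_le_pow _ _ Fintype.card_pos)])
    (fun a b => Γ a.rep b.rep) (eq i) fun a k => (i.ind _ _ k).2 (Submodule.mem_span_singleton_self _)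
  have ct : ∀ {Γ : K → K → Prop}, Inv J Γ → ∀ x hx, {y | Γ x y}.ncard =
      {b : ℙ F K | Γ (mk F x hx).rep b.rep}.ncard * (Fintype.card F - 1) := fun i x hx => by
    rw [← cnt]; congr 1; ext y
    exact ⟨fun k => ⟨(i.ind _ _ k).ne0, (bar hy i _ _).2 k⟩, fun ⟨_, k⟩ => (bar hy i _ _).1 k⟩
  have pc : ∀ {Γ : K → K → Prop}, Inv J Γ → Pr J Γ → ∃ c ∈ CB J, c ≠ 1 ∧ ∃ X : ℙ F K, Γ X.rep (c • X).rep :=
    fun i ⟨d, x, hd, k⟩ => let ⟨c, hc, c1, e⟩ := ex_c hd
      ⟨c, hc, fun h => let ⟨s, e⟩ := mem_one.1 (c1.1 h); (i.ind _ _ k).2 (Submodule.mem_span_singleton.2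
        ⟨s, by rw [← e, Algebra.smul_def]⟩), mk F x (i.ind _ _ k).1, by rw [e, bar hy i]; exact k⟩
  refine ⟨fun Γ i p d hd d1 => by_contra fun k => ?_, fun Γ i p x => ?_, fun Γ i p lt x hx => ?_⟩
  · obtain ⟨c, hc, c1, X, hX⟩ := pc i p
    obtain ⟨c', hc', c1', e⟩ := ex_c hd
    have := hD (fun a b => if Γ a.rep b.rep then 1 else 0) (fun y a b => if_congr
      ⟨fun k => by simpa using eq i y⁻¹ _ _ k, eq i y a b⟩ rfl rfl) c hc c' hc' c1 (mt c1'.1 d1)
    rw [Finset.sum_eq_zero (s := .univ) (f := fun x : ℙ F K => if Γ x.rep (c' • x).rep then (1 : ℂ) else 0) (Projectivization.ind fun x hx _ =>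
      if_neg fun k' => k ⟨x, by rwa [e, bar hy i] at k'⟩)] at this
    simpa using (by simpa using this : ∀ X : ℙ F K, ¬ Γ X.rep (c • X).rep) X hX
  · by_cases hx : x = 0
    · rw [Set.eq_empty_of_forall_notMem (s := {y | Γ x y}) fun y k => (i.ind _ _ k).1 hx]; simp
    obtain ⟨_, ⟨l, ⟨d, e⟩, rfl⟩⟩ := c
    rw [ct i x hx]
    exact Nat.mul_le_mul ((es Γ i _ ⟨l, ⟨d, e⟩, rfl⟩ c1 _).1 (Projectivization.ind fun x hx k =>
      p ⟨d, x, ⟨l, l.2, e⟩, by rwa [pr_mk, bar hy i, e] at k⟩)) (Nat.sub_le _ _)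
  obtain ⟨c, hc, c1, k⟩ := pc i p
  have := (es Γ i c hc c1 (mk F x hx)).2 (((show _ ≤ (finrank F K + 1) ^ 5 by
    have := hy.n13; nlinarith [Nat.zero_le (finrank F K ^ 4), Nat.zero_le (finrank F K ^ 3), Nat.zero_le (finrank F K ^ 2)]).trans
    ((Nat.pow_le_pow_left lt 5).trans (Nat.pow_le_pow_right Fintype.card_pos
    (by have := hy.n13; omega)))).trans ((Nat.le_add_right _ _).trans (sz' hy))) k
  rw [ct i x hx, ← card_V F K, card' F K, Nat.card_eq_fintype_card, Nat.card_eq_fintype_card, ← mul_assoc]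
  have := Nat.mul_le_mul_right (Fintype.card F - 1) this
  have := q2 F
  rw [Nat.succ_mul (Fintype.card _)] at *
  omega

theorem bur (e : finrank F K = 7) (q : Fintype.card F = 2) (pt : PT K J) : (∀ j ∈ J, Mon F j) ∨ Two F K J := by
  classical
  have := Fintype.ofFinite (ℙ F K)
  have : IsPretransitive (GB J) (ℙ F K) := ⟨Projectivization.ind fun a ha => Projectivization.ind fun b hb =>
    let ⟨j, hj, e⟩ := pt a b ha hb; ⟨pr J ⟨j, hj⟩, by rw [pr_mk]; congr 1⟩⟩
  have cK : Fintype.card K = 128 := by rw [card_K (F := F), e, q]; norm_num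
  have cP : Nat.card (ℙ F K) = 127 := by
    have := card' F K
    simp only [Nat.card_eq_fintype_card (α := F), Nat.card_eq_fintype_card (α := K), q, cK] at this
    omega
  refine (Cfsg.Agent.S0675.result (by rw [← Nat.card_eq_fintype_card, cP]; norm_num) (GB J)).imp (fun hs j hj => ?_)
    fun h x y x' y' i i' => ?_
  · obtain ⟨d, hd⟩ := ex_notMem' (A := F ∙ (1 : K)) (by rw [finrank_span_singleton one_ne_zero]; omega)
    have d0 : d ≠ 0 := by rintro rfl; exact hd (zero_mem _)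
    obtain ⟨l, hl, k⟩ := hy.mu_all (by rw [e, q]; norm_num) d0
    have c1 := mt (pr_mu (j := ⟨l, hl⟩) k).1 hd
    have hn := sol_norm (P := ℙ F K) (by rw [cP]; norm_num) hs (cc hy) ⟨⟨l, hl⟩, ⟨d, k⟩, rfl⟩ c1 (by
      rw [cP, ← map_pow, pr_mu (d := d ^ 127) fun x => ?_, show 127 = Fintype.card K - 1 by omega,
        FiniteField.pow_card_sub_one_eq_one _ d0]
      · exact Submodule.mem_span_singleton_self _
      · generalize 127 = m
        induction m with
        | zero => simp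
        | succ m ih => rw [pow_succ', pow_succ', mul_assoc, ← ih]; exact k _)
    obtain ⟨a, i, -, -, e⟩ := nor hy (j := ⟨j, hj⟩) ⟨⟨l, hl⟩, ⟨d, k⟩, rfl⟩ c1 (normalizer_eq_top (CB J) (h := hn) ▸ mem_top _)
    exact ⟨a, i, e⟩
  have ne : ∀ {x y : K} (i : Ind F x y), mk F x i.1 ≠ mk F y i.ne0 := fun i k =>
    let ⟨s, e⟩ := (mk_eq_mk_iff' _ _ _ _ _).1 k.symm; i.2 (Submodule.mem_span_singleton.2 ⟨s, e⟩)
  obtain ⟨g, h1, h2⟩ := is_two_pretransitive_iff.1 h (ne i) (ne i')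
  obtain ⟨j, rfl⟩ := pr_sur g
  obtain ⟨s, e1⟩ := (mk_eq_mk_iff' _ _ _ _ _).1 ((pr_mk i.1).symm.trans h1).symm
  obtain ⟨t, e2⟩ := (mk_eq_mk_iff' _ _ _ _ _).1 ((pr_mk i.ne0).symm.trans h2)
  obtain ⟨z, hz, e3⟩ := hy.sc s (by rintro rfl; exact i'.1 (by simpa using e1.symm))
  exact ⟨z * j, mul_mem hz j.2, by rw [mul_smul, e3]; exact e1, s * t, by rw [mul_smul, e3, mul_smul, e2]; rfl⟩
end br

end H13.SH
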