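import Cfsg.Agent.H13.SH2
import Cfsg.Agent.H13.SG4
import Cfsg.Agent.H13.SG5

/-! S5807/S5852: the Singer normaliser is maximal in `SL_7(q)` and `SL_11(q)`. -/

set_option autoImplicit false
set_option linter.unusedSectionVars false

open Module MulAction H13.R3 H13.SG

namespace H13.SH

universe u

theorem om_tw {F V G : Type u} [Field F] [AddCommGroup V] [Module F V] [Group G] [DistribMulAction G V]
    [SMulCommClass G F V] {J : Subgroup G} {ω : V → V → V → Prop} (om : Om F V ω) (two : Two F V J)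
    (iv : ∀ j ∈ J, ∀ x y z, ω x y z → ω (j • x) (j • y) (j • z)) {x y z x' y' : V} (i : Ind F x y) (i' : Ind F x' y')
    (h : ω x y z) : ∃ z', ω x' y' z' := by
  obtain ⟨j, hj, e1, c, e2⟩ := two x y x' y' i i'
  have := om.s2 _ _ _ (iv j hj _ _ _ h)
  rw [e1, e2] at this
  obtain ⟨S, -, k⟩ := om.sl x' (j • z)
  exact ⟨_, om.s2 _ _ _ ((k _).2 fun l => (k _).1 this (S.smul_mem c l))⟩

variable {F K : Type u} [Field F] [Fintype F] [Field K] [Fintype K] [Algebra F K] {J : Subgroup (K ≃ₗ[F] K)}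

theorem pd (hy : Hy J) {ω : K → K → K → Prop} (om : Om F K ω)
    (iv : ∀ c, Mu J c → ∀ x y z, ω x y z → ω (c * x) (c * y) (c * z))
    (tw : ∀ x y z x' y', Ind F x y → Ind F x' y' → ω x y z → ∃ z', ω x' y' z') (x y z : K) : ¬ ω x y z := by
  intro h
  classical
  have n7 := hy.n13
  have z0 : ∀ x y, ¬ ω x y 0 := fun x y h => let ⟨S, _, k⟩ := om.sl x y; (k 0).1 h S.zero_mem
  have x0 : x ≠ 0 := by rintro rfl; exact z0 _ _ (om.s2 _ _ _ (om.s1 _ _ _ h))
  obtain ⟨a, b, k⟩ : ∃ a b, ∀ t, t ≠ 0 → ω (1 * t) (a * t) (b * t) := by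
    by_cases d : finrank F K ∣ Fintype.card F - 1
    swap
    · exact ⟨y / x, z / x, fun t t0 => by
        convert iv (t / x) (hy.mu_all d (div_ne_zero t0 x0)) _ _ _ h using 1 <;> field_simp⟩
    obtain ⟨u, w, i, h⟩ : ∃ u w, Ind F x u ∧ ω x u w := by
      obtain ⟨S, h1, h2⟩ := om.sl x y
      obtain ⟨s, hs, s0⟩ := ex_ne0 (A := S) (by omega)
      by_cases l : z ∈ F ∙ x
      · refine ⟨z + s, y, ⟨x0, fun m => ?_⟩, om.s2 _ _ _ ((h2 _).2 fun m => (h2 _).1 h ((add_mem_cancel_right hs).1 m))⟩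
        obtain ⟨c, rfl⟩ := Submodule.mem_span_singleton.1 l
        obtain ⟨e, rfl⟩ := Submodule.mem_span_singleton.1 ((add_mem_cancel_left l).1 m)
        exact (h2 _).1 h (S.smul_mem c ((S.smul_mem_iff (by rintro rfl; simp at s0)).1 hs))
      · exact ⟨z, y, ⟨x0, l⟩, om.s2 _ _ _ h⟩
    obtain ⟨β, -, -, β0, -, cl⟩ := hy.ex_beta d
    obtain ⟨a, ha⟩ := ex_notMem' (A := F ∙ (1 : K)) (by rw [finrank_span_singleton one_ne_zero]; omega)
    choose S h1 h2 using fun i : ℕ => om.sl (β ^ i) (a * β ^ i)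
    obtain ⟨b, -, hb⟩ := Set.exists_of_ssubset (Submodule.iUnion_ssubset_of_forall_ne_top_of_card_lt
      (Finset.range (finrank F K)) (fun i => (S i).comap (LinearMap.mulRight F (β ^ i))) (fun m e => by
        obtain ⟨z', k⟩ := tw _ _ _ (β ^ m) (a * β ^ m) i ⟨pow_ne_zero _ β0, fun l => ha (by
          obtain ⟨c, e⟩ := Submodule.mem_span_singleton.1 l
          exact Submodule.mem_span_singleton.2 ⟨c, mul_right_cancel₀ (pow_ne_zero m β0) (by simpa using e)⟩)⟩ h
        exact (h2 m _).1 k (by simpa [β0] using e.ge (Submodule.mem_top (x := z' / β ^ m))))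
      (by simpa using hy.lt_q d))
    refine ⟨a, b, fun t t0 => ?_⟩
    obtain ⟨m, hm, e, he, rfl⟩ := cl t t0
    simpa [mul_left_comm e] using iv e he _ _ _ ((h2 m (b * β ^ m)).2 fun l => hb (by simpa using ⟨m, hm, l⟩))
  have sl : ∀ x y a, (fun t => if ω x y (a * t) then (1 : F) else 0) ∈ BD F K (2 * (Fintype.card F - 1)) := fun x y a => by
    obtain ⟨S, h1, h2⟩ := om.sl x y
    simpa only [h2] using BD_ind S h1 a
  have s1 : ∀ x y z, ω x y z ↔ ω y x z := fun _ _ _ => ⟨om.s1 _ _ _, om.s1 _ _ _⟩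
  have s2 : ∀ x y z, ω x y z ↔ ω x z y := fun _ _ _ => ⟨om.s2 _ _ _, om.s2 _ _ _⟩
  have hg := BD_diag (fun s t => if ω (1 * s) (a * s) (b * t) then (1 : F) else 0) (fun t =>
    BD_diag (fun r s => if ω (1 * r) (a * s) (b * t) then (1 : F) else 0)
      (fun s => by simpa only [s1 (1 * _), s2 _ (1 * _)] using sl (a * s) (b * t) 1)
      fun r => by simpa only [s2 _ (a * _)] using sl (1 * r) (b * t) a) fun s => sl _ _ b
  have q := q2 F
  have := BD_sum hg (by nlinarith [show 1 ≤ Fintype.card F - 1 by omega])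
  rw [← Finset.add_sum_erase _ _ (Finset.mem_univ 0), if_neg (by simpa using z0 0 0), Finset.sum_congr rfl
    fun t ht => if_pos (k t (Finset.ne_of_mem_erase ht)), Finset.sum_const, Finset.card_erase_of_mem (Finset.mem_univ _),
    nsmul_eq_mul, Finset.card_univ, Nat.cast_pred Fintype.card_pos, card_K (F := F), Nat.cast_pow, FiniteField.cast_card_eq_zero,
    zero_pow (by omega)] at this
  simp at this

theorem main (hy : Hy J) : (∀ j ∈ J, Mon F j) ∨ ∀ t : K ≃ₗ[F] K, IsTv F K t → t ∈ J := by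
  refine or_iff_not_imp_left.2 fun n => ?_
  have pt := (pm hy).resolve_right n
  have two : Two F K J := by
    by_cases q : finrank F K = 7 → Fintype.card F ≠ 2
    · exact two hy pt ((br hy q pt).resolve_left n)
    · push Not at q
      exact (bur hy q.1 q.2 pt).resolve_left n
  have n13 := hy.n13
  have pp : PP (K ≃ₗ[F] K) (Dual.eval F K) := pp_dual
  obtain ⟨⟨sc', two'⟩, M, U, b, os⟩ := ck1 F K _ _ J _ pp (by omega) hy.sc two
  obtain ⟨-, M', U', c, os'⟩ := ck1 F _ K _ J _ pp.flip (by rw [pp.dim]; omega) sc' two'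
  refine fin F K _ J (by omega) (fun g h => LinearEquiv.ext h) hy.sc two (ck2 F K _ _ J _ M U b M' U' c pp (by omega) sc' two'
    os os' (fun ω om iv => pd hy om (fun c ⟨j, hj, e⟩ x y z h => ?_) fun _ _ _ _ _ => om_tw om two iv) fun ω om iv => ?_)
  · simpa [e] using iv j hj x y z h
  let τ : K ≃ₗ[F] Dual F K := (Algebra.traceForm F K).toDual (traceForm_nondegenerate F K)
  have ind : ∀ {x y}, Ind F x y → Ind F (τ x) (τ y) := fun i => ⟨by simpa using i.1, fun l => i.2 (by
    obtain ⟨c, e⟩ := Submodule.mem_span_singleton.1 l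
    exact Submodule.mem_span_singleton.2 ⟨c, τ.injective (by rw [map_smul, e])⟩)⟩
  intro x y z h
  refine pd hy (ω := fun x y z => ω (τ x) (τ y) (τ z)) ⟨fun _ _ _ => om.s1 _ _ _, fun _ _ _ => om.s2 _ _ _, fun x y => ?_⟩
    (fun c ⟨j, hj, e⟩ x y z h => ?_) (fun _ _ _ _ _ i i' h => let ⟨w, k⟩ := om_tw om two' iv (ind i) (ind i') h
      ⟨τ.symm w, by simpa⟩) (τ.symm x) (τ.symm y) (τ.symm z) (by simpa)
  · obtain ⟨S, h1, h2⟩ := om.sl (τ x) (τ y)
    exact ⟨S.map τ.symm.toLinearMap, by rw [τ.symm.finrank_map_eq, ← pp.dim]; exact h1, fun z => by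
      rw [h2, Submodule.map_equiv_eq_comap_symm]; rfl⟩
  · have k : ∀ x, j⁻¹ • τ x = τ (c * x) := fun x => LinearMap.ext fun v => by
      simp [τ, e, mul_assoc, mul_left_comm, LinearMap.BilinForm.toDual_def]
    simpa [k] using iv j⁻¹ (inv_mem hj) _ _ _ h

open H12 Cfsg.Geo

theorem core (n11 : finrank F K = 7 ∨ finrank F K = 11) : IsMaximalIn (SLV F K) (semiStab F K K ⊓ SLV F K) := by
  have pr : (finrank F K).Prime := by rcases n11 with e | e <;> rw [e] <;> norm_num
  have n13 : 7 ≤ finrank F K := by omega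
  refine isMaximalIn_of _ _ inf_le_right (fun h => ?_) fun X h1 h2 g hg hg' => ?_
  · obtain ⟨κ, hκ⟩ := ex_notMem' (A := F ∙ (1 : K)) (by rw [finrank_span_singleton one_ne_zero]; omega)
    obtain ⟨u, hu⟩ := ex_notMem' (A := pl F 1 κ (κ * κ)) (by
      have := Submodule.finrank_add_le_finrank_add_finrank (ln F 1 κ) (F ∙ (κ * κ))
      have := finrank_ln_le (F := F) 1 κ
      have := (finrank_span_le_card (R := F) ({κ * κ} : Set K)).trans_eq (by simp : _ = 1)
      rw [pl_eq_sup]; omega)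
    obtain ⟨φ, f1, f2⟩ := ex_dual hu
    obtain ⟨t, t1, t2⟩ := tr_SLV (f2 1 p1_pl)
    obtain ⟨b, hb⟩ := (h t1).1.1 κ
    have e : b = κ := by simpa [t2, f2 _ p1_pl, f2 _ p2_pl] using (hb 1).symm
    have := hb u
    simp only [t2, e, f1, smul_eq_mul, one_smul, mul_add, mul_one, add_right_inj] at this
    exact hκ (this ▸ Submodule.smul_mem _ _ (Submodule.mem_span_singleton_self _))
  let J : Subgroup (K ≃ₗ[F] K) :=
    { carrier := {g | ∃ c : F, c ≠ 0 ∧ ∃ x ∈ X, ∀ v, g v = c • x v}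
      one_mem' := ⟨1, one_ne_zero, 1, one_mem _, fun v => by simp⟩
      mul_mem' := fun {a b} ⟨c, c0, x, hx, e⟩ ⟨d, d0, y, hy, e'⟩ => ⟨c * d, mul_ne_zero c0 d0, x * y, mul_mem hx hy,
        fun v => by simp [e, e', smul_smul]⟩
      inv_mem' := fun {a} ⟨c, c0, x, hx, e⟩ => ⟨c⁻¹, inv_ne_zero c0, x⁻¹, inv_mem hx, fun v => a.injective (by
        rw [e (_ • _)]; simp [c0])⟩ }
  have l : X ≤ J := fun x hx => ⟨1, one_ne_zero, x, hx, fun v => (one_smul _ _).symm⟩
  refine (main (J := J) ⟨pr, n13, n11, fun c c0 => ⟨DistribMulAction.toLinearEquiv F K (Units.mk0 c c0), ⟨c, c0, 1, one_mem _, fun _ => rfl⟩,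
      fun _ => rfl⟩, fun c hc => ?_, ⟨(FiniteField.frobeniusAlgEquivOfAlgebraic F K).toLinearEquiv, l (h1 ⟨Mon.semi
      ⟨1, 1, fun x => by simp⟩, mem_SLV.2 (det_fr (pr.odd_of_ne_two (by omega)))⟩), fun _ => rfl⟩, ?_⟩).elim
    (fun h => absurd ⟨(h g (l hg)).semi, h2 hg⟩ hg') fun h => SLV_le_of_tr fun v φ h0 => ?_
  rotate_right
  · by_cases v0 : v = 0
    · exact ⟨1, one_mem _, fun x => by simp [v0]⟩
    by_cases f0 : φ = 0
    · exact ⟨1, one_mem _, fun x => by simp [f0]⟩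
    obtain ⟨t, -, ht⟩ := tr_SLV h0
    obtain ⟨c, c0, x, hx, e⟩ := h t ⟨v, φ, v0, f0, h0, ht⟩
    have k : ∀ (k : ℕ) w, (x ^ k) w = c⁻¹ ^ k • (w + ((k : F) * φ w) • v) := fun k w => by
      induction k with
      | zero => simp
      | succ k ih =>
        rw [pow_succ', LinearEquiv.mul_apply, ih, map_smul, ← inv_smul_smul₀ c0 (x _), ← e, ht]
        simp only [map_add, map_smul, h0, smul_zero, add_zero, Nat.cast_succ]
        module
    refine ⟨(x ^ (Fintype.card F - 1))⁻¹, inv_mem (pow_mem hx _), fun w => (x ^ (Fintype.card F - 1)).injective ?_⟩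
    rw [apply_inv_apply, k, FiniteField.pow_card_sub_one_eq_one _ (inv_ne_zero c0), Nat.cast_pred Fintype.card_pos,
      FiniteField.cast_card_eq_zero]
    simp [h0]
  · have c0 : c ≠ 0 := by rintro rfl; simp at hc
    exact ⟨DistribMulAction.toLinearEquiv F K (Units.mk0 c c0), l (h1 ⟨Mon.semi ⟨c, 0, fun x => by simp⟩,
      mem_SLV.2 hc⟩), fun _ => rfl⟩
  · rintro j ⟨c, -, x, hx, e⟩
    exact ⟨c, by rw [show (j : K →ₗ[F] K) = c • (x : K →ₗ[F] K) from LinearMap.ext e, LinearMap.det_smul,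
      mem_SLV.1 (h2 hx), mul_one]⟩

theorem core' (n11 : finrank F K = 7 ∨ finrank F K = 11) {V : Type u} [AddCommGroup V] [Module F V]
    [Module K V] [IsScalarTower F K V] (e : V ≃ₗ[K] K) : IsMaximalIn (SLV F V) (semiStab F K V ⊓ SLV F V) := by
  let e' := e.restrictScalars F
  let θ : (V ≃ₗ[F] V) ≃* (K ≃ₗ[F] K) :=
    { toFun g := (e'.symm.trans g).trans e'
      invFun g := (e'.trans g).trans e'.symm
      left_inv g := by ext; simp
      right_inv g := by ext; simp
      map_mul' g h := by ext; simp }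
  have k : ∀ (g : V ≃ₗ[F] V) (a b : K), (∀ v, θ g (a • v) = b • θ g v) ↔ ∀ v, g (a • v) = b • g v := fun g a b =>
    e.surjective.forall.trans (forall_congr' fun v => by
      change e (g (e.symm (a • e v))) = b • e (g (e.symm (e v))) ↔ _
      rw [map_smul, e.symm_apply_apply, ← map_smul, e.injective.eq_iff])
  convert isMaximalIn_comap θ (core n11) using 1
  · ext g; exact (congrArg (· = 1) (LinearEquiv.det_conj g e')).to_iff.symm
  · ext g
    refine and_congr ?_ (congrArg (· = 1) (LinearEquiv.det_conj g e')).to_iff.symm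
    exact (and_congr (forall_congr' fun a => exists_congr fun b => k g a b)
      (forall_congr' fun b => exists_congr fun a => k g a b)).symm

omit [Field K] [Fintype K] [Algebra F K] in
theorem goal {n : ℕ} (hn : n = 7 ∨ n = 11) (K : Subalgebra F (Matrix (Fin n) (Fin n) F)) (hK : IsFieldSubalgebra n K) :
    IsMaximalIn (specialLinear (Fin n) F) (subalgebraNormalizer K ⊓ specialLinear (Fin n) F) := by
  have : Nonempty (Fin n) := ⟨⟨0, by omega⟩⟩
  letI := fieldOf hK; letI := modOf K; letI := towerOf K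
  have := Fintype.ofFinite K
  have d := finrank_mul_finrank F K (Fin n → F)
  rw [hK.finrank_eq, finrank_fintype_fun_eq_card, Fintype.card_fin] at d
  have d1 : finrank K (Fin n → F) = 1 := (Nat.mul_eq_left (by omega)).1 d
  have : Module.Finite K (Fin n → F) := Module.Finite.of_restrictScalars_finite F K _
  rw [subalgebraNormalizer_eq hK, specialLinear_eq, ← Subgroup.comap_inf]
  exact isMaximalIn_comap _ (core' (by rwa [hK.finrank_eq]) (LinearEquiv.ofFinrankEq _ _ (d1.trans (finrank_self K).symm)))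

end H13.SH
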