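import Cfsg.Agent.H13.SL2Syl
import Cfsg.Agent.H24.BinTet

/-! Copies of `Q₈` and `SL₂(3)` in `SL₂(q)`. -/

set_option autoImplicit false
set_option linter.unusedSectionVars false

namespace H13
namespace GL2

open H27 H5 Cfsg Subgroup
open scoped MatrixGroups

variable {F : Type*} [Field F]

theorem ts_mul_sq (y a : SL(2, F)) : ts (y * a * a) = ts a * ts (y * a) - ts y := by
  have := H11.sl2_det a
  simp only [ts, sl_mul_apply]
  linear_combination -(y 0 0 + y 1 1) * this

theorem cube_of_ts {g : SL(2, F)} (h : ts g = -1) : g ^ 3 = 1 := by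
  have := H11.sl2_det g
  have e : g 1 1 = -1 - g 0 0 := by rw [← h, ts]; ring
  rw [e] at this
  rw [pow_three]
  apply sl_ext <;> simp only [sl_mul_apply, e] <;> simp
  · linear_combination (1 - g 0 0) * this
  · linear_combination -g 0 1 * this
  · linear_combination -g 1 0 * this
  · linear_combination (2 + g 0 0) * this

theorem neg_one_ne_SL (h2 : (2 : F) ≠ 0) : (-1 : SL(2, F)) ≠ 1 := fun e => h2 (by
  have := congrArg (fun m : SL(2, F) => m 0 0) e
  simp at this
  linear_combination -this)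

theorem equiv_tet (h2 : (2 : F) ≠ 0) {x a : SL(2, F)} (hx : ts x = 0) (ha : ts a = -1)
    (h : ts (x * a) = -1) : Nonempty ((closure {x, a} : Subgroup SL(2, F)) ≃* SL(2, ZMod 3)) := by
  have e : x ^ 2 = -1 := (sq x).trans (sq_of_ts hx)
  have h4 : x ^ 4 = 1 := by rw [show 4 = 2 * 2 from rfl, pow_mul, e]; simp
  have hc : x ^ 2 * a = a * x ^ 2 := by simp [e]
  obtain ⟨φ, p1, p2⟩ := H24.exists_hom_SL23 h4 hc (cube_of_ts ha) (cube_of_ts h)
  have hr : φ.range = closure {x, a} := by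
    rw [MonoidHom.range_eq_map, ← H24.closure_stAB, MonoidHom.map_closure, Set.image_pair, p1, p2]
  rw [← hr]
  exact ⟨(MulEquiv.ofBijective _ ((Nat.bijective_iff_surjective_and_card _).2
    ⟨φ.rangeRestrict_surjective, by rw [H24.card_SL23, hr, H24.card_tet h4
      (e ▸ neg_one_ne_SL h2) hc (cube_of_ts ha) (cube_of_ts h)]⟩)).symm⟩

theorem equiv_q8 (h2 : (2 : F) ≠ 0) {x y : SL(2, F)} (hx : ts x = 0) (hy : ts y = 0)
    (h : ts (x * y) = 0) :
    Nonempty ((zpowers x ⊔ zpowers y : Subgroup SL(2, F)) ≃* QuaternionGroup 2) := by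
  have e : x ^ 2 = -1 := (sq x).trans (sq_of_ts hx)
  have h3 : y * x * y⁻¹ = x⁻¹ := by
    calc _ = x⁻¹ * (x * y * (x * y)) * (y * y)⁻¹ := by group
      _ = _ := by rw [sq_of_ts h, sq_of_ts hy]; simp
  refine H4.nonempty_mulEquiv_quaternion_sup (orderOf_eq_prime_pow (p := 2) (n := 1)
    (e ▸ neg_one_ne_SL h2) ?_) (by rw [e, sq, sq_of_ts hy]) h3 ?_
  · rw [show 2 ^ (1 + 1) = 2 * 2 from rfl, pow_mul, e]; simp
  · rintro ⟨n, rfl⟩
    rw [← (Commute.refl x).zpow_right n, mul_inv_cancel_right, ← mul_eq_one_iff_eq_inv, ← sq, e] at h3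
    exact neg_one_ne_SL h2 h3

variable [Fintype F] [DecidableEq F]

theorem card_le_eight (h2 : (2 : F) ≠ 0) {R : Subgroup SL(2, F)} (h : ∀ x ∈ R, x ^ 4 = 1) :
    Nat.card R ≤ 8 := by
  obtain ⟨S, hS⟩ := (show IsPGroup 2 R from fun x => ⟨2, Subtype.ext (h x x.2)⟩).exists_le_sylow
  obtain ⟨T, w, t, H⟩ := exists_syl2 (two_ne_zero_iff_odd.1 h2) S
  have := H.tor.cyc
  have : IsCyclic (T ⊓ R : Subgroup _) := isCyclic_of_le inf_le_left
  have a : Nat.card (T ⊓ R : Subgroup _) ≤ 4 := Nat.le_of_dvd four_pos (by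
    rw [← IsCyclic.exponent_eq_card, Monoid.exponent_dvd_iff_forall_pow_eq_one]
    exact fun x => Subtype.ext (h x x.2.2))
  have b := relIndex_le_of_le_right (H := T) (hS.trans H.le) (by
    rw [H.tor.index_norm H.t_mem H.nc]; norm_num)
  rw [H.tor.index_norm H.t_mem H.nc, ← inf_relIndex_right] at b
  rw [← relIndex_mul_card_of_le (inf_le_right (a := T))]
  exact Nat.mul_le_mul b a

theorem sylow_SL23 (P : Sylow 2 SL(2, ZMod 3)) : P.1.Normal ∧ Nat.card P = 8 := by
  obtain ⟨T, w, t, h⟩ := exists_syl2 (by decide) P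
  have h8 : ¬ 8 ∣ Nat.card T := by have := h.tor.card; have := h.four; rw [ZMod.card] at *; omega
  exact ⟨normalizer_eq_top_iff.1 (eq_top_of_card_eq _ ((h.card_norm h8).trans H24.card_SL23.symm)),
    h.card_eight h8⟩

theorem Syl2.equiv_norm {S : Sylow 2 SL(2, F)} {T : Subgroup SL(2, F)} {w t : SL(2, F)}
    (h : Syl2 S T w t) (h8 : ¬ 8 ∣ Nat.card T) :
    Nonempty (normalizer ((S : Subgroup SL(2, F)) : Set SL(2, F)) ≃* SL(2, ZMod 3)) := by
  obtain ⟨u, v, huv⟩ := exists_triangle_eq h.two (1 : F)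
  obtain ⟨x, y, hx, hy, -, h1, h2, h3⟩ := exists_triangle huv
  obtain ⟨e⟩ := equiv_tet h.two (x := mkS x hx) (a := -mkS y hy) h1 (by rw [ts_neg, ← h2]; rfl)
    (by rw [mul_neg, ts_neg, ← h3]; rfl)
  generalize closure {mkS x hx, -mkS y hy} = K at e
  obtain ⟨P⟩ : Nonempty (Sylow 2 SL(2, ZMod 3)) := inferInstance
  let f := K.subtype.comp e.symm.toMonoidHom
  have hf : Function.Injective f := K.subtype_injective.comp e.symm.injective
  obtain ⟨S', hS⟩ := (P.isPGroup'.map f).exists_le_sylow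
  obtain ⟨g, rfl⟩ := MulAction.exists_smul_eq SL(2, F) S S'
  have a : P.1.map f = cj g S := eq_of_le_of_card_ge hS (by
    rw [card_map_of_injective hf, (sylow_SL23 P).2]
    exact ((card_cj g _).trans (h.card_eight h8)).le)
  have b : f.range = cj g (normalizer ((S : Subgroup SL(2, F)) : Set SL(2, F))) :=
    eq_of_le_of_card_ge (by
      rw [cj_normalizer, ← a, MonoidHom.range_eq_map, ← normalizer_eq_top_iff.2 (sylow_SL23 P).1]
      exact le_normalizer_map f) (by
      rw [card_cj, h.card_norm h8, ← H24.card_SL23, Nat.card_congr (MonoidHom.ofInjective hf).toEquiv])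
  exact ⟨((cjEquiv g _).trans (MulEquiv.subgroupCongr b.symm)).trans (MonoidHom.ofInjective hf).symm⟩

end GL2
end H13
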