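import Cfsg.Agent.H13.C4Lin

/-!
# The tensor product subgroups of the Prelude as stabilisers of tensor decompositions
-/

set_option autoImplicit false
set_option maxHeartbeats 400000

namespace H13.KL

open Module H12 TensorProduct Matrix Cfsg.Geo
open scoped Kronecker

variable {F : Type*} [Field F] {ι : Type} [Fintype ι] [DecidableEq ι] {n₁ n₂ : ℕ}

/-- The coordinate vector of a pure tensor. -/
def pure (u : Fin n₁ → F) (w : Fin n₂ → F) : Fin n₁ × Fin n₂ → F := fun a => u a.1 * w a.2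

/-- Coordinates on the tensor product. -/
noncomputable def tenCoord (F : Type*) [Field F] (n₁ n₂ : ℕ) :
    ((Fin n₁ → F) ⊗[F] (Fin n₂ → F)) ≃ₗ[F] (Fin n₁ × Fin n₂ → F) :=
  ((Pi.basisFun F (Fin n₁)).tensorProduct (Pi.basisFun F (Fin n₂))).equivFun

theorem tenCoord_tmul (u : Fin n₁ → F) (w : Fin n₂ → F) :
    tenCoord F n₁ n₂ (u ⊗ₜ w) = pure u w := by
  ext ⟨i, j⟩
  simp [tenCoord, pure, Basis.tensorProduct_repr_tmul_apply, mul_comm]

/-- The tensor decomposition of the column space. -/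
noncomputable def tenIso (e : ι ≃ Fin n₁ × Fin n₂) (P : GL ι F) :
    ((Fin n₁ → F) ⊗[F] (Fin n₂ → F)) ≃ₗ[F] (ι → F) :=
  (tenCoord F n₁ n₂).trans ((LinearEquiv.funCongrLeft F F e).trans (glEquiv ι F P))

theorem tenIso_apply (e : ι ≃ Fin n₁ × Fin n₂) (P : GL ι F) (x : (Fin n₁ → F) ⊗[F] (Fin n₂ → F)) :
    tenIso e P x = (P : Matrix ι ι F) *ᵥ (tenCoord F n₁ n₂ x ∘ e) := rfl

theorem tenIso_tmul (e : ι ≃ Fin n₁ × Fin n₂) (P : GL ι F) (u : Fin n₁ → F) (w : Fin n₂ → F) :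
    tenIso e P (u ⊗ₜ w) = (P : Matrix ι ι F) *ᵥ (pure u w ∘ e) := by
  rw [tenIso_apply, tenCoord_tmul]

/-- Transport of matrices to automorphisms of another space. -/
noncomputable def trE {V : Type*} [AddCommGroup V] [Module F V] (θ : V ≃ₗ[F] (ι → F)) :
    GL ι F ≃* (V ≃ₗ[F] V) := (glEquiv ι F).trans (H11.linEquivConj θ.symm)

theorem trE_apply {V : Type*} [AddCommGroup V] [Module F V] (θ : V ≃ₗ[F] (ι → F)) (g : GL ι F)
    (x : V) : θ (trE θ g x) = (g : Matrix ι ι F) *ᵥ θ x := by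
  simp [trE, glEquiv_apply]

theorem specialLinear_eq_trE {V : Type*} [AddCommGroup V] [Module F V] (θ : V ≃ₗ[F] (ι → F)) :
    specialLinear ι F = (SLV F V).comap (trE θ : GL ι F →* _) := by
  rw [specialLinear_eq]
  ext g
  change LinearEquiv.det (glEquiv ι F g) = 1 ↔
    LinearEquiv.det (H11.linEquivConj θ.symm (glEquiv ι F g)) = 1
  rw [H11.det_linEquivConj]

theorem kronecker_mulVec_pure (a : Matrix (Fin n₁) (Fin n₁) F) (b : Matrix (Fin n₂) (Fin n₂) F)
    (u : Fin n₁ → F) (w : Fin n₂ → F) : (a ⊗ₖ b) *ᵥ pure u w = pure (a *ᵥ u) (b *ᵥ w) := by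
  ext ⟨i, j⟩
  simp only [mulVec, dotProduct, pure, Fintype.sum_prod_type, kroneckerMap_apply,
    Finset.sum_mul_sum]
  exact Finset.sum_congr rfl fun _ _ => Finset.sum_congr rfl fun _ _ => by ring

theorem tensorProductSubgroup_eq (e : ι ≃ Fin n₁ × Fin n₂) (P : GL ι F) :
    tensorProductSubgroup n₁ n₂ e P =
      (tenStab F (Fin n₁ → F) (Fin n₂ → F)).comap (trE (tenIso e P) : GL ι F →* _) := by
  have key : ∀ (k : GL (Fin n₁ × Fin n₂) F) (a : GL (Fin n₁) F) (b : GL (Fin n₂) F),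
      k.1 = a.1 ⊗ₖ b.1 →
      trE (tenIso e P) (MulAut.conj P (glReindex e.symm k)) =
        TensorProduct.congr (glEquiv _ F a) (glEquiv _ F b) := fun k a b hk =>
    LinearEquiv.toLinearMap_injective (TensorProduct.ext' fun u w => (tenIso e P).injective (by
      have : ((glReindex e.symm k : GL ι F) : Matrix ι ι F) = k.1.submatrix e e := rfl
      simp only [LinearEquiv.coe_coe, trE_apply, congr_tmul, tenIso_tmul, glEquiv_apply,
        MulAut.conj_apply, Units.val_mul, ← mulVec_mulVec]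
      rw [mulVec_mulVec (pure u w ∘ e), Units.inv_mul, one_mulVec, this, submatrix_mulVec_equiv, hk,
        Function.comp_assoc, e.self_comp_symm, Function.comp_id, kronecker_mulVec_pure]))
  ext g
  constructor
  · rintro ⟨_, ⟨k, ⟨a, b, hk⟩, rfl⟩, rfl⟩
    exact ⟨_, _, key k a b hk⟩
  · rintro ⟨α, β, h⟩
    obtain ⟨a, rfl⟩ := (glEquiv _ F).surjective α
    obtain ⟨b, rfl⟩ := (glEquiv _ F).surjective β
    exact ⟨_, ⟨a.kronecker b, ⟨a, b, rfl⟩, rfl⟩,
      (trE (tenIso e P)).injective ((key _ a b rfl).trans h.symm)⟩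

section
variable {U W : Type*} [AddCommGroup U] [Module F U] [AddCommGroup W] [Module F W]
  [FiniteDimensional F U] [FiniteDimensional F W]

theorem not_SLV_le_tenStab (hU : 2 ≤ finrank F U) (hd : finrank F U < finrank F W) :
    ¬ SLV F (U ⊗[F] W) ≤ tenStab F U W := fun h => by
  obtain ⟨u, hu⟩ := finrank_pos_iff_exists_ne_zero.1 (show 0 < finrank F U by omega)
  obtain ⟨w, hw⟩ := finrank_pos_iff_exists_ne_zero.1 (show 0 < finrank F W by omega)
  obtain ⟨ψ, a1⟩ := exists_dual_one (F := F) hu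
  obtain ⟨u', a2, a3⟩ := exists_ker_ne_zero ψ (by simp; omega)
  obtain ⟨φ, a4, a5⟩ := exists_dual_ker (F := F) (by omega) w
  obtain ⟨y, a6, -⟩ := exists_ne_ne a4 a4
  obtain ⟨t, h1, h2⟩ := tr_SLV (v := u ⊗ₜ[F] w) (φ := ψ ∘ₗ cR U φ) (by simp [a5])
  obtain ⟨α, β, rfl⟩ := h h1
  obtain ⟨c, hc⟩ := scalar_of_small hd (α := α) (β := β) (Z := line F U w) (finrank_line hw).le
    fun x => by rw [h2, add_sub_cancel_left, smul_tmul']; exact tmul_mem_line _ _
  have b1 := h2 (u' ⊗ₜ y)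
  have b2 := h2 (u ⊗ₜ y)
  simp only [congr_tmul, hc, smul_tmul, LinearMap.comp_apply, cR_tmul, a6, one_smul, a3, zero_smul,
    add_zero, a1] at b1 b2
  rw [tmul_right_inj a2 b1, left_eq_add] at b2
  exact tmul_ne_zero hu hw b2

theorem isMaximalIn_tenStab [Fintype F] (hU : 2 ≤ finrank F U) (hd : finrank F U < finrank F W)
    (hex : ¬ (finrank F U = 2 ∧ Fintype.card F = 2)) :
    IsMaximalIn (SLV F (U ⊗[F] W)) (tenStab F U W ⊓ SLV F (U ⊗[F] W)) :=
  isMaximalIn_of _ _ inf_le_right (fun h => not_SLV_le_tenStab hU hd (h.trans inf_le_left))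
    fun _ h1 h2 _ hg hg' => SLV_le_of_tenStab hU hd hex h1 h2 hg fun e => hg' ⟨e, h2 hg⟩

end

theorem isMaximalIn_tensor [Fintype F] (h1 : 2 ≤ n₁) (h12 : n₁ < n₂)
    (hex : ¬ (n₁ = 2 ∧ Fintype.card F = 2)) (e : ι ≃ Fin n₁ × Fin n₂) (P : GL ι F) :
    IsMaximalIn (specialLinear ι F) (tensorProductSubgroup n₁ n₂ e P ⊓ specialLinear ι F) := by
  rw [specialLinear_eq_trE (tenIso e P), tensorProductSubgroup_eq, ← Subgroup.comap_inf]
  exact isMaximalIn_comap _ (isMaximalIn_tenStab (by simpa) (by simpa) (by simpa using hex))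

end H13.KL
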