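import Cfsg.Agent.H13.TenForm

/-!
# Non-maximal stabilisers of tensor decompositions
-/

set_option autoImplicit false
set_option maxHeartbeats 400000

namespace H13.KL

open Module H12 TensorProduct QuadraticMap

variable {F : Type*} [Field F] {U W : Type*} [AddCommGroup U] [Module F U] [AddCommGroup W]
  [Module F W] {T : FormType F} {C : CForm T (U ⊗[F] W)}
  {G : Subgroup ((U ⊗[F] W) ≃ₗ[F] (U ⊗[F] W))} {f₁ : U → U → F} {f₂ : W → W → F}

theorem iso3_comap {V V' : Type*} [AddCommGroup V] [Module F V] [AddCommGroup V'] [Module F V']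
    {C : CForm T V} (h : Iso3 C) {f : V' →ₗ[F] V} (hf : Function.Injective f) :
    Iso3 (C.comap f) := fun Y hY => by
  obtain ⟨_, ⟨y, hy, rfl⟩, h1, h2⟩ := h (Y.map f) (by
    rwa [← (Submodule.equivMapOfInjective f hf Y).finrank_eq])
  exact ⟨y, hy, fun e => h1 (by rw [e, map_zero]), h2⟩

theorem eq_zero_of_tmul (hC : C.Nondeg) {x : U ⊗[F] W} (h : ∀ u w, C.B x (u ⊗ₜ w) = 0) : x = 0 :=
  hC x fun y => by
    induction y with
    | zero => simp
    | tmul u w => exact h u w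
    | add y z a b => rw [map_add, a, b, add_zero]

theorem mem_line_of_fix {g : (U ⊗[F] W) ≃ₗ[F] (U ⊗[F] W)} (hg : g ∈ tenStab F U W) {u : U}
    (hu : u ≠ 0) (h : ∀ w, g (u ⊗ₜ w) = u ⊗ₜ w) (u' : U) (w : W) : g (u' ⊗ₜ w) ∈ line F U w := by
  obtain ⟨α, β, e⟩ := mem_tenStab.1 hg
  rw [e]
  exact line_le_of_mem_span (mem_span_of_tmul_mem_line (α.map_ne_zero_iff.2 hu)
    (by rw [← e, h]; exact tmul_mem_line _ _)) (tmul_mem_line _ _)

/-- A non-isotropic vector with anisotropic complement. -/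
def FrV (f : U → U → F) (u : U) : Prop := f u u ≠ 0 ∧ ∀ v, f u v = 0 → f v v = 0 → v = 0

variable (F) in
/-- The vectors with anisotropic complement form a frame. -/
def HasFrame (f : U → U → F) : Prop := ∃ e₁ e₂ u₀ : U, FrV f e₁ ∧ e₂ ≠ 0 ∧ f e₁ e₂ = 0 ∧
  (∀ s, FrV f s → (∃ c : F, s = c • e₁) ∨ f e₁ s = 0) ∧ u₀ ≠ 0 ∧ f u₀ u₀ = 0

theorem between_frame [Finite F] [FiniteDimensional F U] [FiniteDimensional F W] (hR : RootG C G)
    (hS : Spec C G) (hN : ∀ x, C.B x x = 0 → C.N x = 0)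
    (hB : ∀ u w u' w', C.B (u ⊗ₜ w) (u' ⊗ₜ w') = f₁ u u' * f₂ w w') (hW : 5 ≤ finrank F W)
    (h : HasFrame F f₁) : ∃ M, tenStab F U W ⊓ G < M ∧ M < G := by
  obtain ⟨e₁, e₂, u₀, a1, a2, a3, a4, a5, a6⟩ := h
  have nd : ∀ y, y ≠ 0 → ∃ y', f₂ y y' ≠ 0 := fun y hy => by
    by_contra hc
    push Not at hc
    exact tmul_ne_zero a2 hy (eq_zero_of_tmul hR.nd fun u w => by rw [hB, hc, mul_zero])
  have n1 : e₁ ≠ 0 := by
    rintro rfl
    obtain ⟨y, hy⟩ := finrank_pos_iff_exists_ne_zero.1 (show 0 < finrank F W by omega)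
    obtain ⟨y', hy'⟩ := nd y hy
    exact mul_ne_zero a1.1 hy' (by rw [← hB]; simp)
  have inj : Function.Injective (TensorProduct.mk F U W e₁) := fun _ _ e => tmul_right_inj n1 e
  have hV : 5 ≤ finrank F (U ⊗[F] W) := hW.trans (LinearMap.finrank_le_finrank_of_injective inj)
  have i3 := iso3_comap hS.iso3 inj
  have c2 : (C.comap (TensorProduct.mk F U W e₁)).Nondeg := fun y hy => by
    by_contra hc
    obtain ⟨y', hy'⟩ := nd y hc
    exact mul_ne_zero a1.1 hy' (by rw [← hB]; exact hy y')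
  obtain ⟨w, w0, w1⟩ := i3.exists_iso (by omega)
  obtain ⟨w', b1, b2, b3⟩ := i3.exists_perpL c2 [w] [w] (by simpa)
  have b1 : C.B (e₁ ⊗ₜ w') (e₁ ⊗ₜ w) = 0 := C.B_swap_zero (b1 w (by simp))
  obtain ⟨y, b4, b5⟩ := c2.exists_perp_ne b2
  have b4 : C.B (e₁ ⊗ₜ y) (e₁ ⊗ₜ w) = 0 := C.B_swap_zero (mem_perp_spanL.1 b4 w (by simp))
  change C.B (e₁ ⊗ₜ w') (e₁ ⊗ₜ y) ≠ 0 at b5
  obtain ⟨g, hg, e⟩ := hR.rho (e₁ ⊗ₜ w') (e₁ ⊗ₜ w) b3 w1 b1
  have fix : ∀ s z, f₁ e₁ s = 0 → g (s ⊗ₜ z) = s ⊗ₜ z := fun s z h => by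
    rw [e, C.B_swap_zero (x := e₁ ⊗ₜ w) (by rw [hB, h, zero_mul]), hB, h]; simp
  haveI : Finite (U ⊗[F] W) := Module.finite_of_finite F
  have ww : f₂ w w = 0 := (mul_eq_zero.1 ((hB _ _ _ _).symm.trans
    (C.B_self_of_zero w1))).resolve_left a1.1
  refine exists_between_of (K := setStab F {x | ∃ s z, FrV f₁ s ∧ x = s ⊗ₜ z})
    (le_setStab_of_mapsTo ?_) hg (mem_setStab_of_mapsTo ?_) (fun hH => ?_) fun hG => ?_
  · rintro k ⟨hk, hk'⟩ _ ⟨s, z, hs, rfl⟩
    obtain ⟨α, β, ek⟩ := mem_tenStab.1 hk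
    have k1 : ∀ u u', f₁ (α u) (α u') * f₂ (β w') (β y) = f₁ u u' * f₂ w' y := fun u u' => by
      rw [← hB, ← hB, ← ek, ← ek, CForm.isom_B (hS.le hk')]
    rw [hB] at b5
    have k2 : ∀ u u', f₁ (α u) (α u') = 0 ↔ f₁ u u' = 0 := fun u u' => by
      rw [← mul_eq_zero_iff_right (right_ne_zero_of_mul ((k1 e₁ e₁).trans_ne b5)), k1,
        mul_eq_zero_iff_right (right_ne_zero_of_mul b5)]
    refine ⟨α s, β z, ⟨(k2 s s).not.2 hs.1, fun v h1 h2 => ?_⟩, ek _ _⟩
    obtain ⟨v, rfl⟩ := α.surjective v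
    rw [hs.2 v ((k2 _ _).1 h1) ((k2 _ _).1 h2), map_zero]
  · rintro _ ⟨s, z, hs, rfl⟩
    rcases a4 s hs with ⟨c, rfl⟩ | h
    · exact ⟨e₁, _, a1, by rw [e, smul_tmul, ← tmul_smul, ← tmul_smul, ← tmul_add, ← tmul_sub]⟩
    · exact ⟨s, z, hs, fix s z h⟩
  · have := mem_line_of_fix hH a2 (fun z => fix e₂ z a3) e₁ y
    rw [e, b4, ← tmul_smul, ← tmul_add, map_zero, zero_mul, add_zero, zero_smul, sub_zero] at this
    obtain ⟨c, hc⟩ := Submodule.mem_span_singleton.1 (mem_span_of_tmul_mem_line n1 this)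
    have k := congrArg (fun z => C.B (e₁ ⊗ₜ w') (e₁ ⊗ₜ z)) hc
    simp only [tmul_add, tmul_smul, map_add, map_smul, b1, mul_zero, add_zero, smul_eq_mul,
      mul_eq_right₀ b5] at k
    rw [k, one_smul, left_eq_add] at hc
    exact smul_ne_zero b5 w0 hc
  · obtain ⟨k, hk, ek⟩ := hS.witt_one (by omega) (tmul_ne_zero n1 w0) (tmul_ne_zero a5 w0)
      ((hN _ (by rw [hB, ww, mul_zero])).trans w1.symm)
    obtain ⟨s, z, hs, es⟩ := (hG hk _).1 ⟨e₁, w, a1, rfl⟩
    rw [ek] at es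
    obtain ⟨z', hz⟩ := nd z (by rintro rfl; exact tmul_ne_zero a5 w0 (by simpa using es))
    exact a5 (hs.2 u₀ ((mul_eq_zero.1 (by rw [← hB, ← es, hB, a6, zero_mul])).resolve_right hz) a6)

theorem hasFrame_f3 [Fintype F] (hq : Fintype.card F = 3) (hU : finrank F U = 3)
    {B : LinearMap.BilinForm F U} (hs : ∀ x y, B x y = B y x) (hn : ∀ x, (∀ y, B x y = 0) → x = 0) :
    HasFrame F fun x y => B x y := by
  classical
  haveI : FiniteDimensional F U := Module.finite_of_finrank_pos (by omega)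
  have h3 := f3_three hq
  have sq : ∀ a : F, a ≠ 0 → a * a = 1 := fun a ha => mul_self_eq_one_of_card hq.le ha
  have key : ∀ a b d : U, B a b = 0 → B a d = 0 → B b d = 0 → B a a ≠ 0 → B b b ≠ 0 →
      B d d = B b b → (∀ v, ∃ x y z : F, v = x • a + y • b + z • d) →
      HasFrame F fun x y => B x y := by
    intro a b d e1 e2 e3 n1 n2 e4 h
    have f : ∀ x y z x' y' z' : F, B (x • a + y • b + z • d) (x' • a + y' • b + z' • d) =
        x * x' * B a a + (y * y' + z * z') * B b b := fun x y z x' y' z' => by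
      simp [e1, e2, e3, e4, hs b a, hs d a, hs d b]; ring
    have nz : ∀ x y z : F, x • a + y • b + z • d = 0 → x = 0 ∧ y = 0 ∧ z = 0 := fun x y z e => by
      have k1 := f x y z 1 0 0
      have k2 := f x y z 0 1 0
      have k3 := f x y z 0 0 1
      rw [e] at k1 k2 k3
      exact ⟨by simpa [n1] using k1, by simpa [n2] using k2, by simpa [n2] using k3⟩
    have ea : ∀ x y z : F, B a (x • a + y • b + z • d) = x * B a a := by simp [e1, e2]
    have hc : B a a = B b b ∨ B a a = -B b b :=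
      mul_self_eq_mul_self_iff.1 ((sq _ n1).trans (sq _ n2).symm)
    refine ⟨a, b, if B a a = B b b then (1 : F) • a + (1 : F) • b + (1 : F) • d else
      (1 : F) • a + (1 : F) • b + (0 : F) • d, ⟨n1, fun v h1 h2 => ?_⟩,
      fun e => n2 (by simp [e]), e1, fun s hs => ?_, ?_, ?_⟩
    · obtain ⟨x, y, z, rfl⟩ := h v
      simp only [ea, f] at h1 h2
      obtain rfl : x = 0 := by simpa [n1] using h1
      have h4 : y * y + z * z = 0 := by simpa [n2] using h2
      by_cases hy : y = 0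
      · simp [hy, show z = 0 by simpa [hy] using h4]
      · by_cases hz : z = 0
        · simp [hz, hy] at h4
        · exact absurd (by linear_combination h3 - h4 + sq y hy + sq z hz) (one_ne_zero (α := F))
    · obtain ⟨x, y, z, rfl⟩ := h s
      obtain ⟨h1, h2⟩ := hs
      simp only [ea, f] at h1 h2 ⊢
      by_cases hx : x = 0
      · simp [hx]
      by_cases hy : y = 0 <;> by_cases hz : z = 0
      · exact Or.inl ⟨x, by simp [hy, hz]⟩
      all_goals exfalso; rcases hc with hc | hc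
      · exact one_ne_zero (nz z 1 (-x) (h2 _ (by rw [f, hy, hc]; ring) (by
          rw [f, hc]; linear_combination (sq z hz + sq x hx + h3) * B b b))).2.1
      · exact h1 (by rw [hc, hy]; linear_combination (sq z hz - sq x hx) * B b b)
      · exact one_ne_zero (nz y (-x) 1 (h2 _ (by rw [f, hz, hc]; ring) (by
          rw [f, hc]; linear_combination (sq y hy + sq x hx + h3) * B b b))).2.2
      · exact h1 (by rw [hc, hz]; linear_combination (sq y hy - sq x hx) * B b b)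
      · exact h1 (by rw [hc]; linear_combination (sq y hy + sq x hx + sq z hz + h3) * B b b)
      · exact hy (nz y x 0 (h2 _ (by rw [f, hc]; ring) (by
          rw [f, hc]; linear_combination (sq x hx - sq y hy) * B b b))).1
    · split_ifs <;> exact fun e => one_ne_zero (nz _ _ _ e).1
    · split_ifs with e
      · simp only [f, e]; linear_combination h3 * B b b
      · simp only [f, hc.resolve_left e]; ring
  haveI := invertibleOfNonzero (f3_two hq)
  obtain ⟨v, hv⟩ := LinearMap.BilinForm.exists_orthogonal_basis (B := B) ⟨fun x y => hs x y⟩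
  let b := v.reindex (finCongr hU)
  have o : ∀ i j, i ≠ j → B (b i) (b j) = 0 := fun i j h => by
    simpa [b] using hv ((finCongr hU).symm.injective.ne h)
  have sp : ∀ x, x = b.repr x 0 • b 0 + b.repr x 1 • b 1 + b.repr x 2 • b 2 := fun x =>
    (b.sum_repr x).symm.trans (Fin.sum_univ_three _)
  have n : ∀ i, B (b i) (b i) ≠ 0 := fun i e => b.ne_zero i (hn _ fun y => by
    have : B (b i) = 0 := b.ext fun j => if h : i = j then h ▸ e else o i j h
    simp [this])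
  by_cases e1 : B (b 2) (b 2) = B (b 1) (b 1)
  · exact key _ _ _ (o 0 1 (by simp)) (o 0 2 (by simp)) (o 1 2 (by simp)) (n _) (n _) e1
      fun x => ⟨_, _, _, sp x⟩
  by_cases e2 : B (b 2) (b 2) = B (b 0) (b 0)
  · exact key _ _ _ (o 1 0 (by simp)) (o 1 2 (by simp)) (o 0 2 (by simp)) (n _) (n _) e2
      fun x => ⟨_, _, _, by rw [add_comm (_ • b 1)]; exact sp x⟩
  · exact key _ _ _ (o 2 0 (by simp)) (o 2 1 (by simp)) (o 0 1 (by simp)) (n _) (n _) (by
      rcases f3_cases hq (n 0) with a | a <;> rcases f3_cases hq (n 1) with a' | a' <;>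
        rcases f3_cases hq (n 2) with a'' | a'' <;>
        simp only [a, a', a'', not_true] at e1 e2 ⊢)
      fun x => ⟨_, _, _, by rw [add_assoc, add_comm]; exact sp x⟩

theorem hasFrame_f4 {σ : F →+* F} {hσ2 : ∀ a, σ (σ a) = a} {C : CForm (hermType σ hσ2) U}
    (hσ : σ ≠ RingHom.id F) (hσ' : ∀ a, σ a = a → a = 0 ∨ a = 1) (h2 : (2 : F) = 0)
    (hC : C.Nondeg) (hU : finrank F U = 2) : HasFrame F fun x y => C.B x y := by
  haveI : FiniteDimensional F U := Module.finite_of_finrank_pos (by omega)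
  have n1 : ∀ x, C.N x ≠ 0 → C.B x x = 1 := fun x hx =>
    (herm_B_self x).trans ((hσ' _ (herm_σN x)).resolve_left hx)
  obtain ⟨a, -, e⟩ := herm_exists_nonisotropic hσ (C.nondegOn_top.2 hC)
    (ne_bot_of_finrank_pos (by simp; omega))
  have e1 := n1 a e
  obtain ⟨b, hb, e2⟩ := exists_ker_ne_zero (C.B a) (by simp; omega)
  have e3 := C.B_swap_zero e2
  have sp : ∀ v, ∃ x y : F, v = x • a + y • b := fun v =>
    eq_span_pair (W := ⊤) (by simpa) trivial trivial (by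
      have := finrank_span_eq_card (R := F) (b := ![a, b]) (LinearIndependent.pair_iff.2
        fun s t h => by
          obtain rfl : s = 0 := by simpa [e1, e2] using congrArg (C.B a) h
          simpa [hb] using h)
      rwa [Matrix.range_cons_cons_empty, Fintype.card_fin] at this) trivial
  have e4 : C.B b b = 1 := n1 b fun h => hb (hC b fun v => by
    obtain ⟨x, y, rfl⟩ := sp v
    simp [e3, herm_B_self, h])
  have f : ∀ x y : F, C.B (x • a + y • b) (x • a + y • b) = x * σ x + y * σ y := fun x y => by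
    simp only [map_add, LinearMap.add_apply, herm_B_smul_left, map_smul, e1, e2, e3, e4,
      smul_eq_mul]; ring
  have k : ∀ s : F, s ≠ 0 → s * σ s = 1 := fun s hs => (hσ' _ (by
    rw [map_mul, hσ2, mul_comm])).resolve_left (mul_ne_zero hs (by simpa))
  refine ⟨a, b, (1 : F) • a + (1 : F) • b, ⟨e1.trans_ne one_ne_zero, fun v h1 h3 => ?_⟩, hb, e2,
    fun s hs => ?_, fun h => ?_, by simp only [f, map_one]; linear_combination h2⟩
  · obtain ⟨x, y, rfl⟩ := sp v
    obtain rfl : x = 0 := by simpa [e1, e2] using h1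
    simp only [f] at h3
    simp [show y = 0 by simpa using h3]
  · obtain ⟨x, y, rfl⟩ := sp s
    by_cases hy : y = 0
    · exact Or.inl ⟨x, by simp [hy]⟩
    · refine Or.inr (by_contra fun h => hs.1 ?_)
      simp only [f, k y hy, k x (by simpa [e1, e2] using h)]
      linear_combination h2
  · simpa [e1, e2] using congrArg (C.B a) h

theorem hasFrame_sym [Fintype F] (hq : Fintype.card F = 3) {f : (Fin 3 → F) → (Fin 3 → F) → F}
    (hf : Cfsg.Geo.IsSymmetricForm f) : HasFrame F f :=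
  hasFrame_f3 hq (by simp) (B := bilinOf hf.bilinear) hf.symm fun x hx => by_contra fun h =>
    let ⟨y, hy⟩ := (hf.nondegenerate x h).2; hy (hx y)

theorem between_frame_quad [Fintype F] [FiniteDimensional F U] [FiniteDimensional F W]
    {Q : QuadraticForm F (U ⊗[F] W)} (hQ : QNondeg Q) (h2 : (2 : F) ≠ 0)
    (hB : ∀ u w u' w', polar Q (u ⊗ₜ w) (u' ⊗ₜ w') = f₁ u u' * f₂ w w') (hW : 5 ≤ finrank F W)
    (hU : 1 ≤ finrank F U) (h : HasFrame F f₁) :
    ∃ M, tenStab F U W ⊓ OmegaV Q < M ∧ M < OmegaV Q :=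
  have hd : 5 ≤ finrank F (U ⊗[F] W) := by rw [finrank_tensorProduct]; nlinarith
  between_frame (rootG_quad hQ hd) (spec_quad hQ (Or.inr (by omega))) (fun x hx => by
    rw [CForm.ofQuad_B, polar_self'] at hx
    exact (mul_eq_zero.1 hx).resolve_left h2) hB hW h

section F2

variable {V : Type*} [AddCommGroup V] [Module F V] {ρ τ : End F U}

/-- The normaliser of a set of endomorphisms. -/
def nrm (S : Set (End F V)) : Subgroup (V ≃ₗ[F] V) where
  carrier := {g | (∀ a ∈ S, ∃ b ∈ S, ∀ x, g (a x) = b (g x)) ∧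
    ∀ a ∈ S, ∃ b ∈ S, ∀ x, g (b x) = a (g x)}
  one_mem' := ⟨fun a h => ⟨a, h, fun _ => rfl⟩, fun a h => ⟨a, h, fun _ => rfl⟩⟩
  mul_mem' {g k} hg hk := ⟨fun a h => by
    obtain ⟨b, h1, h2⟩ := hk.1 a h
    obtain ⟨c, h3, h4⟩ := hg.1 b h1
    exact ⟨c, h3, fun x => by simp [h2, h4]⟩, fun a h => by
    obtain ⟨b, h1, h2⟩ := hg.2 a h
    obtain ⟨c, h3, h4⟩ := hk.2 b h1
    exact ⟨c, h3, fun x => by simp [h2, h4]⟩⟩
  inv_mem' {g} hg := ⟨fun a h => let ⟨b, h1, h2⟩ := hg.2 a h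
    ⟨b, h1, fun x => g.injective (by simp [h2, apply_inv_apply])⟩,
    fun a h => let ⟨b, h1, h2⟩ := hg.1 a h
    ⟨b, h1, fun x => g.injective (by simp [h2, apply_inv_apply])⟩⟩

variable [Fintype F]

theorem f2_add_self (hq : Fintype.card F = 2) (x : V) : x + x = 0 := by
  rw [← two_smul F, f2_two hq, zero_smul]

theorem f2_add_add (hq : Fintype.card F = 2) (x y : V) : x + y + x = y := by
  rw [add_right_comm, f2_add_self hq, zero_add]

theorem f2_not_mem_span (hq : Fintype.card F = 2) (hρ : ∀ u, ρ (ρ u) = ρ u + u) {u : U}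
    (hu : u ≠ 0) : ρ u ∉ Submodule.span F {u} := fun h => by
  obtain ⟨c, hc⟩ := Submodule.mem_span_singleton.1 h
  have := hρ u
  rcases f2_cases hq c with rfl | rfl <;> simp only [zero_smul, one_smul] at hc
  · rw [← hc, map_zero, zero_add] at this; exact hu this.symm
  · rw [← hc, ← hc, left_eq_add] at this; exact hu this

theorem f2_span (hq : Fintype.card F = 2) (hU : finrank F U = 2) (hρ : ∀ u, ρ (ρ u) = ρ u + u)
    {u : U} (hu : u ≠ 0) (v : U) : ∃ x y : F, v = x • u + y • ρ u := by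
  haveI : FiniteDimensional F U := Module.finite_of_finrank_pos (by omega)
  refine eq_span_pair (W := ⊤) (by simpa) trivial trivial ?_ trivial
  have := finrank_span_eq_card (R := F) (b := ![u, ρ u]) (LinearIndependent.pair_iff' hu |>.2
    fun c h => f2_not_mem_span hq hρ hu (Submodule.mem_span_singleton.2 ⟨c, h⟩))
  rwa [Matrix.range_cons_cons_empty, Fintype.card_fin] at this

theorem f2_eq_or (hq : Fintype.card F = 2) (hU : finrank F U = 2) (hρ : ∀ u, ρ (ρ u) = ρ u + u)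
    (hτ : ∀ u, τ (τ u) = τ u + u) : τ = ρ ∨ τ = ρ + 1 := by
  haveI : FiniteDimensional F U := Module.finite_of_finrank_pos (by omega)
  obtain ⟨u, hu⟩ := finrank_pos_iff_exists_ne_zero.1 (show 0 < finrank F U by omega)
  have sp := f2_span hq hU hρ hu
  have ext : ∀ {a b : End F U}, a u = b u → a (ρ u) = b (ρ u) → a = b := fun h1 h2 =>
    LinearMap.ext fun v => by obtain ⟨x, y, rfl⟩ := sp v; simp [h1, h2]
  obtain ⟨x, y, e⟩ := sp (τ u)
  rcases f2_cases hq y with rfl | rfl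
  · exact absurd (Submodule.mem_span_singleton.2 ⟨x, by simp [e]⟩) (f2_not_mem_span hq hτ hu)
  rcases f2_cases hq x with rfl | rfl <;> simp only [zero_smul, one_smul, zero_add] at e
  · exact Or.inl (ext e (by rw [hρ, ← e, hτ]))
  · refine Or.inr (ext (by simp [e, add_comm]) ?_)
    have := hτ u
    rw [e, map_add, e, add_right_inj] at this
    simp [this, hρ, f2_add_add hq]

/-- The map acting as `ρ` on `U ⊗ π W` and trivially on `U ⊗ ker π`. -/
theorem exists_f2 (hq : Fintype.card F = 2) (hρ : ∀ u, ρ (ρ u) = ρ u + u) {π : End F W}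
    (hπ : ∀ w, π (π w) = π w) : ∃ g : (U ⊗[F] W) ≃ₗ[F] (U ⊗[F] W), g * g * g = 1 ∧
      ∀ u w, g (u ⊗ₜ w) = ρ u ⊗ₜ π w + u ⊗ₜ (w - π w) := by
  let a : End F (U ⊗[F] W) := TensorProduct.map ρ π + TensorProduct.map 1 (1 - π)
  have h : a ∘ₗ a ∘ₗ a = LinearMap.id := TensorProduct.ext' fun u w => by
    simp [a, hπ, hρ, f2_add_add hq, ← tmul_add]
  exact ⟨LinearEquiv.ofLinearMap a (a ∘ₗ a) h h, LinearEquiv.toLinearMap_injective h,
    fun u w => by simp [a]⟩

theorem between_f2 (hq : Fintype.card F = 2) (hU : finrank F U = 2) (hρ : ∀ u, ρ (ρ u) = ρ u + u)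
    {π : End F W} {g t : (U ⊗[F] W) ≃ₗ[F] (U ⊗[F] W)} (hg : g ∈ G)
    (e : ∀ u w, g (u ⊗ₜ w) = ρ u ⊗ₜ π w + u ⊗ₜ (w - π w)) {w₁ w₂ : W} (h1 : w₁ ≠ 0) (h2 : w₂ ≠ 0)
    (e1 : π w₁ = w₁) (e2 : π w₂ = 0) (ht : t ∈ G) {u : U} {w w' : W} (hu : u ≠ 0)
    (hw : w' ∉ Submodule.span F {w}) (t1 : t (u ⊗ₜ w) = u ⊗ₜ w) (t2 : t (ρ u ⊗ₜ w) = u ⊗ₜ w') :
    ∃ M, tenStab F U W ⊓ G < M ∧ M < G := by
  let S : Set (End F (U ⊗[F] W)) := {a | ∃ τ : End F U, (∀ u, τ (τ u) = τ u + u) ∧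
    a = TensorProduct.map τ 1}
  have cm : ∀ a ∈ S, ∃ b ∈ S, ∀ x, g (a x) = b (g x) ∧ g (b x) = a (g x) := by
    rintro _ ⟨τ, hτ, rfl⟩
    refine ⟨_, ⟨τ, hτ, rfl⟩, fun x => and_self_iff.2 ?_⟩
    induction x with
    | zero => simp
    | tmul u w => rcases f2_eq_or hq hU hρ hτ with rfl | rfl <;> simp [e]
    | add x y a b => simp only [map_add, a, b]
  refine exists_between_of (K := nrm S) ?_ hg ⟨fun a h => (cm a h).imp fun _ h =>
    ⟨h.1, fun x => (h.2 x).1⟩, fun a h => (cm a h).imp fun _ h => ⟨h.1, fun x => (h.2 x).2⟩⟩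
    (fun hH => ?_) fun hG => ?_
  · rintro _ ⟨⟨α, β, rfl⟩, -⟩
    constructor <;> rintro _ ⟨τ, hτ, rfl⟩
    · refine ⟨_, ⟨cj α τ, fun u => by simp [hτ, inv_apply_apply, apply_inv_apply], rfl⟩, fun x => ?_⟩
      induction x with
      | zero => simp
      | tmul u w => simp [inv_apply_apply]
      | add x y a b => simp only [map_add, a, b]
    · refine ⟨_, ⟨cj α⁻¹ τ, fun u => by simp [hτ, inv_apply_apply, apply_inv_apply], rfl⟩,
        fun x => ?_⟩
      induction x with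
      | zero => simp
      | tmul u w => simp [apply_inv_apply]
      | add x y a b => simp only [map_add, a, b]
  · obtain ⟨α, β, eg⟩ := mem_tenStab.1 hH
    obtain ⟨ψ, a1, a2⟩ := exists_dual_eq_one (f2_not_mem_span hq hρ hu)
    have a1 := a1 u (Submodule.mem_span_singleton_self u)
    have b1 := congrArg (cL W ψ) ((eg u w₁).symm.trans (e u w₁))
    have b2 := congrArg (cL W ψ) ((eg u w₂).symm.trans (e u w₂))
    simp [e1, e2, a1, a2, h2] at b1 b2
    exact h1 (by simpa [b2] using b1.symm)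
  · obtain ⟨_, ⟨τ, -, rfl⟩, h⟩ := (hG ht).1 _ ⟨ρ, hρ, rfl⟩
    have := h (u ⊗ₜ w)
    simp only [map_tmul, End.one_apply, t1, t2] at this
    exact hw (mem_span_of_tmul_mem_line hu (this ▸ tmul_mem_line _ _))

omit [Fintype F] in
theorem exists_rho : ∃ ρ : End F (Fin 2 → F), ∀ u, ρ (ρ u) = ρ u + u :=
  ⟨Matrix.toLin' !![0, 1; 1, 1], fun u => by
    ext i; fin_cases i <;> simp [Matrix.vecHead, Matrix.vecTail] <;> ring⟩

omit [Fintype F] in
theorem li_tmul {u u' : U} {w w' : W} (hu : u ≠ 0) (hw : w ≠ 0)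
    (h : u' ⊗ₜ[F] w' ∉ Submodule.span F {u ⊗ₜ[F] w}) :
    LinearIndependent F ![u ⊗ₜ[F] w, u' ⊗ₜ[F] w'] :=
  (LinearIndependent.pair_iff' (tmul_ne_zero hu hw)).2 fun c e =>
    h (Submodule.mem_span_singleton.2 ⟨c, e⟩)

omit [Fintype F] in
theorem tmul_not_mem_left {u u' : U} {w : W} (hu : u' ∉ Submodule.span F {u}) (hw : w ≠ 0) :
    u' ⊗ₜ[F] w ∉ Submodule.span F {u ⊗ₜ[F] w} := fun h => by
  obtain ⟨c, e⟩ := Submodule.mem_span_singleton.1 h
  exact hu (Submodule.mem_span_singleton.2 ⟨c, tmul_left_inj hw (by rw [← e, smul_tmul'])⟩)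

omit [Fintype F] in
theorem tmul_not_mem_right {u : U} {w w' : W} (hw : w' ∉ Submodule.span F {w}) (hu : u ≠ 0) :
    u ⊗ₜ[F] w' ∉ Submodule.span F {u ⊗ₜ[F] w} := fun h => by
  obtain ⟨c, e⟩ := Submodule.mem_span_singleton.1 h
  exact hw (Submodule.mem_span_singleton.2 ⟨c, tmul_right_inj hu (by rw [← e, tmul_smul])⟩)

theorem between_f2_SLV [FiniteDimensional F W] (hq : Fintype.card F = 2)
    (hW : 2 ≤ finrank F W) : ∃ M, tenStab F (Fin 2 → F) W ⊓ SLV F _ < M ∧
      M < SLV F ((Fin 2 → F) ⊗[F] W) := by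
  have top : ∀ g, g ∈ SLV F ((Fin 2 → F) ⊗[F] W) := fun g => mem_SLV.2
    ((f2_cases hq _).resolve_left (LinearEquiv.isUnit_det' g).ne_zero)
  obtain ⟨ρ, hρ⟩ := exists_rho (F := F)
  obtain ⟨w, hw⟩ := finrank_pos_iff_exists_ne_zero.1 (show 0 < finrank F W by omega)
  obtain ⟨φ, h1⟩ := exists_dual_one (F := F) hw
  obtain ⟨w₂, h2, h3⟩ := exists_ker_ne_zero φ (by simp; omega)
  obtain ⟨w', h4⟩ := exists_not_mem_span hW w
  obtain ⟨g, -, e⟩ := exists_f2 hq hρ (π := φ.smulRight w) (by simp [h1])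
  have hu : (1 : Fin 2 → F) ≠ 0 := one_ne_zero
  obtain ⟨t, ht⟩ := exists_equiv_of_li (li_tmul hu hw (tmul_not_mem_left
    (f2_not_mem_span hq hρ hu) hw)) (li_tmul hu hw (tmul_not_mem_right h4 hu))
  exact between_f2 hq (by simp) hρ (top g) e hw h2 (by simp [h1]) (by simp [h3]) (top t) hu h4
    (ht 0) (ht 1)

theorem between_f2_quad [FiniteDimensional F W] (hq : Fintype.card F = 2)
    {Q : QuadraticForm F ((Fin 2 → F) ⊗[F] W)} (hQ : QNondeg Q) {C₂ : CForm (altType F) W}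
    (h₂ : C₂.Nondeg) {C₁ : CForm (altType F) (Fin 2 → F)} (hW : 3 ≤ finrank F W)
    (hB : ∀ u w u' w', polar Q (u ⊗ₜ w) (u' ⊗ₜ w') = C₁.B u u' * C₂.B w w')
    (h0 : ∀ u w, Q (u ⊗ₜ w) = 0) :
    ∃ M, tenStab F (Fin 2 → F) W ⊓ OmegaV Q < M ∧ M < OmegaV Q := by
  have hd : 6 ≤ finrank F ((Fin 2 → F) ⊗[F] W) := by simp; omega
  have hne : NotExc F ((Fin 2 → F) ⊗[F] W) := Or.inr (by omega)
  obtain ⟨ρ, hρ⟩ := exists_rho (F := F)
  obtain ⟨w, hw⟩ := finrank_pos_iff_exists_ne_zero.1 (show 0 < finrank F W by omega)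
  obtain ⟨w', h1⟩ := h₂.exists_eq hw 1
  have h1' : C₂.B w' w = -1 := by rw [alt_symm, h1]
  obtain ⟨w₂, h2, h3⟩ := exists_ker_ne_zero ((C₂.B w).prod (C₂.B w')) (by simp; omega)
  let π : End F W := (C₂.B w).smulRight w' - (C₂.B w').smulRight w
  have p1 : ∀ y z, C₂.B (π y) (z - π z) = 0 := fun y z => by
    simp [π, C₂.B_sub_left, alt_B_smul_left, h1, h1', alt_B_self]
  have p2 : ∀ y z, C₂.B (y - π y) (π z) = 0 := fun y z => C₂.B_swap_zero (p1 z y)
  obtain ⟨g, g3, e⟩ := exists_f2 hq hρ (π := π) (by simp [π, h1, h1', alt_B_self])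
  have hu : (1 : Fin 2 → F) ≠ 0 := one_ne_zero
  have r1 : ∀ u u', C₁.B (ρ u) (ρ u') = C₁.B u u' := fun u u' => by
    by_cases h : u = 0
    · simp [h]
    obtain ⟨x, y, rfl⟩ := f2_span hq (by simp) hρ h u'
    simp [hρ, alt_B_self, alt_symm u (ρ u)]
    linear_combination (-y * C₁.B u (ρ u)) * f2_two hq
  have r2 : ∀ x y, polar Q (g x) (g y) = polar Q x y := fun x y => by
    induction x with
    | zero => simp
    | add x z a b => simp only [map_add, polar_add_left, a, b]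
    | tmul u z =>
      induction y with
      | zero => simp
      | add x y a b => simp only [map_add, polar_add_right, a, b]
      | tmul u' z' =>
        simp only [e, polar_add_left, polar_add_right, hB, p1, p2, r1]
        linear_combination C₁.B u u' * (by simp [C₂.B_sub_left]; ring : C₂.B (π z) (π z') +
          C₂.B (z - π z) (z' - π z') + C₂.B (π z) (z' - π z') + C₂.B (z - π z) (π z') =
            C₂.B z z') - C₁.B u u' * (p1 z z' + p2 z z')
  have r3 : g ∈ orth Q := mem_orth.2 fun x => by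
    induction x with
    | zero => simp
    | add x z a b => rw [map_add, Q_add, Q_add, a, b, r2]
    | tmul u z => rw [e, Q_add, hB, p1]; simp [h0]
  have cube : ∀ f : orth Q →* ℤˣ, f ⟨g, r3⟩ = 1 := fun f => by
    have : (⟨g, r3⟩ : orth Q) * ⟨g, r3⟩ * ⟨g, r3⟩ = 1 := Subtype.ext g3
    have := congrArg f this
    rwa [map_mul, map_mul, Int.units_mul_self, one_mul, map_one] at this
  have h4 : w' ∉ Submodule.span F {w} := fun h => by
    obtain ⟨c, rfl⟩ := Submodule.mem_span_singleton.1 h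
    simp [alt_B_self] at h1
  obtain ⟨t, ht, t1, t2⟩ := (spec_quad hQ hne).witt_two hd (li_tmul hu hw (tmul_not_mem_left
    (f2_not_mem_span hq hρ hu) hw)) (li_tmul hu hw (tmul_not_mem_right h4 hu)) rfl
    ((h0 _ _).trans (h0 _ _).symm) (by simp [CForm.ofQuad_B, hB, alt_B_self])
  exact between_f2 hq (by simp) hρ (mem_OmegaV.2 ((mem_commutator_iff hQ hne ⟨g, r3⟩).2
    ⟨cube _, cube _⟩)) e hw h2 (by simp [π, h1', alt_B_self])
    (by simp [π, show C₂.B w w₂ = 0 from congrArg Prod.fst h3,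
      show C₂.B w' w₂ = 0 from congrArg Prod.snd h3]) ht hu h4 t1 t2

end F2

end H13.KL
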